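import Cfsg.Agent.Lib.LargeFischer.Coords
import Cfsg.Agent.Lib.FischerLarge.Conjugates

/-!
Large Fischer type: coordinates exist.
-/

set_option autoImplicit false
set_option linter.unusedSectionVars false
set_option linter.style.haveILetI false

namespace CfsgLib.LargeFischer

open scoped Classical
open Orbits CfsgLib.FischerLarge

/-- Coordinates to the field with four elements. -/
def encK : Option (ZMod 3) ≃ K4 where
  toFun o := match o with
    | none => K4.zero
    | some e => if e = 0 then K4.one else if e = 1 then K4.om else K4.om2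
  invFun k := match k with
    | K4.zero => none
    | K4.one => some 0
    | K4.om => some 1
    | K4.om2 => some 2
  left_inv := by
    have h : ∀ o : Option (ZMod 3), (match (match o with
      | none => K4.zero
      | some e => if e = 0 then K4.one else if e = 1 then K4.om else K4.om2) with
      | K4.zero => (none : Option (ZMod 3))
      | K4.one => some 0
      | K4.om => some 1
      | K4.om2 => some 2) = o := by decide
    exact h
  right_inv k := by cases k <;> rfl

theorem encK_add : ∀ a b, encK (addCoord a b) = encK a + encK b := by decide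

theorem encK_shift : ∀ (a : Option (ZMod 3)) (e : ZMod 3),
    encK (a.map (· + e)) = encK (some e) * encK a := by decide

theorem encK_eq_zero : ∀ a : Option (ZMod 3), encK a = 0 ↔ a = none := by decide

theorem conj_om : K4.conj K4.om = K4.om2 := rfl

theorem cast_wt_zero (n : ℕ) : ((n : ℕ) : K4) = 0 ↔ Even n := by
  constructor
  · intro h
    by_contra hn
    rw [FischerLarge.natCast_odd_K4 (Nat.not_even_iff_odd.1 hn)] at h
    exact one_ne_zero h
  · rintro ⟨k, rfl⟩
    rw [Nat.cast_add, K4.add_self]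

theorem encK_prod : ∀ a b : ZMod 3, encK (some (a + b)) = encK (some a) * encK (some b) := by decide

theorem encK_sum (s : Finset (Fin 6)) (a : Fin 6 → ZMod 3) :
    ∏ i ∈ s, encK (some (a i)) = encK (some (∑ i ∈ s, a i)) := by
  induction s using Finset.induction_on with
  | empty => rfl
  | insert i s hi ih => rw [Finset.prod_insert hi, Finset.sum_insert hi, ih, encK_prod]

variable {G : Type*} [Group G] [Finite G] {z : G}
  {Q : Subgroup ↥(Subgroup.centralizer ({z} : Set G))} [Q.Normal]

/-- The monomial elements. -/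
def monoSet (act : (↥(Subgroup.centralizer ({z} : Set G)) ⧸ Q) →* Equiv.Perm Pt) :
    Set (↥(Subgroup.centralizer ({z} : Set G)) ⧸ Q) :=
  {γ | ∃ σ ∈ alternatingGroup (Fin 6), ∃ a : Fin 6 → ZMod 3, ∑ i, a i = 0 ∧
    ∀ (v : Pt) (i : Fin 6), act γ v (σ i) = (v i).map (· + a i)}

theorem monoSet_mul {act : (↥(Subgroup.centralizer ({z} : Set G)) ⧸ Q) →* Equiv.Perm Pt}
    {γ δ : ↥(Subgroup.centralizer ({z} : Set G)) ⧸ Q}
    (h : γ ∈ monoSet act) (h' : δ ∈ monoSet act) : γ * δ ∈ monoSet act := by
  obtain ⟨σ, hσ, a, ha0, ha⟩ := h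
  obtain ⟨τ, hτ, b, hb0, hb⟩ := h'
  refine ⟨σ * τ, mul_mem hσ hτ, fun i => b i + a (τ i), ?_, fun v i => ?_⟩
  · rw [Finset.sum_add_distrib, hb0, Equiv.sum_comp τ a, ha0, add_zero]
  · rw [map_mul, Equiv.Perm.mul_apply, Equiv.Perm.mul_apply, ha (act δ v) (τ i), hb v i,
      Option.map_map]
    congr 1
    funext e
    exact add_assoc e (b i) (a (τ i))

set_option maxHeartbeats 1000000 in
/-- **Coordinates exist.** -/
theorem exists_coords (hF : Cfsg.IsOfLargeFischerTypeAt z Q) : Nonempty (Coords z Q) := by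
  obtain ⟨P, _, _, E', S, M, V, _, _, hVfin, L, f, h, π, -, hP, -, hMn, hidx, hQM, F⟩ :=
    FischerLarge.exists_frame hF
  haveI := hMn
  obtain ⟨ψ, hψ, hm⟩ := F.cover.exists_monomial hP
  have hs := hF.1
  have hzH : π (zH z) = 0 := (F.ker _ (zH_mem hs)).2 (Or.inr rfl)
  -- the coordinates
  let cd : Pt ≃ V := ((Equiv.piCongrRight fun _ => encK).trans ψ.toEquiv.symm)
  have hcd : ∀ v i, ψ (cd v) i = encK (v i) := by
    intro v i
    show ψ (ψ.toEquiv.symm _) i = _
    simp
  have hcd' : ∀ (x : V) v, (∀ i, ψ x i = encK (v i)) → x = cd v := fun x v hx =>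
    ψ.injective (funext fun i => (hx i).trans (hcd v i).symm)
  -- the action on `V`
  choose e he hsemi using F.semi
  have hext : ∀ e₁ e₂ : V ≃+ V, (∀ a ∈ Q, e₁ (π a) = e₂ (π a)) → e₁ = e₂ := fun e₁ e₂ h' =>
    AddEquiv.ext fun v => by
      obtain ⟨a, ha, rfl⟩ := F.surj v
      exact h' a ha
  have hemul : ∀ c d x, e (c * d) x = e c (e d x) := by
    intro c d x
    obtain ⟨a, ha, rfl⟩ := F.surj x
    rw [← he _ a ha, ← he d a ha, ← he c _ ((inferInstance : Q.Normal).conj_mem a ha d)]
    congr 1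
    group
  let ρ : ↥(Subgroup.centralizer ({z} : Set G)) →* Equiv.Perm Pt :=
    MonoidHom.mk' (fun c => (cd.trans (e c).toEquiv).trans cd.symm) (fun c d => Equiv.ext fun v => by
      simp [hemul])
  have hρ : ∀ c v, cd (ρ c v) = e c (cd v) := fun c v => by simp [ρ]
  have hker : ρ.ker = Q := by
    ext c
    rw [MonoidHom.mem_ker]
    constructor
    · intro hc
      refine F.faithful c fun a ha => ?_
      rw [he c a ha]
      obtain ⟨v, hv⟩ := cd.surjective (π a)
      rw [← hv, ← hρ, hc]
      rfl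
    · intro hc
      refine Equiv.ext fun v => cd.injective ?_
      rw [hρ]
      obtain ⟨a, ha, hav⟩ := F.surj (cd v)
      rw [← hav, ← he c a ha, F.map_conj_eq hc ha, hav]
      rfl
  let act := QuotientGroup.lift Q ρ hker.ge
  have hact : ∀ c v, cd (act (QuotientGroup.mk c) v) = e c (cd v) := fun c v => hρ c v
  have hinj : Function.Injective act := by
    refine (injective_iff_map_eq_one act).2 fun γ hγ => ?_
    obtain ⟨c, rfl⟩ := QuotientGroup.mk_surjective γ
    exact (QuotientGroup.eq_one_iff c).2 (hker.le hγ)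
  -- linear elements
  have hofL : ∀ g ∈ L, ∃ c, ∀ v, cd (act (QuotientGroup.mk c) v) = g (cd v) := by
    intro g hg
    obtain ⟨m, -, hm'⟩ := F.ofL g hg
    refine ⟨m, fun v => ?_⟩
    obtain ⟨a, ha, hav⟩ := F.surj (cd v)
    rw [hact, ← hav, ← he m a ha, hm' a ha]
  -- representatives
  choose lift hliftQ hlift using fun v : Pt => F.surj (cd v)
  have hrep : ∀ (q : ↥(Subgroup.centralizer ({z} : Set G))), q ∈ Q → ∀ v, π q = cd v →
      q = lift v ∨ q = lift v * zH z := by
    intro q hq v hv
    rcases F.fiber (hliftQ v) hq ((hlift v).trans hv.symm) with h' | h'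
    · exact Or.inl h'
    · exact Or.inr (Subtype.ext h')
  have hmonoL : ∀ σ ∈ alternatingGroup (Fin 6), ∀ a : Fin 6 → ZMod 3, ∑ i, a i = 0 →
      ∃ γ, ∀ (v : Pt) (i : Fin 6), act γ v (σ i) = (v i).map (· + a i) := by
    intro σ hσ a ha
    obtain ⟨g, hg, hgv⟩ := hm σ⁻¹ (inv_mem hσ) (fun j => encK (some (a (σ⁻¹ j)))) (by
      rw [Equiv.prod_comp σ⁻¹ (fun i => encK (some (a i))), encK_sum, ha]; rfl)
    obtain ⟨c, hc⟩ := hofL g hg
    refine ⟨QuotientGroup.mk c, fun v i => encK.injective ?_⟩
    rw [← hcd, hc, hgv, hcd, encK_shift]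
    simp
  have hone : (1 : ↥(Subgroup.centralizer ({z} : Set G)) ⧸ Q) ∈ monoSet act :=
    ⟨1, one_mem _, 0, by simp, fun v i => by rw [map_one]; rcases hvi : v i with _ | x <;> simp [hvi]⟩
  let Pm : Subgroup (↥(Subgroup.centralizer ({z} : Set G)) ⧸ Q) :=
    { carrier := monoSet act
      one_mem' := hone
      mul_mem' := monoSet_mul
      inv_mem' := by
        intro γ hγ
        have hpow : ∀ n : ℕ, γ ^ n ∈ monoSet act := by
          intro n
          induction n with
          | zero => simpa using hone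
          | succ n ih => rw [pow_succ]; exact monoSet_mul ih hγ
        rw [inv_eq_of_mul_eq_one_right (show γ * γ ^ (orderOf γ - 1) = 1 by
          rw [← pow_succ', Nat.sub_add_cancel (orderOf_pos γ), pow_orderOf_eq_one])]
        exact hpow _ }
  have hcardP : Nat.card Pm = 87480 := by
    choose σ hσ a ha0 ha using fun γ : Pm => γ.2
    let Φ : Pm → ↥(alternatingGroup (Fin 6)) × {a : Fin 6 → ZMod 3 // ∑ i, a i = 0} :=
      fun γ => (⟨σ γ, hσ γ⟩, ⟨a γ, ha0 γ⟩)
    have hΦ : Function.Bijective Φ := by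
      refine ⟨fun γ δ hh => ?_, ?_⟩
      · have h1 : σ γ = σ δ := congrArg (fun p => p.1.1) hh
        have h2 : a γ = a δ := congrArg (fun p => p.2.1) hh
        refine Subtype.ext (hinj (Equiv.ext fun v => funext fun j => ?_))
        obtain ⟨i, rfl⟩ := (σ γ).surjective j
        conv_rhs => rw [h1]
        rw [ha γ, ha δ, h2]
      · rintro ⟨⟨σ₀, hσ₀⟩, ⟨a₀, ha₀⟩⟩
        obtain ⟨γ, hγ⟩ := hmonoL σ₀ hσ₀ a₀ ha₀
        let γ' : Pm := ⟨γ, σ₀, hσ₀, a₀, ha₀, hγ⟩
        refine ⟨γ', ?_⟩
        have hσeq : σ γ' = σ₀ := by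
          ext i
          by_contra hne
          have e1 := ha γ' (Function.update zeroPt i (some 0)) i
          have e2 := hγ (Function.update zeroPt i (some 0)) (σ₀⁻¹ (σ γ' i))
          rw [show γ'.1 = γ from rfl] at e1
          rw [← Equiv.Perm.mul_apply, mul_inv_cancel, Equiv.Perm.one_apply, e1] at e2
          have hne' : σ₀⁻¹ (σ γ' i) ≠ i := fun h' => hne (by
            conv_rhs => rw [← h']
            simp)
          rw [Function.update_self, Function.update_of_ne hne'] at e2
          simp [zeroPt] at e2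
        have haeq : a γ' = a₀ := by
          funext i
          have e1 := ha γ' (fun _ => some 0) i
          have e2 := hγ (fun _ => some 0) i
          rw [show γ'.1 = γ from rfl, hσeq] at e1
          rw [e1] at e2
          simpa using e2
        exact Prod.ext (Subtype.ext hσeq) (Subtype.ext haeq)
    rw [Nat.card_congr (Equiv.ofBijective Φ hΦ), Nat.card_prod, nat_card_alternatingGroup,
      Nat.card_fin, Nat.card_eq_fintype_card]
    decide +kernel
  -- the order of `H/Q`
  obtain ⟨φ, hφs, hφk, hφ⟩ := F.exists_hom hQM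
  have hMimg : Nat.card (M.map (QuotientGroup.mk' Q)) = 9797760 := by
    have h1 : Nat.card (M.map (QuotientGroup.mk' Q)) =
        ((QuotientGroup.mk' Q).comp M.subtype).ker.index := by
      rw [Subgroup.index_ker, MonoidHom.range_comp, Subgroup.range_subtype]
    have h2 : ((QuotientGroup.mk' Q).comp M.subtype).ker = φ.ker := by
      ext m
      rw [MonoidHom.mem_ker, MonoidHom.mem_ker, hφk]
      exact QuotientGroup.eq_one_iff _
    rw [h1, h2, Subgroup.index_ker, MonoidHom.range_eq_top_of_surjective φ hφs, Subgroup.card_top,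
      F.cardL]
  have hidx' : (M.map (QuotientGroup.mk' Q)).index = 2 := by
    rw [Subgroup.index_map, QuotientGroup.ker_mk', sup_eq_left.2 hQM, hidx,
      MonoidHom.range_eq_top_of_surjective _ (QuotientGroup.mk'_surjective Q), Subgroup.index_top,
      mul_one]
  have hcard : Nat.card (↥(Subgroup.centralizer ({z} : Set G)) ⧸ Q) = 19595520 := by
    rw [← Subgroup.card_mul_index (M.map (QuotientGroup.mk' Q)), hMimg, hidx']
  -- the scalar
  obtain ⟨gs, hgs⟩ := F.cover.scalar K4.om (by decide)
  obtain ⟨x, hx⟩ := hofL gs.1 gs.2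
  have hx' : ∀ v, act (QuotientGroup.mk x) v = shift (fun _ => 1) v := by
    intro v
    refine funext fun i => encK.injective ?_
    rw [← hcd, hx, hgs, map_smul, Pi.smul_apply, smul_eq_mul, hcd]
    exact (encK_shift (v i) 1).symm
  refine ⟨{
    act := act
    act_injective := hinj
    lift := lift
    lift_mem := hliftQ
    lift_surj := fun q hq => ?_
    lift_inj := fun v w hvw => ?_
    lift_add := fun v w => ?_
    lift_sq := fun v => ?_
    conj_lift := fun c v => ?_
    P := Pm
    card_P := hcardP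
    P_mono := fun γ hγ => ?_
    P_diag := fun a ha => ?_
    P_perm := fun σ hσ => ?_
    x := x
    act_x := hx'
    act_semilinear := fun γ => ?_
    card_quot := hcard
    seven := fun v hv => ?_ }⟩
  · obtain ⟨v, hv⟩ := cd.surjective (π q)
    exact ⟨v, hrep q hq v hv.symm⟩
  · refine cd.injective ?_
    rw [← hlift v, ← hlift w]
    rcases hvw with e' | e' <;> rw [e']
    rw [F.map_mul _ (hliftQ w) _ (zH_mem hs), hzH, add_zero]
  · refine hrep _ (mul_mem (hliftQ v) (hliftQ w)) _ ?_
    rw [F.map_mul _ (hliftQ v) _ (hliftQ w), hlift, hlift]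
    refine hcd' _ _ fun i => ?_
    rw [map_add, Pi.add_apply, hcd, hcd]
    exact (encK_add _ _).symm
  · rw [← F.sq _ (hliftQ v), hlift, hψ.form, FischerLarge.herm_self, cast_wt_zero,
      FischerLarge.wt_eq_card]
    have : (Finset.univ.filter fun i => ψ (cd v) i ≠ 0) = supp v := by
      ext i
      simp [mem_supp, hcd, encK_eq_zero]
    rw [this]
    rfl
  · refine hrep _ ((inferInstance : Q.Normal).conj_mem _ (hliftQ v) c) _ ?_
    rw [he c _ (hliftQ v), hlift, hact]
  · obtain ⟨σ, hσ, a, -, ha⟩ := hγ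
    exact ⟨σ, hσ, a, ha⟩
  · obtain ⟨γ, hγ⟩ := hmonoL 1 (one_mem _) a ha
    exact ⟨γ, ⟨1, one_mem _, a, ha, hγ⟩, fun v => funext fun i => hγ v i⟩
  · obtain ⟨γ, hγ⟩ := hmonoL σ hσ 0 (by simp)
    refine ⟨γ, ⟨σ, hσ, 0, by simp, hγ⟩, fun v => ?_⟩
    ext j
    obtain ⟨i, rfl⟩ := σ.surjective j
    rw [mem_supp, hγ v i, σ.injective.mem_finset_image, mem_supp]
    rcases v i with _ | w <;> simp
  · obtain ⟨c, rfl⟩ := QuotientGroup.mk_surjective γ
    have hsh : ∀ (w : Pt) (t : ZMod 3), cd (shift (fun _ => t) w) = encK (some t) • cd w := by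
      intro w t
      refine (hcd' _ _ fun i => ?_).symm
      rw [map_smul, Pi.smul_apply, smul_eq_mul, hcd]
      exact (encK_shift (w i) t).symm
    rcases hsemi c with h' | h'
    · exact Or.inl fun w => cd.injective (by rw [hact, hsh, hsh, h', hact])
    · refine Or.inr fun w => cd.injective ?_
      rw [hact, hsh, hsh, h', hact]
      rfl
  · obtain ⟨hv0, hiso⟩ : cd v ≠ 0 ∧ h (cd v) (cd v) = 0 := by
      refine ⟨fun e' => hv.1 (funext fun i => ?_), ?_⟩
      · rw [← encK_eq_zero, ← hcd, e', map_zero]; rfl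
      · rw [hψ.form, FischerLarge.herm_self, cast_wt_zero, FischerLarge.wt_eq_card]
        have : (Finset.univ.filter fun i => ψ (cd v) i ≠ 0) = supp v := by
          ext i
          simp [mem_supp, hcd, encK_eq_zero]
        rw [this]
        exact hv.2
    haveI : Fact (Nat.Prime 7) := ⟨by norm_num⟩
    letI := MulAction.compHom Pt act
    have h1 : Nat.card (MulAction.orbit act.range v) =
        Nat.card (MulAction.orbit (↥(Subgroup.centralizer ({z} : Set G)) ⧸ Q) v) := by
      refine Nat.card_congr (Equiv.setCongr (Set.ext fun w => ⟨?_, ?_⟩))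
      · rintro ⟨⟨_, γ, rfl⟩, hw⟩; exact ⟨γ, hw⟩
      · rintro ⟨γ, hw⟩; exact ⟨⟨act γ, γ, rfl⟩, hw⟩
    have h2 := Nat.card_congr (MulAction.orbitProdStabilizerEquivGroup
      (↥(Subgroup.centralizer ({z} : Set G)) ⧸ Q) v)
    rw [Nat.card_prod, hcard, ← h1] at h2
    have h7 : 7 ∣ Nat.card (MulAction.orbit act.range v) * Nat.card
        (MulAction.stabilizer (↥(Subgroup.centralizer ({z} : Set G)) ⧸ Q) v) := by
      rw [h2]; norm_num
    rcases (Nat.Prime.dvd_mul (by norm_num)).1 h7 with h7 | h7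
    · exact h7
    exfalso
    obtain ⟨γ, hγ⟩ := exists_prime_orderOf_dvd_card' _ h7
    have hfix : act γ.1 v = v := γ.2
    have hγM : γ.1 ∈ M.map (QuotientGroup.mk' Q) := by
      have h3 := Subgroup.sq_mem_of_index_two hidx' γ.1
      have h4 : γ.1 ^ 7 = 1 := by
        rw [← hγ, ← Subgroup.orderOf_coe]; exact pow_orderOf_eq_one _
      have h8 : (γ.1 ^ 2) ^ 4 = γ.1 := by rw [← pow_mul, pow_succ _ 7, h4, one_mul]
      rw [← h8]
      exact pow_mem h3 4
    obtain ⟨m, hmM, hmγ⟩ := hγM
    have hgfix : (φ ⟨m, hmM⟩ : V ≃ₗ[K4] V) (cd v) = cd v := by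
      obtain ⟨a, ha, hav⟩ := F.surj (cd v)
      rw [← hav, ← hφ ⟨m, hmM⟩ a ha, he m a ha, hav, ← hact]
      rw [show (QuotientGroup.mk m : ↥(Subgroup.centralizer ({z} : Set G)) ⧸ Q) = γ.1 from hmγ, hfix]
    have hord : orderOf (φ ⟨m, hmM⟩) = 7 := by
      refine orderOf_eq_prime ?_ ?_
      · rw [← map_pow, hφk]
        show m ^ 7 ∈ Q
        refine (QuotientGroup.eq_one_iff _).1 ?_
        rw [QuotientGroup.mk_pow]
        rw [show (QuotientGroup.mk m : ↥(Subgroup.centralizer ({z} : Set G)) ⧸ Q) = γ.1 from hmγ,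
          ← hγ, ← Subgroup.orderOf_coe]
        exact pow_orderOf_eq_one _
      · intro e1
        have h5 : γ.1 = 1 := by
          rw [← hmγ]
          exact (QuotientGroup.eq_one_iff m).2 ((hφk ⟨m, hmM⟩).1 e1)
        rw [← Subgroup.orderOf_coe, h5, orderOf_one] at hγ
        norm_num at hγ
    exact hv0 (F.cover.fixed_eq_zero hord hgfix hiso)

end CfsgLib.LargeFischer
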