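import Cfsg.Agent.Lib.LargeFischer.Conjugates

/-!
Large Fischer type: the statements on the orbits of `H` on `Q` and on the meet of `Q` with a
conjugate, from coordinates.
-/

set_option autoImplicit false
set_option linter.unusedSectionVars false
set_option linter.style.haveILetI false

namespace CfsgLib.LargeFischer

open Orbits

variable {G : Type*} [Group G] [Finite G] {z : G}
  {Q : Subgroup ↥(Subgroup.centralizer ({z} : Set G))} [Q.Normal]
  (hs : Cfsg.IsExtraspecialCentralizerSetting z Q 6) (C : Coords z Q)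
include hs C

/-- An element of `Q` over a vector of the longer class is conjugate to `z`. -/
theorem isConj_of_inFour {c : ZMod 3} (hc : C.ClassData c) {v : Pt}
    {t : ↥(Subgroup.centralizer ({z} : Set G))} (ht : C.Rep v t) (hv : InFour c v) :
    IsConj z t.1 := by
  obtain ⟨g, ⟨hq, hmem⟩, hne⟩ := hs.2.2.2.2
  obtain ⟨w, hw⟩ := exists_meetData hs C hc g ⟨g * z * g⁻¹, hq⟩ hmem rfl
    (fun e => hne (congrArg Subtype.val e))
  obtain ⟨γ, hγ⟩ := hc.four_trans w v hw.inFour hv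
  obtain ⟨a, ha⟩ := Coords.exists_conj_eq hs hw.rep ht hw.inFour.singular.1 hγ
  refine isConj_iff.2 ⟨a.1 * g, ?_⟩
  rw [← congrArg Subtype.val ha]
  show a.1 * g * z * (a.1 * g)⁻¹ = a.1 * (g * z * g⁻¹) * a.1⁻¹
  group

/-- An involution of `Q` not conjugate to `z` lies over a vector of the shorter class. -/
theorem inTwo_of_not_isConj {c : ZMod 3} (hc : C.ClassData c)
    {t : ↥(Subgroup.centralizer ({z} : Set G))} (htQ : t ∈ Q) (ht2 : orderOf t = 2)
    (ht : ¬ IsConj z t.1) : ∃ v, C.Rep v t ∧ InTwo c v := by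
  obtain ⟨v, hv⟩ := Coords.exists_rep (C := C) htQ
  refine ⟨v, hv, ?_⟩
  have hsing : Singular v := (hv.singular_iff hs).2 ⟨by
      rw [← pow_two, ← ht2]; exact pow_orderOf_eq_one t,
    fun e => by rw [e, orderOf_one] at ht2; norm_num at ht2,
    fun e => ht (e ▸ IsConj.refl z)⟩
  rcases singular_cases (c := c) hsing with h | h
  · exact h
  · exact absurd (isConj_of_inFour hs C hc hv h) ht

/-- Two orbits on the involutions of `Q` other than `z`. -/
theorem two_classes : ∃ s t : Subgroup.centralizer ({z} : Set G), s ∈ Q ∧ t ∈ Q ∧ orderOf s = 2 ∧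
    orderOf t = 2 ∧ (s : G) ≠ z ∧ (t : G) ≠ z ∧
    (¬ ∃ h : Subgroup.centralizer ({z} : Set G), h * s * h⁻¹ = t) ∧
    ∀ x : Subgroup.centralizer ({z} : Set G), x ∈ Q → orderOf x = 2 → (x : G) ≠ z →
      (∃ h : Subgroup.centralizer ({z} : Set G), h * s * h⁻¹ = x) ∨
      ∃ h : Subgroup.centralizer ({z} : Set G), h * t * h⁻¹ = x := by
  obtain ⟨c, hc⟩ := C.exists_classData hs
  have h2 : InTwo c vTwo := Or.inl wt_vTwo
  have h4 : InFour c (vSix (c + 1)) := Or.inr ⟨wt_vSix _, by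
    rw [total_vSix]; intro e; exact absurd (left_eq_add.1 e.symm) (by decide)⟩
  have rs : C.Rep vTwo (C.lift vTwo) := Or.inl rfl
  have rt : C.Rep (vSix (c + 1)) (C.lift (vSix (c + 1))) := Or.inl rfl
  have fs := (rs.singular_iff hs).1 h2.singular
  have ft := (rt.singular_iff hs).1 h4.singular
  refine ⟨_, _, C.lift_mem vTwo, C.lift_mem (vSix (c + 1)),
    orderOf_eq_prime (by rw [pow_two]; exact fs.1) fs.2.1,
    orderOf_eq_prime (by rw [pow_two]; exact ft.1) ft.2.1,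
    fun e => fs.2.2 (Subtype.ext e), fun e => ft.2.2 (Subtype.ext e), ?_, ?_⟩
  · rintro ⟨a, ha⟩
    have h := rs.conj hs a
    rw [ha] at h
    exact not_two_four (hc.two_act (QuotientGroup.mk a) vTwo h2) (rt.unique hs h ▸ h4)
  · intro x hx hx2 hxz
    obtain ⟨v, hv⟩ := Coords.exists_rep (C := C) hx
    have hsing : Singular v := (hv.singular_iff hs).2 ⟨by
        rw [← pow_two, ← hx2]; exact pow_orderOf_eq_one x,
      fun e => by rw [e, orderOf_one] at hx2; norm_num at hx2,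
      fun e => hxz (congrArg Subtype.val e)⟩
    rcases singular_cases (c := c) hsing with h | h
    · obtain ⟨γ, hγ⟩ := hc.two_trans _ v h2 h
      exact Or.inl (Coords.exists_conj_eq hs rs hv h2.singular.1 hγ)
    · obtain ⟨γ, hγ⟩ := hc.four_trans _ v h4 h
      exact Or.inr (Coords.exists_conj_eq hs rt hv h4.singular.1 hγ)

/-- The conjugates of `z` in `Q` other than `z` form one orbit. -/
theorem one_class (s t : G)
    (hsQ : ∃ hsc : s ∈ Subgroup.centralizer ({z} : Set G),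
      (⟨s, hsc⟩ : Subgroup.centralizer ({z} : Set G)) ∈ Q)
    (htQ : ∃ htc : t ∈ Subgroup.centralizer ({z} : Set G),
      (⟨t, htc⟩ : Subgroup.centralizer ({z} : Set G)) ∈ Q)
    (hS : IsConj z s) (hT : IsConj z t) (hs1 : s ≠ z) (ht1 : t ≠ z) :
    ∃ h ∈ Subgroup.centralizer ({z} : Set G), h * s * h⁻¹ = t := by
  obtain ⟨c, hc⟩ := C.exists_classData hs
  obtain ⟨hsc, hsm⟩ := hsQ
  obtain ⟨htc, htm⟩ := htQ
  obtain ⟨g, hg⟩ := isConj_iff.1 hS
  obtain ⟨k, hk⟩ := isConj_iff.1 hT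
  obtain ⟨v, hv⟩ := exists_meetData hs C hc g ⟨s, hsc⟩ hsm hg
    (fun e => hs1 (congrArg Subtype.val e))
  obtain ⟨w, hw⟩ := exists_meetData hs C hc k ⟨t, htc⟩ htm hk
    (fun e => ht1 (congrArg Subtype.val e))
  obtain ⟨γ, hγ⟩ := hc.four_trans v w hv.inFour hw.inFour
  obtain ⟨a, ha⟩ := Coords.exists_conj_eq hs hv.rep hw.rep hv.inFour.singular.1 hγ
  exact ⟨a.1, a.2, congrArg Subtype.val ha⟩

/-- The meet of `Q` with a conjugate, and the stabiliser of the conjugate of `z` in `H/Q`. -/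
theorem meet_structure (s : G)
    (hsQ : ∃ hsc : s ∈ Subgroup.centralizer ({z} : Set G),
      (⟨s, hsc⟩ : Subgroup.centralizer ({z} : Set G)) ∈ Q)
    (hs1 : s ≠ z) (g : G) (hg : g * z * g⁻¹ = s)
    (X E : Subgroup (↥(Subgroup.centralizer ({z} : Set G)) ⧸ Q))
    (hX : X = fixImage Q s) (hE : E = meetImage Q g) :
    Cfsg.IsElementaryAbelian 2 (QG Q ⊓ QG' Q g) ∧ Nat.card ↥(QG Q ⊓ QG' Q g) = 2 ^ 7 ∧ E ≤ X ∧
      (∀ x ∈ X, ∀ y ∈ E, x * y * x⁻¹ ∈ E) ∧ Cfsg.IsElementaryAbelian 2 E ∧ Nat.card E = 32 ∧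
      ∃ _ : (E.subgroupOf X).Normal,
        Nonempty (↥X ⧸ E.subgroupOf X ≃* alternatingGroup (Fin 6)) := by
  subst hX hE
  obtain ⟨c, hc⟩ := C.exists_classData hs
  obtain ⟨hsc, hsm⟩ := hsQ
  obtain ⟨v, hv⟩ := exists_meetData hs C hc g ⟨s, hsc⟩ hsm hg
    (fun e => hs1 (congrArg Subtype.val e))
  have hn : ((meetImage Q g).subgroupOf (fixImage Q s)).Normal :=
    ⟨fun e he a => hv.normal a.1 a.2 e.1 he⟩
  refine ⟨hv.elem_inf, hv.card_inf, hv.le, hv.normal, hv.elem, hv.card_meetImage, hn, ?_⟩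
  haveI : Fact (Nat.Prime 2) := ⟨Nat.prime_two⟩
  have hp : IsPGroup 2 (meetImage Q g) := fun e =>
    ⟨1, by rw [pow_one]; exact Subtype.ext (hv.elem.2 e.1 e.2)⟩
  have hfix : fixImage Q s = C.stab v := hv.fix_eq
  have hle : meetImage Q g ≤ fixImage Q s := hv.le
  have hnorm : ∀ a ∈ fixImage Q s, ∀ e ∈ meetImage Q g, a * e * a⁻¹ ∈ meetImage Q g := hv.normal
  revert hn hle hnorm
  rw [hfix]
  intro hn hle hnorm
  exact (Coords.card_le_thirty_two hc hv.inFour _ hle hnorm hp).2 hv.card_meetImage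

end CfsgLib.LargeFischer
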