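import Cfsg.Agent.Lib.LargeFischer.Stabiliser
import Cfsg.Agent.Lib.ExtraspecialLarge.Basic
import Cfsg.Agent.Lib.JFour.ElemBound
import Cfsg.Prelude.Def_Transfer

/-!
Large Fischer type: a conjugate `s ≠ z` of `z` in `Q` lies over a vector of the longer class, and
its conjugate of `Q` meets `Q` in a group of order `2 ^ 7`.
-/

set_option autoImplicit false
set_option linter.unusedSectionVars false
set_option linter.style.haveILetI false

namespace CfsgLib.LargeFischer

open Orbits CfsgLib.ExtraspecialLarge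

variable {G : Type*} [Group G] [Finite G] {z : G}
  {Q : Subgroup ↥(Subgroup.centralizer ({z} : Set G))} [Q.Normal]

/-- `Q` as a subgroup of `G`. -/
abbrev QG (Q : Subgroup ↥(Subgroup.centralizer ({z} : Set G))) : Subgroup G :=
  Q.map (Subgroup.centralizer ({z} : Set G)).subtype

/-- The conjugate of `Q` by `g`. -/
abbrev QG' (Q : Subgroup ↥(Subgroup.centralizer ({z} : Set G))) (g : G) : Subgroup G :=
  (QG Q).map (MulAut.conj g).toMonoidHom

/-- The image in `H/Q` of the elements of `H` fixing `s`. -/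
abbrev fixImage (Q : Subgroup ↥(Subgroup.centralizer ({z} : Set G))) [Q.Normal] (s : G) :
    Subgroup (↥(Subgroup.centralizer ({z} : Set G)) ⧸ Q) :=
  ((Subgroup.centralizer ({z} : Set G) ⊓ Subgroup.centralizer ({s} : Set G)).subgroupOf
    (Subgroup.centralizer ({z} : Set G))).map (QuotientGroup.mk' Q)

/-- The image in `H/Q` of the elements of `H` in the conjugate of `Q`. -/
abbrev meetImage (Q : Subgroup ↥(Subgroup.centralizer ({z} : Set G))) [Q.Normal] (g : G) :
    Subgroup (↥(Subgroup.centralizer ({z} : Set G)) ⧸ Q) :=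
  ((QG' Q g ⊓ Subgroup.centralizer ({z} : Set G)).subgroupOf
    (Subgroup.centralizer ({z} : Set G))).map (QuotientGroup.mk' Q)

variable (hs : Cfsg.IsExtraspecialCentralizerSetting z Q 6)
include hs

theorem good_QG : Good (QG Q) z := by
  have hz : (zH z : ↥(Subgroup.centralizer ({z} : Set G))).1 = z := rfl
  refine ⟨⟨zH z, zH_mem hs, rfl⟩, ?_, ?_, ?_, ?_, ?_, ?_, ?_, ?_⟩
  · intro e; exact zH_ne_one hs (Subtype.ext e)
  · exact congrArg Subtype.val (zH_sq hs)
  · rintro _ ⟨q, _, rfl⟩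
    exact congrArg Subtype.val (zH_comm q)
  · rintro _ ⟨q, hq, rfl⟩ _ ⟨r, hr, rfl⟩
    rcases conj_cases hs hr hq with e | e
    · exact Or.inl (congrArg Subtype.val e)
    · exact Or.inr (congrArg Subtype.val e)
  · rintro _ ⟨r, hr, rfl⟩ hc
    rcases center_cases hs hr (fun y hy => Subtype.ext (hc y.1 ⟨y, hy, rfl⟩).symm) with e | e
    · exact Or.inl (congrArg Subtype.val e)
    · exact Or.inr (congrArg Subtype.val e)
  · rintro _ ⟨q, hq, rfl⟩
    rcases sq_cases hs hq with e | e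
    · exact Or.inl (congrArg Subtype.val e)
    · exact Or.inr (congrArg Subtype.val e)
  · intro g hg
    have hgH : g ∈ Subgroup.centralizer ({z} : Set G) :=
      Subgroup.mem_centralizer_singleton_iff.2 (hg z ⟨zH z, zH_mem hs, rfl⟩)
    exact ⟨⟨g, hgH⟩, mem_Q_of_centralizes hs (fun y hy => Subtype.ext (hg y.1 ⟨y, hy, rfl⟩)), rfl⟩
  · rintro g hg _ ⟨q, hq, rfl⟩
    exact ⟨⟨g, Subgroup.mem_centralizer_singleton_iff.2 hg⟩ * q *
      ⟨g, Subgroup.mem_centralizer_singleton_iff.2 hg⟩⁻¹,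
      (inferInstance : Q.Normal).conj_mem q hq _, rfl⟩

theorem fixImage_eq (C : Coords z Q) {v : Pt} {s : ↥(Subgroup.centralizer ({z} : Set G))}
    (h : C.Rep v s) (hv : v ≠ zeroPt) : fixImage Q s.1 = C.stab v := by
  ext γ
  constructor
  · rintro ⟨a, ⟨_, ha⟩, rfl⟩
    have e : a * s * a⁻¹ = s :=
      mul_inv_eq_iff_eq_mul.2 (Subtype.ext (Subgroup.mem_centralizer_singleton_iff.1 ha))
    have h' := h.conj hs a
    rw [e] at h'
    exact h'.unique hs h
  · intro hγ
    obtain ⟨a, rfl⟩ := QuotientGroup.mk_surjective γ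
    have h' := h.conj hs a
    have hγ' : C.act (QuotientGroup.mk a) v = v := hγ
    rw [hγ'] at h'
    have hmem : ∀ b : ↥(Subgroup.centralizer ({z} : Set G)), b * s * b⁻¹ = s →
        (QuotientGroup.mk b : ↥(Subgroup.centralizer ({z} : Set G)) ⧸ Q) ∈ fixImage Q s.1 :=
      fun b hb => ⟨b, ⟨b.2, Subgroup.mem_centralizer_singleton_iff.2
        (congrArg Subtype.val (mul_inv_eq_iff_eq_mul.1 hb))⟩, rfl⟩
    rcases h.pair hs h' with e | e
    · exact hmem a e
    · have hn : ¬ (s = 1 ∨ s = zH z) := fun c => hv ((h.zero_iff hs).2 c)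
      rw [not_or] at hn
      obtain ⟨y, hy, hys⟩ := exists_conj hs (h.mem hs) hn.1 hn.2
      have e2 : a * y * s * (a * y)⁻¹ = s := by
        calc a * y * s * (a * y)⁻¹ = a * (y * s * y⁻¹) * a⁻¹ := by group
          _ = zH z * (a * s * a⁻¹) := by rw [hys, conj_zH_mul]
          _ = s := by rw [e, zH_comm, zH_cancel hs]
      have h2 := hmem (a * y) e2
      rwa [QuotientGroup.mk_mul, (QuotientGroup.eq_one_iff y).2 hy, mul_one] at h2

/-- What is known about a conjugate `s = g z g⁻¹` in `Q` other than `z`. -/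
structure MeetData (C : Coords z Q) (c : ZMod 3) (g : G)
    (s : ↥(Subgroup.centralizer ({z} : Set G))) (v : Pt) : Prop where
  rep : C.Rep v s
  inFour : InFour c v
  z_mem : z ∈ QG' Q g
  fix_eq : fixImage Q s.1 = C.stab v
  le : meetImage Q g ≤ fixImage Q s.1
  normal : ∀ a ∈ fixImage Q s.1, ∀ e ∈ meetImage Q g, a * e * a⁻¹ ∈ meetImage Q g
  elem : Cfsg.IsElementaryAbelian 2 (meetImage Q g)
  card_meetImage : Nat.card (meetImage Q g) = 32
  elem_inf : Cfsg.IsElementaryAbelian 2 (QG Q ⊓ QG' Q g)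
  card_inf : Nat.card ↥(QG Q ⊓ QG' Q g) = 2 ^ 7

theorem exists_meetData (C : Coords z Q) {c : ZMod 3} (hc : C.ClassData c) (g : G)
    (s : ↥(Subgroup.centralizer ({z} : Set G))) (hsQ : s ∈ Q) (hsg : g * z * g⁻¹ = s.1)
    (hne : s ≠ zH z) : ∃ v, MeetData C c g s v := by
  have hQ := good_QG hs
  have hX : Good (QG' Q g) s.1 := hsg ▸ hQ.conjugate g
  have hsQG : s.1 ∈ QG Q := ⟨s, hsQ, rfl⟩
  have hsz : s.1 ≠ z := fun e => hne (Subtype.ext e)
  have hs2 : s * s = 1 := Subtype.ext hX.sq_u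
  have hs1 : s ≠ 1 := fun e => hX.ne_one (congrArg Subtype.val e)
  have hzX : z ∈ QG' Q g := by
    refine Good.symm hQ hX hsQG fun t ht q hq => ⟨g⁻¹ * t * q * (g⁻¹ * t)⁻¹, ?_, ?_⟩
    · refine hQ.norm _ ?_ q hq
      calc g⁻¹ * t * z = g⁻¹ * (t * z * t⁻¹) * t := by group
        _ = g⁻¹ * (g * z * g⁻¹) * t := by rw [ht, hsg]
        _ = z * (g⁻¹ * t) := by group
    · simp [mul_assoc]
  obtain ⟨v, hv⟩ := Coords.exists_rep (C := C) hsQ
  have hsing : Singular v := (hv.singular_iff hs).2 ⟨hs2, hs1, hne⟩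
  have hfix := fixImage_eq hs C hv hsing.1
  refine ⟨v, ?_⟩
  have hle : meetImage Q g ≤ fixImage Q s.1 := by
    refine Subgroup.map_mono fun a ha => ?_
    exact ⟨a.2, Subgroup.mem_centralizer_singleton_iff.2 (hX.comm a.1 ha.1)⟩
  have hnormal : ∀ a ∈ fixImage Q s.1, ∀ e ∈ meetImage Q g, a * e * a⁻¹ ∈ meetImage Q g := by
    rintro _ ⟨a, ⟨_, ha⟩, rfl⟩ _ ⟨e, he, rfl⟩
    exact ⟨a * e * a⁻¹, ⟨hX.norm a.1 (Subgroup.mem_centralizer_singleton_iff.1 ha) e.1 he.1,
      (a * e * a⁻¹).2⟩, by simp⟩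
  have helem : Cfsg.IsElementaryAbelian 2 (meetImage Q g) := by
    refine ⟨⟨⟨?_⟩⟩, ?_⟩
    · rintro ⟨_, e, he, rfl⟩ ⟨_, f, hf, rfl⟩
      refine Subtype.ext ?_
      show QuotientGroup.mk' Q e * QuotientGroup.mk' Q f =
        QuotientGroup.mk' Q f * QuotientGroup.mk' Q e
      rw [← map_mul, ← map_mul, QuotientGroup.mk'_eq_mk']
      rcases hX.cases_conj e.1 he.1 f.1 hf.1 with c' | c'
      · exact ⟨1, Q.one_mem, by
          rw [mul_one]; exact Subtype.ext (mul_inv_eq_iff_eq_mul.1 c')⟩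
      · refine ⟨s, hsQ, Subtype.ext ?_⟩
        show e.1 * f.1 * s.1 = f.1 * e.1
        have hm : s.1 * f.1 * e.1 ∈ QG' Q g :=
          Subgroup.mul_mem _ (Subgroup.mul_mem _ hX.mem hf.1) he.1
        have c2 : e.1 * f.1 = s.1 * f.1 * e.1 := mul_inv_eq_iff_eq_mul.1 c'
        rw [c2, hX.comm _ hm, ← mul_assoc, ← mul_assoc, hX.sq_u, one_mul]
    · rintro _ ⟨e, he, rfl⟩
      rw [← map_pow]
      refine (QuotientGroup.eq_one_iff _).2 ?_
      rw [pow_two]
      rcases hX.sq e.1 he.1 with c' | c'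
      · rw [show e * e = 1 from Subtype.ext c']; exact Q.one_mem
      · rw [show e * e = s from Subtype.ext c']; exact hsQ
  have hinf : Cfsg.IsElementaryAbelian 2 (QG Q ⊓ QG' Q g) := by
    refine ⟨⟨⟨?_⟩⟩, ?_⟩
    · rintro ⟨a, haQ, haX⟩ ⟨b, hbQ, hbX⟩
      refine Subtype.ext ?_
      show a * b = b * a
      rcases hQ.cases_conj a haQ b hbQ with e | e
      · exact mul_inv_eq_iff_eq_mul.1 e
      · rcases hX.cases_conj a haX b hbX with e' | e'
        · exact mul_inv_eq_iff_eq_mul.1 e'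
        · exact absurd (mul_right_cancel (e'.symm.trans e)) hsz
    · rintro a ⟨haQ, haX⟩
      rw [pow_two]
      rcases hQ.sq a haQ with e | e
      · exact e
      · rcases hX.sq a haX with e' | e'
        · exact e'
        · exact absurd (e'.symm.trans e) hsz
  have hbound : Nat.card ↥(QG Q ⊓ QG' Q g) ≤ 2 ^ 7 := by
    have hab := CfsgLib.JFour.card_elem_extraspecial hs.2.2.1 (hs.2.2.2.1)
      (((QG' Q g).comap (Subgroup.centralizer ({z} : Set G)).subtype).subgroupOf Q)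
      (fun a ha b hb => Subtype.ext (Subtype.ext (congrArg Subtype.val
        (hinf.1.is_comm.comm ⟨a.1.1, ⟨a.1, a.2, rfl⟩, ha⟩ ⟨b.1.1, ⟨b.1, b.2, rfl⟩, hb⟩) :)))
    refine le_trans (le_of_eq ?_) hab
    symm
    refine Nat.card_eq_of_bijective
      (fun a => ⟨a.1.1.1, ⟨a.1.1, a.1.2, rfl⟩, a.2⟩) ⟨fun a b h => ?_, ?_⟩
    · exact Subtype.ext (Subtype.ext (Subtype.ext (congrArg Subtype.val h :)))
    · rintro ⟨_, ⟨q, hq, rfl⟩, hx⟩
      exact ⟨⟨⟨q, hq⟩, hx⟩, rfl⟩
  -- orders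
  let R := (QG' Q g ⊓ Subgroup.centralizer ({z} : Set G)).subgroupOf
    (Subgroup.centralizer ({z} : Set G))
  have hR : Nat.card R * 2 = 2 ^ 13 := by
    have hq : Nat.card (QG' Q g) = 2 ^ 13 := by
      rw [Subgroup.card_map_of_injective (MulAut.conj g).injective,
        Subgroup.card_map_of_injective (Subgroup.subtype_injective _), hs.2.2.2.1]
    have hidx : ((Subgroup.centralizer ({z} : Set G)).subgroupOf (QG' Q g)).index = 2 := by
      obtain ⟨q, hq', hqz⟩ : ∃ q ∈ QG' Q g, q * z * q⁻¹ = s.1 * z := by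
        by_contra hno
        push Not at hno
        rcases hX.center z hzX (fun q hq' => by
          rcases hX.cases_conj q hq' z hzX with e | e
          · exact mul_inv_eq_iff_eq_mul.1 e
          · exact absurd e (hno q hq')) with e | e
        · exact hQ.ne_one e
        · exact hsz e.symm
      rw [Subgroup.index_eq_two_iff]
      refine ⟨⟨q, hq'⟩, fun b => ?_⟩
      simp only [Subgroup.mem_subgroupOf, Subgroup.coe_mul, Subgroup.mem_centralizer_singleton_iff,
        ← mul_inv_eq_iff_eq_mul]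
      have hb : b.1 * q * z * (b.1 * q)⁻¹ = s.1 * (b.1 * z * b.1⁻¹) := by
        calc b.1 * q * z * (b.1 * q)⁻¹ = b.1 * (q * z * q⁻¹) * b.1⁻¹ := by group
          _ = (b.1 * s.1 * b.1⁻¹) * (b.1 * z * b.1⁻¹) := by rw [hqz]; group
          _ = _ := by rw [mul_inv_eq_iff_eq_mul.2 (hX.comm b.1 b.2)]
      rw [hb]
      rcases hX.cases_conj b.1 b.2 z hzX with e | e
      · refine Or.inr ⟨e, ?_⟩
        rw [e]
        intro h; exact hX.ne_one (mul_eq_right.1 h)
      · refine Or.inl ⟨?_, ?_⟩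
        · rw [e, ← mul_assoc, hX.sq_u, one_mul]
        · rw [e]; intro h; exact hX.ne_one (mul_eq_right.1 h)
    have h := Subgroup.card_mul_index ((Subgroup.centralizer ({z} : Set G)).subgroupOf (QG' Q g))
    rw [hidx, hq] at h
    rw [← h, ← Subgroup.inf_subgroupOf_left,
      Nat.card_congr (Subgroup.subgroupOfEquivOfLe inf_le_left).toEquiv,
      Nat.card_congr (Subgroup.subgroupOfEquivOfLe inf_le_right).toEquiv]
  have hprod : Nat.card (meetImage Q g) * Nat.card ↥(QG Q ⊓ QG' Q g) = Nat.card R := by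
    have h1 := Subgroup.card_mul_index ((QuotientGroup.mk' Q).comp R.subtype).ker
    rw [Subgroup.index_ker, MonoidHom.range_comp, Subgroup.range_subtype] at h1
    rw [← h1, mul_comm]
    congr 1
    symm
    refine Nat.card_eq_of_bijective
      (fun a => ⟨a.1.1.1, ⟨a.1.1, (QuotientGroup.eq_one_iff _).1 (MonoidHom.mem_ker.1 a.2), rfl⟩,
        a.1.2.1⟩) ⟨fun a b h => ?_, ?_⟩
    · exact Subtype.ext (Subtype.ext (Subtype.ext (congrArg Subtype.val h :)))
    · rintro ⟨_, ⟨q, hq, rfl⟩, hx⟩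
      exact ⟨⟨⟨q, ⟨hx, q.2⟩⟩, MonoidHom.mem_ker.2 ((QuotientGroup.eq_one_iff q).2 hq)⟩, rfl⟩
  haveI : Fact (Nat.Prime 2) := ⟨Nat.prime_two⟩
  have hp : IsPGroup 2 (meetImage Q g) :=
    fun e => ⟨1, by rw [pow_one]; exact Subtype.ext (helem.2 e.1 e.2)⟩
  have h32 : 32 ≤ Nat.card (meetImage Q g) := by
    by_contra hlt
    push Not at hlt
    nlinarith [hprod, hR, hbound]
  have hfour : InFour c v := by
    rcases singular_cases (c := c) hsing with h | h
    · exfalso
      have := Coords.card_le_sixteen hc h (meetImage Q g) (hfix ▸ hle)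
        (fun a ha => hnormal a (hfix ▸ ha)) hp
      omega
    · exact h
  have hle32 := (Coords.card_le_thirty_two hc hfour (meetImage Q g) (hfix ▸ hle)
    (fun a ha => hnormal a (hfix ▸ ha)) hp).1
  have h32' : Nat.card (meetImage Q g) = 32 := le_antisymm hle32 h32
  refine ⟨hv, hfour, hzX, hfix, hle, hnormal, helem, h32', hinf, ?_⟩
  rw [h32'] at hprod
  omega

end CfsgLib.LargeFischer
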