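import Cfsg.Agent.Lib.LargeFischer.PSUSix
import Mathlib.Logic.Small.Defs
import Mathlib.GroupTheory.Abelianization.Defs

/-!
The module bounds for a central extension of `PSU₄(3)` in any universe.
-/

set_option autoImplicit false
set_option linter.unusedSectionVars false
set_option linter.style.haveILetI false

namespace CfsgLib.LargeFischer.PSUModule

open CfsgLib.SchurMult.U43

universe u w

variable {C : Type u} [Group C] [Finite C] {K : Type} [Field K] [Fintype K] (hK : Fintype.card K = 9)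
  {ψ : C →* Cfsg.PSU 4 K 3} (hs : Function.Surjective ψ) (hc : ψ.ker ≤ Subgroup.center C)
  (h3 : ∀ z ∈ ψ.ker, z ^ 3 = 1)

include hK hs hc h3

/-- A model in the first universe. -/
theorem exists_ext : ∃ (Γ : Type) (_ : Group Γ) (_ : Finite Γ) (e : C ≃* Γ) (σ : Γ →* G0),
    Ext σ ∧ σ.ker = ψ.ker.map e.toMonoidHom := by
  obtain ⟨ι⟩ := nonempty_psu hK
  let e : C ≃* Shrink.{0} C := Shrink.mulEquiv.symm
  haveI : Finite (Shrink.{0} C) := Finite.of_equiv C e.toEquiv
  let σ : Shrink.{0} C →* G0 := (ι.symm.toMonoidHom.comp ψ).comp e.symm.toMonoidHom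
  have hker : σ.ker = ψ.ker.map e.toMonoidHom := by
    ext y
    simp [σ, MonoidHom.mem_ker, Subgroup.mem_map_equiv]
  refine ⟨Shrink.{0} C, inferInstance, inferInstance, e, σ,
    ⟨(ι.symm.surjective.comp hs).comp e.symm.surjective, ?_, ?_⟩, hker⟩
  · rw [hker]
    rintro _ ⟨z, hz, rfl⟩
    refine Subgroup.mem_center_iff.2 fun g => ?_
    obtain ⟨g, rfl⟩ := e.surjective g
    show e g * e z = e z * e g
    rw [← map_mul, ← map_mul, Subgroup.mem_center_iff.1 (hc hz) g]
  · rw [hker]
    rintro _ ⟨z, hz, rfl⟩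
    show e z ^ 3 = 1
    rw [← map_pow, h3 z hz, map_one]

variable {V : Type w} [AddCommGroup V] [Finite V] (hV : ∀ v : V, v + v = 0) (ρ : C →* AddMonoid.End V)

include hV

/-- Modules smaller than `2^12` are trivial on the commutator subgroup. -/
theorem trivial_of_card_lt (hcard : Nat.card V < 4 ^ 6) : ∀ g ∈ commutator C, ρ g = 1 := by
  obtain ⟨Γ, _, _, e, σ, hσ, -⟩ := exists_ext hK hs hc h3
  intro g hg
  have h := hσ.trivial_of_card_lt hV (ρ.comp e.symm.toMonoidHom) hcard (e g)
    (by
      have := Subgroup.mem_map_of_mem e.toMonoidHom hg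
      rw [commutator_def, Subgroup.map_commutator, Subgroup.map_top_of_surjective _ e.surjective] at this
      exact this)
  simpa using h

/-- A perfect such group is trivial on modules smaller than `2^12`. -/
theorem eq_one_of_card_lt (hperf : commutator C = ⊤) (hcard : Nat.card V < 4 ^ 6) (g : C) : ρ g = 1 :=
  trivial_of_card_lt hK hs hc h3 hV ρ hcard g (by rw [hperf]; exact Subgroup.mem_top g)

/-- Without kernel the bound is `2^12` included. -/
theorem trivial_of_ker_bot (hk : ψ.ker = ⊥) (hcard : Nat.card V ≤ 4 ^ 6) : ∀ g ∈ commutator C, ρ g = 1 := by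
  obtain ⟨Γ, _, _, e, σ, hσ, hker⟩ := exists_ext hK hs hc h3
  intro g hg
  have h := hσ.trivial_of_ker_bot hV (ρ.comp e.symm.toMonoidHom) (by rw [hker, hk, Subgroup.map_bot]) hcard (e g)
    (by
      have := Subgroup.mem_map_of_mem e.toMonoidHom hg
      rw [commutator_def, Subgroup.map_commutator, Subgroup.map_top_of_surjective _ e.surjective] at this
      exact this)
  simpa using h

/-- The monomial frame, transported. -/
theorem exists_frame (hk : Nat.card ψ.ker ≤ 3) (hρ : ∃ g ∈ commutator C, ρ g ≠ 1) (hcard : Nat.card V ≤ 4 ^ 6) :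
    ∃ (Γ : Type) (_ : Group Γ) (_ : Finite Γ) (e : C ≃* Γ) (σ : Γ →* G0) (P : Fin 6 → AddMonoid.End V),
      Ext σ ∧ σ.ker = ψ.ker.map e.toMonoidHom ∧ SixFrame σ (ρ.comp e.symm.toMonoidHom) P := by
  obtain ⟨Γ, iG, iF, e, σ, hσ, hker⟩ := exists_ext hK hs hc h3
  obtain ⟨g, hg, hg1⟩ := hρ
  obtain ⟨P, hP⟩ := hσ.exists_six_frame hV (ρ.comp e.symm.toMonoidHom)
    (by rw [hker, Subgroup.card_map_of_injective e.injective]; exact hk)
    ⟨e g, by
      have := Subgroup.mem_map_of_mem e.toMonoidHom hg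
      rw [commutator_def, Subgroup.map_commutator, Subgroup.map_top_of_surjective _ e.surjective] at this
      exact this, by simpa using hg1⟩ hcard
  exact ⟨Γ, iG, iF, e, σ, P, hσ, hker, hP⟩

end CfsgLib.LargeFischer.PSUModule
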