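import Cfsg.Agent.Lib.LargeFischer.Setup
import Cfsg.Agent.Lib.LargeFischer.PSUWrap

/-!
In a group of large Fischer type `M` acts trivially, modulo `N`, on every proper section `W / ⟨z⟩` of
`Q / ⟨z⟩`; hence an element of order three of `N` fixes only `⟨z⟩` in `Q`.
-/

set_option autoImplicit false
set_option linter.unusedSectionVars false
set_option linter.style.haveILetI false

namespace CfsgLib.LargeFischer

open Cfsg
open scoped commutatorElement

variable {G : Type*} [Group G] [Finite G] {z : G}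
  {Q N M : Subgroup ↥(Subgroup.centralizer ({z} : Set G))} [Q.Normal]

namespace Chain

variable (c : Chain z Q N M)
include c

theorem bound (W : Subgroup ↥(Subgroup.centralizer ({z} : Set G))) (hWn : W.Normal) (hWQ : W ≤ Q)
    (hzW : zH z ∈ W) (hne : W ≠ Q) : M ≤ N ⊔ modKer c.setting W := by
  classical
  haveI := c.normalN
  haveI := c.normalM
  obtain ⟨K, iK, iF, hK, ⟨e⟩⟩ := c.psu
  set Z₀ : Subgroup W := Subgroup.zpowers ⟨zH z, hzW⟩ with hZ₀
  haveI hZn : Z₀.Normal := ⟨fun a ha g => by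
    obtain ⟨k, rfl⟩ := Subgroup.mem_zpowers_iff.1 ha
    have hc : Commute g (⟨zH z, hzW⟩ : W) := Subtype.ext (zH_comm (g : ↥(Subgroup.centralizer ({z} : Set G))))
    rw [(hc.zpow_right k).eq, mul_inv_cancel_right]
    exact Subgroup.zpow_mem _ (Subgroup.mem_zpowers _) k⟩
  have hmodZ : ∀ {a : W}, a ∈ Z₀ → (a : ↥(Subgroup.centralizer ({z} : Set G))) = 1 ∨
      (a : ↥(Subgroup.centralizer ({z} : Set G))) = zH z := by
    intro a ha
    obtain ⟨k, rfl⟩ := Subgroup.mem_zpowers_iff.1 ha
    have h2 : (⟨zH z, hzW⟩ : W) ^ (2 : ℤ) = 1 := by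
      rw [zpow_ofNat, pow_two]; exact Subtype.ext (zH_sq c.setting)
    rcases Int.emod_two_eq_zero_or_one k with h | h
    · left
      rw [← Int.emod_add_mul_ediv k 2, h, zero_add, zpow_mul, h2, one_zpow]; rfl
    · right
      rw [← Int.emod_add_mul_ediv k 2, h, zpow_add, zpow_one, zpow_mul, h2, one_zpow, mul_one]
  letI : CommGroup (W ⧸ Z₀) :=
    { (inferInstance : Group (W ⧸ Z₀)) with
      mul_comm := fun a b => by
        obtain ⟨a, rfl⟩ := QuotientGroup.mk_surjective a
        obtain ⟨b, rfl⟩ := QuotientGroup.mk_surjective b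
        rw [← QuotientGroup.mk_mul, ← QuotientGroup.mk_mul]
        rcases conj_cases c.setting (hWQ b.2) (hWQ a.2) with h | h
        · exact congrArg _ (Subtype.ext (mul_inv_eq_iff_eq_mul.1 h))
        · rw [show a * b = (⟨zH z, hzW⟩ : W) * (b * a) from Subtype.ext (by
            show _ = zH z * ((b : ↥(Subgroup.centralizer ({z} : Set G))) * a)
            rw [← mul_assoc]; exact mul_inv_eq_iff_eq_mul.1 h), QuotientGroup.mk_mul,
            (QuotientGroup.eq_one_iff _).2 (Subgroup.mem_zpowers _), one_mul] }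
  have hV : ∀ v : Additive (W ⧸ Z₀), v + v = 0 := by
    intro v
    obtain ⟨a, ha⟩ := QuotientGroup.mk_surjective (Additive.toMul v)
    refine Additive.toMul.injective ?_
    show Additive.toMul v * Additive.toMul v = 1
    rw [← ha, ← QuotientGroup.mk_mul, QuotientGroup.eq_one_iff]
    rcases sq_cases c.setting (hWQ a.2) with h | h
    · rw [show a * a = 1 from Subtype.ext h]; exact one_mem _
    · rw [show a * a = ⟨zH z, hzW⟩ from Subtype.ext h]; exact Subgroup.mem_zpowers _
  have hcard : Nat.card (Additive (W ⧸ Z₀)) < 4 ^ 6 := by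
    have h1 : Nat.card W ∣ Nat.card Q := Subgroup.card_dvd_of_le hWQ
    have h2 : Nat.card W < Nat.card Q :=
      lt_of_le_of_ne (Subgroup.card_le_of_le hWQ) fun h => hne (Subgroup.eq_of_le_of_card_ge hWQ h.ge)
    rw [c.cardQ] at h1 h2
    obtain ⟨k, hk, hk'⟩ := (Nat.dvd_prime_pow Nat.prime_two).1 h1
    have hk13 : k < 13 := (Nat.pow_lt_pow_iff_right (by norm_num)).1 (hk' ▸ h2)
    have h3 : Nat.card W = Nat.card (W ⧸ Z₀) * Nat.card Z₀ := Subgroup.card_eq_card_quotient_mul_card_subgroup _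
    have h4 : Nat.card Z₀ = 2 := by
      rw [hZ₀, Nat.card_zpowers]
      haveI : Fact (Nat.Prime 2) := ⟨Nat.prime_two⟩
      exact orderOf_eq_prime (by rw [pow_two]; exact Subtype.ext (zH_sq c.setting))
        fun h => zH_ne_one c.setting (congrArg Subtype.val h)
    rw [h4, hk'] at h3
    have : 2 ^ k ≤ 2 ^ 12 := Nat.pow_le_pow_right (by norm_num) (by omega)
    show Nat.card (W ⧸ Z₀) < 4 ^ 6
    norm_num at this ⊢
    omega
  let cjW : M → W →* W := fun m =>
    { toFun := fun a => ⟨(m : ↥(Subgroup.centralizer ({z} : Set G))) * a * (m : ↥(Subgroup.centralizer ({z} : Set G)))⁻¹,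
        hWn.conj_mem a a.2 m⟩
      map_one' := Subtype.ext (by simp)
      map_mul' := fun a b => Subtype.ext (by simp [mul_assoc]) }
  have hcjZ : ∀ m, Z₀ ≤ (Z₀).comap (cjW m) := fun m a ha => by
    have : cjW m a = a := Subtype.ext (by
      show (m : ↥(Subgroup.centralizer ({z} : Set G))) * a * _ = a
      rcases hmodZ ha with h | h <;> rw [h]
      · simp
      · exact conj_zH _)
    rw [Subgroup.mem_comap, this]; exact ha
  let act : M →* AddMonoid.End (Additive (W ⧸ Z₀)) :=
    { toFun := fun m => MonoidHom.toAdditive (QuotientGroup.map Z₀ Z₀ (cjW m) (hcjZ m))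
      map_one' := by
        refine AddMonoidHom.ext fun v => ?_
        obtain ⟨a, ha⟩ := QuotientGroup.mk_surjective (Additive.toMul v)
        obtain rfl : v = Additive.ofMul (a : W ⧸ Z₀) := by rw [ha]; rfl
        exact congrArg Additive.ofMul (congrArg _ (Subtype.ext (by simp [cjW])))
      map_mul' := fun m m' => by
        refine AddMonoidHom.ext fun v => ?_
        obtain ⟨a, ha⟩ := QuotientGroup.mk_surjective (Additive.toMul v)
        obtain rfl : v = Additive.ofMul (a : W ⧸ Z₀) := by rw [ha]; rfl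
        exact congrArg Additive.ofMul (congrArg _ (Subtype.ext (by simp [cjW, mul_assoc]))) }
  have hQker : Q.subgroupOf M ≤ act.ker := by
    intro m hm
    refine MonoidHom.mem_ker.2 (AddMonoidHom.ext fun v => ?_)
    obtain ⟨a, ha⟩ := QuotientGroup.mk_surjective (Additive.toMul v)
    obtain rfl : v = Additive.ofMul (a : W ⧸ Z₀) := by rw [ha]; rfl
    show Additive.ofMul ((cjW m a : W) : W ⧸ Z₀) = Additive.ofMul (a : W ⧸ Z₀)
    refine congrArg _ ((QuotientGroup.eq).2 ?_)
    rcases conj_cases c.setting (hWQ a.2) hm with h | h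
    · rw [show cjW m a = a from Subtype.ext h, inv_mul_cancel]; exact one_mem _
    · rw [show cjW m a = (⟨zH z, hzW⟩ : W) * a from Subtype.ext h, mul_inv_rev, mul_assoc,
        show (⟨zH z, hzW⟩ : W)⁻¹ * a = a * (⟨zH z, hzW⟩ : W)⁻¹ from
          (Commute.inv_left (Subtype.ext (zH_comm _).symm : Commute (⟨zH z, hzW⟩ : W) a)).eq,
        inv_mul_cancel_left]
      exact inv_mem (Subgroup.mem_zpowers _)
  let ρ : (M ⧸ Q.subgroupOf M) →* AddMonoid.End (Additive (W ⧸ Z₀)) := QuotientGroup.lift _ act hQker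
  let ψ : (M ⧸ Q.subgroupOf M) →* Cfsg.PSU 4 K 3 :=
    e.toMonoidHom.comp (QuotientGroup.map (Q.subgroupOf M) (N.subgroupOf M) (MonoidHom.id M)
      fun x hx => c.Q_le hx)
  have hψ : ∀ m : M, ψ (m : M ⧸ Q.subgroupOf M) = e (m : M ⧸ N.subgroupOf M) := fun _ => rfl
  have hψs : Function.Surjective ψ := fun y => by
    obtain ⟨x, rfl⟩ := e.surjective y
    obtain ⟨m, rfl⟩ := QuotientGroup.mk_surjective x
    exact ⟨(m : M ⧸ Q.subgroupOf M), hψ m⟩
  have hψk : ∀ m : M, (m : M ⧸ Q.subgroupOf M) ∈ ψ.ker → (m : ↥(Subgroup.centralizer ({z} : Set G))) ∈ N := by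
    intro m hm
    rw [MonoidHom.mem_ker, hψ, map_eq_one_iff e e.injective, QuotientGroup.eq_one_iff] at hm
    exact hm
  have hψc : ψ.ker ≤ Subgroup.center _ := by
    intro x hx
    obtain ⟨n, rfl⟩ := QuotientGroup.mk_surjective x
    refine Subgroup.mem_center_iff.2 fun y => ?_
    obtain ⟨m, rfl⟩ := QuotientGroup.mk_surjective y
    rw [← QuotientGroup.mk_mul, ← QuotientGroup.mk_mul, QuotientGroup.eq, Subgroup.mem_subgroupOf]
    have h := c.commutator_mem m.2 (hψk n hx)
    have h2 : (m : ↥(Subgroup.centralizer ({z} : Set G))) * n * (m : ↥(Subgroup.centralizer ({z} : Set G)))⁻¹ *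
        (n : ↥(Subgroup.centralizer ({z} : Set G)))⁻¹ ∈ Q := h
    simp only [Subgroup.coe_mul, Subgroup.coe_inv, mul_inv_rev]
    have h4 := (inferInstance : Q.Normal).conj_mem _ (Q.inv_mem h2)
      ((n : ↥(Subgroup.centralizer ({z} : Set G)))⁻¹ * (m : ↥(Subgroup.centralizer ({z} : Set G)))⁻¹)
    simpa [mul_assoc] using h4
  have hψ3 : ∀ x ∈ ψ.ker, x ^ 3 = 1 := by
    intro x hx
    obtain ⟨n, rfl⟩ := QuotientGroup.mk_surjective x
    rw [← QuotientGroup.mk_pow, QuotientGroup.eq_one_iff, Subgroup.mem_subgroupOf, Subgroup.coe_pow]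
    have h3 : Nat.card (N ⧸ Q.subgroupOf N) = 3 := by
      have h := Subgroup.card_eq_card_quotient_mul_card_subgroup (Q.subgroupOf N)
      rw [Nat.card_congr (Subgroup.subgroupOfEquivOfLe c.Q_le).toEquiv, c.cardN] at h
      exact (Nat.eq_of_mul_eq_mul_right Nat.card_pos h).symm
    have := pow_card_eq_one' (x := ((⟨_, hψk n hx⟩ : N) : N ⧸ Q.subgroupOf N))
    rw [h3, ← QuotientGroup.mk_pow, QuotientGroup.eq_one_iff] at this
    exact this
  have htriv := PSUModule.trivial_of_card_lt hK hψs hψc hψ3 hV ρ hcard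
  obtain ⟨hpcard, -⟩ := c.quotient_facts
  haveI := CfsgLib.ClassicalForms.isSimpleGroup_psu (F := K) (n := 4) (q := 3) (by rw [hK]; norm_num)
    (by norm_num) (by norm_num)
  have hperf : commutator (Cfsg.PSU 4 K 3) = ⊤ := by
    rcases (inferInstance : (commutator (Cfsg.PSU 4 K 3)).Normal).eq_bot_or_eq_top with h | h
    · exfalso
      letI : CommGroup (Cfsg.PSU 4 K 3) :=
        { (inferInstance : Group (Cfsg.PSU 4 K 3)) with
          mul_comm := fun a b => by
            have : ⁅a, b⁆ ∈ commutator (Cfsg.PSU 4 K 3) :=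
              Subgroup.commutator_mem_commutator (Subgroup.mem_top a) (Subgroup.mem_top b)
            rw [h, Subgroup.mem_bot, commutatorElement_eq_one_iff_mul_comm] at this
            exact this }
      have hp := (inferInstance : IsSimpleGroup (Cfsg.PSU 4 K 3)).prime_card
      rw [natCard_psu_four hK] at hp
      norm_num at hp
    · exact h
  intro m hm
  have hmem : ψ ((⟨m, hm⟩ : M) : M ⧸ Q.subgroupOf M) ∈ (commutator (M ⧸ Q.subgroupOf M)).map ψ := by
    rw [commutator_def, Subgroup.map_commutator, Subgroup.map_top_of_surjective _ hψs, ← commutator_def, hperf]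
    exact Subgroup.mem_top _
  obtain ⟨g, hg, hge⟩ := hmem
  obtain ⟨m', rfl⟩ := QuotientGroup.mk_surjective g
  have hk : (m' : ↥(Subgroup.centralizer ({z} : Set G))) ∈ modKer c.setting W := by
    refine (mem_modKer c.setting).2 fun y hy => ?_
    have h1 := DFunLike.congr_fun (htriv _ hg) (Additive.ofMul ((⟨y, hy⟩ : W) : W ⧸ Z₀))
    have h2 : ((cjW m' ⟨y, hy⟩ : W) : W ⧸ Z₀) = ((⟨y, hy⟩ : W) : W ⧸ Z₀) := Additive.ofMul.injective h1
    rcases hmodZ ((QuotientGroup.eq).1 h2.symm) with h | h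
    · left
      exact (inv_mul_eq_one.1 h).symm
    · right
      have h' : y⁻¹ * ((m' : ↥(Subgroup.centralizer ({z} : Set G))) * y *
          (m' : ↥(Subgroup.centralizer ({z} : Set G)))⁻¹) = zH z := h
      rw [inv_mul_eq_iff_eq_mul] at h'
      rw [h', zH_comm]
  have hn : (m' : ↥(Subgroup.centralizer ({z} : Set G)))⁻¹ * m ∈ N :=
    hψk (m'⁻¹ * ⟨m, hm⟩) (by
      rw [MonoidHom.mem_ker, QuotientGroup.mk_mul, QuotientGroup.mk_inv, map_mul, map_inv, ← hge, inv_mul_cancel])
  rw [show m = (m' : ↥(Subgroup.centralizer ({z} : Set G))) * ((m' : ↥(Subgroup.centralizer ({z} : Set G)))⁻¹ * m)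
    from (mul_inv_cancel_left _ _).symm]
  exact Subgroup.mul_mem _ (Subgroup.mem_sup_right hk) (Subgroup.mem_sup_left hn)

/-- An element centralised by `X` in `Q` lies in `⟨z⟩`. -/
theorem fixed_eq {X : Subgroup ↥(Subgroup.centralizer ({z} : Set G))} (hX : Nat.card X = 3) (hXN : X ⊔ Q = N)
    {q : ↥(Subgroup.centralizer ({z} : Set G))} (hq : q ∈ Q) (hqX : ∀ x ∈ X, x * q = q * x) :
    q = 1 ∨ q = zH z :=
  c.fixed_cases hX hXN c.bound hq hqX

end Chain

end CfsgLib.LargeFischer
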