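import Cfsg.Prelude.Def_MonsterType
import Cfsg.Agent.Lib.Fischer2.LargeExtraspecial
import Cfsg.Agent.Lib.Cores.GenFitting
import Cfsg.Agent.Lib.ClassicalForms.Unitary.Simple
import Cfsg.Agent.Lib.ClassicalForms.Unitary.Center

/-!
Groups of large Fischer type: the centraliser `H` of `z`, its subgroups `Q ≤ N ≤ M`, and the
subgroups of order 3 mapping onto `N / Q`.
-/

set_option autoImplicit false
set_option linter.unusedSectionVars false
set_option linter.style.haveILetI false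

namespace CfsgLib.LargeFischer

open Cfsg
open scoped Pointwise

variable {G : Type*} [Group G] [Finite G] {z : G}

/-- `z` as an element of its centraliser. -/
def zH (z : G) : ↥(Subgroup.centralizer ({z} : Set G)) :=
  ⟨z, Subgroup.mem_centralizer_singleton_iff.2 rfl⟩

theorem zH_comm (h : ↥(Subgroup.centralizer ({z} : Set G))) : h * zH z = zH z * h :=
  Subtype.ext (Subgroup.mem_centralizer_singleton_iff.1 h.2)

theorem conj_zH (h : ↥(Subgroup.centralizer ({z} : Set G))) : h * zH z * h⁻¹ = zH z := by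
  rw [zH_comm, mul_inv_cancel_right]

theorem conj_zH_mul (h y : ↥(Subgroup.centralizer ({z} : Set G))) :
    h * (zH z * y) * h⁻¹ = zH z * (h * y * h⁻¹) := by
  calc h * (zH z * y) * h⁻¹ = (h * zH z * h⁻¹) * (h * y * h⁻¹) := by group
    _ = zH z * (h * y * h⁻¹) := by rw [conj_zH]

variable {Q : Subgroup ↥(Subgroup.centralizer ({z} : Set G))} [Q.Normal] {w : ℕ}

section Setting

variable (hs : IsExtraspecialCentralizerSetting z Q w)
include hs

theorem zH_ne_one : zH z ≠ 1 := by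
  intro h
  have h1 : z = 1 := congrArg Subtype.val h
  have := hs.1
  rw [h1, orderOf_one] at this
  norm_num at this

theorem zH_sq : zH z * zH z = 1 := by
  refine Subtype.ext ?_
  show z * z = 1
  have := pow_orderOf_eq_one z
  rwa [hs.1, pow_two] at this

theorem zH_cancel (y : ↥(Subgroup.centralizer ({z} : Set G))) : zH z * (zH z * y) = y := by
  rw [← mul_assoc, zH_sq hs, one_mul]

theorem mem_Q_of_centralizes {c : ↥(Subgroup.centralizer ({z} : Set G))}
    (hc : ∀ y ∈ Q, c * y = y * c) : c ∈ Q := by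
  exact hs.2.1.le (CfsgLib.Cores.centralizer_generalizedFittingSubgroup_le
    (Subgroup.mem_centralizer_iff.2 fun y hy => (hc y (hs.2.1.le hy)).symm))

theorem zH_mem : zH z ∈ Q := mem_Q_of_centralizes hs fun y _ => (zH_comm y).symm

theorem zH_mem_center : zH z ∈ (Subgroup.center Q).map Q.subtype :=
  (Fischer2.mem_centerImage_iff Q _).2 ⟨zH_mem hs, fun y _ => (zH_comm y).symm⟩

theorem center_cases {x : ↥(Subgroup.centralizer ({z} : Set G))} (hx : x ∈ Q)
    (hc : ∀ y ∈ Q, x * y = y * x) : x = 1 ∨ x = zH z :=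
  Fischer2.eq_one_or_eq_of_card_two (Fischer2.IsExtraspecial.card_centerImage hs.2.2.1) (zH_mem_center hs)
    (zH_ne_one hs) ((Fischer2.mem_centerImage_iff Q x).2 ⟨hx, hc⟩)

theorem conj_cases {x y : ↥(Subgroup.centralizer ({z} : Set G))} (hx : x ∈ Q) (hy : y ∈ Q) :
    y * x * y⁻¹ = x ∨ y * x * y⁻¹ = zH z * x :=
  Fischer2.IsExtraspecial.conj_eq_or hs.2.2.1 (zH_mem_center hs) (zH_ne_one hs) hx hy

theorem exists_conj {x : ↥(Subgroup.centralizer ({z} : Set G))} (hx : x ∈ Q) (h1 : x ≠ 1)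
    (hz : x ≠ zH z) : ∃ y ∈ Q, y * x * y⁻¹ = zH z * x := by
  refine Fischer2.IsExtraspecial.exists_conj_eq_mul hs.2.2.1 (zH_mem_center hs) (zH_ne_one hs) hx fun hc => ?_
  rcases center_cases hs hx ((Fischer2.mem_centerImage_iff Q x).1 hc).2 with h | h
  exacts [h1 h, hz h]

theorem sq_cases {x : ↥(Subgroup.centralizer ({z} : Set G))} (hx : x ∈ Q) :
    x * x = 1 ∨ x * x = zH z :=
  Fischer2.eq_one_or_eq_of_card_two (Fischer2.IsExtraspecial.card_centerImage hs.2.2.1) (zH_mem_center hs)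
    (zH_ne_one hs) (pow_two x ▸ Fischer2.IsExtraspecial.sq_mem hs.2.2.1 hx)

/-- `C_H(Q) = ⟨z⟩`. -/
theorem centralizer_cases {c : ↥(Subgroup.centralizer ({z} : Set G))}
    (hc : ∀ y ∈ Q, c * y = y * c) : c = 1 ∨ c = zH z :=
  center_cases hs (mem_Q_of_centralizes hs hc) hc

/-- The subgroup `{c | c` acts trivially on `W` modulo `⟨z⟩}`. -/
def modKer (W : Subgroup ↥(Subgroup.centralizer ({z} : Set G))) :
    Subgroup ↥(Subgroup.centralizer ({z} : Set G)) where
  carrier := {c | ∀ y ∈ W, c * y * c⁻¹ = y ∨ c * y * c⁻¹ = zH z * y}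
  one_mem' y _ := Or.inl (by group)
  mul_mem' {a b} ha hb y hy := by
    have e : a * b * y * (a * b)⁻¹ = a * (b * y * b⁻¹) * a⁻¹ := by group
    rw [e]
    rcases hb y hy with h | h <;> rw [h]
    · exact ha y hy
    · rw [conj_zH_mul]
      rcases ha y hy with h' | h' <;> rw [h']
      · exact Or.inr rfl
      · exact Or.inl (zH_cancel hs y)
  inv_mem' {a} ha y hy := by
    rcases ha y hy with h | h
    · left
      conv_lhs => rw [← h]
      group
    · right
      have h2 : zH z * (a * y * a⁻¹) = y := by rw [h, zH_cancel hs]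
      rw [← conj_zH_mul] at h2
      conv_lhs => rw [← h2]
      group

theorem mem_modKer {W : Subgroup ↥(Subgroup.centralizer ({z} : Set G))}
    {c : ↥(Subgroup.centralizer ({z} : Set G))} :
    c ∈ modKer hs W ↔ ∀ y ∈ W, c * y * c⁻¹ = y ∨ c * y * c⁻¹ = zH z * y := Iff.rfl

theorem modKer_normal (W : Subgroup ↥(Subgroup.centralizer ({z} : Set G))) [W.Normal] :
    (modKer hs W).Normal where
  conj_mem c hc g y hy := by
    have hy' : g⁻¹ * y * g ∈ W := by
      simpa using (inferInstance : W.Normal).conj_mem y hy g⁻¹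
    have e : g * c * g⁻¹ * y * (g * c * g⁻¹)⁻¹ = g * (c * (g⁻¹ * y * g) * c⁻¹) * g⁻¹ := by group
    rw [e]
    rcases hc _ hy' with h | h <;> rw [h]
    · exact Or.inl (by group)
    · refine Or.inr ?_
      rw [conj_zH_mul]
      congr 1
      group

theorem sq_centralizes {W : Subgroup ↥(Subgroup.centralizer ({z} : Set G))}
    {c y : ↥(Subgroup.centralizer ({z} : Set G))} (hc : c ∈ modKer hs W) (hy : y ∈ W) :
    c * c * y = y * (c * c) := by
  have key : c * c * y * (c * c)⁻¹ = y := by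
    have e : c * c * y * (c * c)⁻¹ = c * (c * y * c⁻¹) * c⁻¹ := by group
    rw [e]
    rcases hc y hy with h | h <;> rw [h]
    · exact h
    · rw [conj_zH_mul, h, zH_cancel hs]
  exact mul_inv_eq_iff_eq_mul.1 key

/-- `C_H(Q / ⟨z⟩) = Q`. -/
theorem modKer_eq : modKer hs Q = Q := by
  refine le_antisymm ?_ fun c hc y hy => conj_cases hs hy hc
  haveI := modKer_normal hs Q
  have hp : IsPGroup 2 (modKer hs Q) := by
    rintro ⟨c, hc⟩
    refine ⟨2, Subtype.ext ?_⟩
    show c ^ (2 ^ 2) = 1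
    have e : c ^ (2 ^ 2) = (c * c) * (c * c) := by norm_num [pow_succ]; group
    rw [e]
    rcases centralizer_cases hs (fun y hy => sq_centralizes hs hc hy) with h | h <;> rw [h]
    · exact one_mul _
    · exact zH_sq hs
  haveI : Fact (Nat.Prime 2) := ⟨Nat.prime_two⟩
  exact ((CfsgLib.Cores.le_fittingSubgroup hp.isNilpotent).trans
    (CfsgLib.Cores.fittingSubgroup_le_generalizedFittingSubgroup _)).trans hs.2.1.le

theorem mem_Q_of_mod {c : ↥(Subgroup.centralizer ({z} : Set G))}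
    (hc : ∀ y ∈ Q, c * y * c⁻¹ = y ∨ c * y * c⁻¹ = zH z * y) : c ∈ Q := by
  rw [← modKer_eq hs]; exact hc

end Setting

/-- The subgroups `Q ≤ N ≤ M` of a group of large Fischer type. -/
structure Chain (z : G) (Q N M : Subgroup ↥(Subgroup.centralizer ({z} : Set G))) [Q.Normal] : Prop where
  setting : IsExtraspecialCentralizerSetting z Q 6
  normalN : N.Normal
  normalM : M.Normal
  Q_le : Q ≤ N
  N_le : N ≤ M
  cardN : Nat.card N = 3 * Nat.card Q
  psu : ∃ (K : Type) (_ : Field K) (_ : Fintype K), Fintype.card K = 9 ∧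
    Nonempty (M ⧸ N.subgroupOf M ≃* PSU 4 K 3)
  indexM : M.index = 2

theorem natCard_psu_four {F : Type*} [Field F] [Fintype F] (hF : Fintype.card F = 9) :
    Nat.card (Cfsg.PSU 4 F 3) = 3265920 := by
  have hFn : Nat.card F = 3 ^ 2 := by rw [Nat.card_eq_fintype_card, hF]; norm_num
  have h := CfsgLib.ClassicalForms.card_psu_mul hFn (n := 4) (by norm_num)
  rw [CfsgLib.ClassicalForms.card_gu hFn] at h
  simp [Finset.prod_range_succ, Nat.even_iff, -Nat.card_eq_fintype_card] at h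
  omega

theorem exists_chain (hF : IsOfLargeFischerTypeAt z Q) : ∃ N M, Chain z Q N M := by
  obtain ⟨hs, N, M, hN, hM, h1, h2, h3, h4, h5⟩ := hF
  exact ⟨N, M, hs, hN, hM, h1, h2, h3, h4, h5⟩

namespace Chain

variable {N M : Subgroup ↥(Subgroup.centralizer ({z} : Set G))} (c : Chain z Q N M)
include c

theorem cardQ : Nat.card Q = 2 ^ 13 := c.setting.2.2.2.1

theorem quotient_facts : Nat.card (M ⧸ N.subgroupOf M) = 3265920 ∧
    ∃ _ : (N.subgroupOf M).Normal, IsSimpleGroup (M ⧸ N.subgroupOf M) := by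
  obtain ⟨K, iK, iF, hK, ⟨e⟩⟩ := c.psu
  haveI : (N.subgroupOf M).Normal := c.normalN.subgroupOf M
  haveI := CfsgLib.ClassicalForms.isSimpleGroup_psu (F := K) (n := 4) (q := 3) (by rw [hK]; norm_num)
    (by norm_num) (by norm_num)
  refine ⟨?_, inferInstance, e.isSimpleGroup⟩
  rw [Nat.card_congr e.toEquiv]
  exact natCard_psu_four hK

theorem cardM : Nat.card M = 3265920 * (3 * 2 ^ 13) := by
  rw [Subgroup.card_eq_card_quotient_mul_card_subgroup (N.subgroupOf M), c.quotient_facts.1,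
    Nat.card_congr (Subgroup.subgroupOfEquivOfLe c.N_le).toEquiv, c.cardN, c.cardQ]

/-- A normal subgroup of `H` inside `M` lies in `N` or covers `M / N`. -/
theorem le_or_sup {K : Subgroup ↥(Subgroup.centralizer ({z} : Set G))} [hK : K.Normal] (hKM : K ≤ M) :
    K ≤ N ∨ K ⊔ N = M := by
  haveI := c.normalN
  obtain ⟨-, hn, hsim⟩ := c.quotient_facts
  rcases hsim.eq_bot_or_eq_top_of_normal ((K.subgroupOf M).map (QuotientGroup.mk' (N.subgroupOf M)))
      ((hK.subgroupOf M).map _ (QuotientGroup.mk'_surjective _)) with h | h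
  · left
    intro k hk
    have h' : QuotientGroup.mk' (N.subgroupOf M) ⟨k, hKM hk⟩ = 1 :=
      Subgroup.mem_bot.1 (h ▸ Subgroup.mem_map.2 ⟨⟨k, hKM hk⟩, hk, rfl⟩)
    exact (QuotientGroup.eq_one_iff (⟨k, hKM hk⟩ : M)).1 h'
  · refine Or.inr (le_antisymm (sup_le hKM c.N_le) fun m hm => ?_)
    have hmem : QuotientGroup.mk' (N.subgroupOf M) ⟨m, hm⟩ ∈
        (K.subgroupOf M).map (QuotientGroup.mk' (N.subgroupOf M)) := by rw [h]; trivial
    obtain ⟨k, hk, hkm⟩ := Subgroup.mem_map.1 hmem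
    obtain ⟨n, hn', hmn⟩ := (QuotientGroup.mk'_eq_mk' _).1 hkm
    have e : (k : ↥(Subgroup.centralizer ({z} : Set G))) * n = m := congrArg Subtype.val hmn
    rw [← e]
    exact Subgroup.mul_mem_sup hk hn'

theorem exists_sq_not_mem : ∃ m ∈ M, m * m ∉ N := by
  by_contra hc
  push Not at hc
  obtain ⟨hcard, hn, hsim⟩ := c.quotient_facts
  haveI := hn
  haveI := hsim
  have hsq : ∀ a : M ⧸ N.subgroupOf M, a * a = 1 := by
    intro a
    obtain ⟨⟨m, hm⟩, rfl⟩ := QuotientGroup.mk_surjective a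
    rw [← QuotientGroup.mk_mul, QuotientGroup.eq_one_iff]
    exact hc m hm
  have hinv : ∀ a : M ⧸ N.subgroupOf M, a⁻¹ = a := fun a => inv_eq_of_mul_eq_one_right (hsq a)
  letI : CommGroup (M ⧸ N.subgroupOf M) :=
    { (inferInstance : Group (M ⧸ N.subgroupOf M)) with
      mul_comm := fun a b => by
        have h := hinv (a * b)
        rw [mul_inv_rev, hinv, hinv] at h
        exact h.symm }
  have := (inferInstance : IsSimpleGroup (M ⧸ N.subgroupOf M)).prime_card
  rw [hcard] at this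
  norm_num at this

theorem card_sup_of_three {X : Subgroup ↥(Subgroup.centralizer ({z} : Set G))} (hX : Nat.card X = 3) :
    Nat.card ↥(X ⊔ Q) = 3 * Nat.card Q := by
  refine Nat.dvd_antisymm (hX ▸ CfsgLib.Cores.card_sup_dvd X Q) ?_
  refine Nat.Coprime.mul_dvd_of_dvd_of_dvd ?_ (hX ▸ Subgroup.card_dvd_of_le le_sup_left)
    (Subgroup.card_dvd_of_le le_sup_right)
  rw [c.cardQ]
  norm_num

theorem inf_three {X : Subgroup ↥(Subgroup.centralizer ({z} : Set G))} (hX : Nat.card X = 3) :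
    X ⊓ Q = ⊥ := (Subgroup.disjoint_of_coprime_natCard (by rw [hX, c.cardQ]; norm_num)).eq_bot

theorem exists_three : ∃ X : Subgroup ↥(Subgroup.centralizer ({z} : Set G)),
    Nat.card X = 3 ∧ X ⊔ Q = N := by
  haveI : Fact (Nat.Prime 3) := ⟨Nat.prime_three⟩
  obtain ⟨x, hx⟩ := exists_prime_orderOf_dvd_card' 3 (G := N) (by rw [c.cardN]; exact dvd_mul_right _ _)
  have hX : Nat.card (Subgroup.zpowers (x : ↥(Subgroup.centralizer ({z} : Set G)))) = 3 := by
    rw [Nat.card_zpowers, Subgroup.orderOf_coe, hx]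
  refine ⟨_, hX, Subgroup.eq_of_le_of_card_ge (sup_le (Subgroup.zpowers_le.2 x.2) c.Q_le) ?_⟩
  rw [c.card_sup_of_three hX, c.cardN]

theorem mem_M_of_pow_three {x : ↥(Subgroup.centralizer ({z} : Set G))} (hx : x ^ 3 = 1) : x ∈ M := by
  have e : x = (x * x) * (x * x) := by
    calc x = x * x ^ 3 := by rw [hx, mul_one]
      _ = (x * x) * (x * x) := by rw [pow_succ, pow_two]; group
  rw [e]
  exact M.mul_mem (Subgroup.mul_self_mem_of_index_two c.indexM x) (Subgroup.mul_self_mem_of_index_two c.indexM x)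

theorem pow_three {X : Subgroup ↥(Subgroup.centralizer ({z} : Set G))} (hX : Nat.card X = 3)
    {x : ↥(Subgroup.centralizer ({z} : Set G))} (hx : x ∈ X) : x ^ 3 = 1 := by
  have := pow_card_eq_one' (G := X) (x := ⟨x, hx⟩)
  rw [hX] at this
  exact congrArg Subtype.val this

/-- A subgroup of order 3 whose product with `Q` is normal maps onto `N / Q`. -/
theorem sup_eq {X : Subgroup ↥(Subgroup.centralizer ({z} : Set G))} (hX : Nat.card X = 3)
    (hn : (X ⊔ Q).Normal) : X ⊔ Q = N := by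
  haveI := hn
  have hle : X ⊔ Q ≤ M :=
    sup_le (fun x hx => c.mem_M_of_pow_three (c.pow_three hX hx)) (c.Q_le.trans c.N_le)
  rcases c.le_or_sup hle with h | h
  · exact Subgroup.eq_of_le_of_card_ge h (by rw [c.card_sup_of_three hX, c.cardN])
  · exfalso
    haveI := c.normalN
    have h2 := Nat.le_of_dvd (Nat.mul_pos Nat.card_pos Nat.card_pos) (CfsgLib.Cores.card_sup_dvd (X ⊔ Q) N)
    rw [h, c.cardM, c.card_sup_of_three hX, c.cardN, c.cardQ] at h2
    norm_num at h2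

/-- `M` centralises `N / Q`. -/
theorem commutator_mem {m n : ↥(Subgroup.centralizer ({z} : Set G))} (hm : m ∈ M) (hn : n ∈ N) :
    m * n * m⁻¹ * n⁻¹ ∈ Q := by
  haveI := c.normalN
  haveI := c.normalM
  set π := QuotientGroup.mk' Q
  haveI hNn : (N.map π).Normal := c.normalN.map π (QuotientGroup.mk'_surjective Q)
  have hcard : Nat.card (N.map π) = 3 := by
    rw [← Subgroup.relIndex_ker, QuotientGroup.ker_mk']
    have h := Subgroup.card_eq_card_quotient_mul_card_subgroup (Q.subgroupOf N)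
    rw [Nat.card_congr (Subgroup.subgroupOfEquivOfLe c.Q_le).toEquiv, c.cardN] at h
    exact (Nat.eq_of_mul_eq_mul_right Nat.card_pos h).symm
  obtain ⟨g, hg⟩ := (isCyclic_of_prime_card (p := 3) hcard).exists_generator
  have hsq : ∀ a : ↥(Subgroup.centralizer ({z} : Set G)) ⧸ Q, a * a ∈ Subgroup.centralizer (N.map π : Set _) := by
    intro a
    rw [Subgroup.mem_centralizer_iff]
    intro y hy
    obtain ⟨i, hi⟩ := Subgroup.mem_zpowers_iff.1 (hg ⟨a * g * a⁻¹, hNn.conj_mem g g.2 a⟩)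
    have hi' : a * (g : ↥(Subgroup.centralizer ({z} : Set G)) ⧸ Q) * a⁻¹ =
        (g : ↥(Subgroup.centralizer ({z} : Set G)) ⧸ Q) ^ i := (congrArg Subtype.val hi).symm
    set g' := (g : ↥(Subgroup.centralizer ({z} : Set G)) ⧸ Q) with hg'
    have hg3 : g' ^ (3 : ℤ) = 1 := by
      rw [hg', zpow_ofNat, ← Subgroup.coe_pow, ← hcard, pow_card_eq_one', Subgroup.coe_one]
    have hgg : a * a * g' * (a * a)⁻¹ = g' ^ (i * i) := by
      rw [zpow_mul, ← hi', conj_zpow, ← hi']
      group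
    have hi3 : (g' ^ (i * i) = g') := by
      by_cases h3 : (3 : ℤ) ∣ i
      · obtain ⟨j, rfl⟩ := h3
        exfalso
        rw [zpow_mul, hg3, one_zpow, conj_eq_one_iff] at hi'
        have hb : N.map π = ⊥ := by
          rw [eq_bot_iff]
          intro x hx
          obtain ⟨k, hk⟩ := Subgroup.mem_zpowers_iff.1 (hg ⟨x, hx⟩)
          rw [show x = g' ^ k from (congrArg Subtype.val hk).symm, hi', one_zpow]
          exact one_mem _
        rw [hb, Subgroup.card_bot] at hcard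
        norm_num at hcard
      · have hdvd : (3 : ℤ) ∣ i * i - 1 := by
          have : i % 3 = 1 ∨ i % 3 = 2 := by omega
          rcases this with h | h <;>
            (refine Int.dvd_of_emod_eq_zero ?_; rw [Int.sub_emod, Int.mul_emod, h]; rfl)
        obtain ⟨j, hj⟩ := hdvd
        rw [show i * i = 1 + 3 * j by linarith, zpow_add, zpow_one, zpow_mul, hg3, one_zpow, mul_one]
    obtain ⟨k, hk⟩ := Subgroup.mem_zpowers_iff.1 (hg ⟨y, hy⟩)
    have hky : y = g' ^ k := (congrArg Subtype.val hk).symm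
    rw [hky]
    have := conj_zpow (a := a * a) (b := g') (i := k)
    rw [hgg, hi3] at this
    exact mul_inv_eq_iff_eq_mul.1 this.symm |>.symm
  let K : Subgroup ↥(Subgroup.centralizer ({z} : Set G)) :=
    (Subgroup.centralizer (N.map π : Set _)).comap π ⊓ M
  have hsqK : ∀ m ∈ M, m * m ∈ K := fun m hm =>
    ⟨show π (m * m) ∈ _ by rw [map_mul]; exact hsq _, M.mul_mem hm hm⟩
  have hMK : M ≤ K := by
    rcases c.le_or_sup (K := K) inf_le_right with h | h
    · obtain ⟨m, hm, hmN⟩ := c.exists_sq_not_mem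
      exact absurd (h (hsqK m hm)) hmN
    · refine h.ge.trans (sup_le le_rfl fun x hx => ⟨?_, c.N_le hx⟩)
      show π x ∈ Subgroup.centralizer _
      rw [Subgroup.mem_centralizer_iff]
      intro y hy
      haveI := isCyclic_of_prime_card (p := 3) hcard
      letI := IsCyclic.commGroup (α := N.map π)
      exact congrArg Subtype.val (mul_comm (⟨y, hy⟩ : N.map π) ⟨π x, ⟨x, hx, rfl⟩⟩)
  have h1 := Subgroup.mem_centralizer_iff.1 (hMK hm).1 (π n) ⟨n, hn, rfl⟩
  rw [← QuotientGroup.eq_one_iff]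
  show π (m * n * m⁻¹ * n⁻¹) = 1
  rw [map_mul, map_mul, map_mul, map_inv, map_inv, ← h1, mul_inv_cancel_right, mul_inv_cancel]

variable {X : Subgroup ↥(Subgroup.centralizer ({z} : Set G))} (hX : Nat.card X = 3) (hXN : X ⊔ Q = N)
include hX hXN

theorem X_le : X ≤ N := hXN ▸ le_sup_left

/-- An element fixed modulo `⟨z⟩` by `X` is fixed. -/
theorem fixed_of_mod {x q : ↥(Subgroup.centralizer ({z} : Set G))} (hx : x ∈ X)
    (h : x * q * x⁻¹ = q ∨ x * q * x⁻¹ = zH z * q) : x * q = q * x := by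
  rcases h with h | h
  · exact mul_inv_eq_iff_eq_mul.1 h
  · exfalso
    apply zH_ne_one c.setting
    have h3 := c.pow_three hX hx
    have e : x ^ 3 * q * (x ^ 3)⁻¹ = x * (x * (x * q * x⁻¹) * x⁻¹) * x⁻¹ := by rw [pow_succ, pow_two]; group
    rw [h, conj_zH_mul, h, zH_cancel c.setting, h, h3, inv_one, one_mul, mul_one] at e
    exact (mul_eq_right.1 e.symm)

/-- `C_Q(X)`, a normal subgroup of `H`. -/
theorem mem_fixed_iff {q : ↥(Subgroup.centralizer ({z} : Set G))} (hq : q ∈ Q) :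
    q ∈ Subgroup.centralizer (X : Set _) ↔ q ∈ modKer c.setting N := by
  constructor
  · intro h n hn
    rw [← hXN] at hn
    obtain ⟨x, hx, y, hy, rfl⟩ := Subgroup.mem_sup_of_normal_right.1 hn
    have hxq : q * x = x * q := (Subgroup.mem_centralizer_iff.1 h x hx).symm
    have e : q * (x * y) * q⁻¹ = x * (q * y * q⁻¹) := by
      calc q * (x * y) * q⁻¹ = (q * x) * y * q⁻¹ := by group
        _ = (x * q) * y * q⁻¹ := by rw [hxq]
        _ = x * (q * y * q⁻¹) := by group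
    rw [e]
    rcases conj_cases c.setting hy hq with h' | h' <;> rw [h']
    · exact Or.inl rfl
    · refine Or.inr ?_
      rw [← mul_assoc, zH_comm x, mul_assoc]
  · intro h
    rw [Subgroup.mem_centralizer_iff]
    intro x hx
    have h' := h x (c.X_le hX hXN hx)
    rcases h' with h' | h'
    · exact (mul_inv_eq_iff_eq_mul.1 h').symm
    · exfalso
      have h3 := c.pow_three hX hx
      have e : (q * x * q⁻¹) ^ 3 = 1 := by rw [conj_pow, h3]; group
      rw [h', (show Commute (zH z) x from (zH_comm x).symm).mul_pow, h3, mul_one, pow_succ, pow_two,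
        zH_sq c.setting, one_mul] at e
      exact zH_ne_one c.setting e

theorem fixed_normal : (Q ⊓ Subgroup.centralizer (X : Set _)).Normal := by
  haveI := c.normalN
  haveI := modKer_normal c.setting N
  have e : Q ⊓ Subgroup.centralizer (X : Set _) = Q ⊓ modKer c.setting N :=
    le_antisymm (fun q hq => ⟨hq.1, (c.mem_fixed_iff hX hXN hq.1).1 hq.2⟩)
      fun q hq => ⟨hq.1, (c.mem_fixed_iff hX hXN hq.1).2 hq.2⟩
  rw [e]
  exact Subgroup.normal_inf_normal Q _

theorem zH_mem_fixed : zH z ∈ Q ⊓ Subgroup.centralizer (X : Set _) :=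
  ⟨zH_mem c.setting, Subgroup.mem_centralizer_iff.2 fun x _ => zH_comm x⟩

/-- `Q = C_Q(X) C_Q(C_Q(X))`. -/
theorem le_fixed_sup :
    Q ≤ (Q ⊓ Subgroup.centralizer (X : Set _)) ⊔
      (Q ⊓ Subgroup.centralizer ((Q ⊓ Subgroup.centralizer (X : Set _) : Subgroup _) : Set _)) := by
  set R := Q ⊓ Subgroup.centralizer (X : Set _) with hR
  set U := Q ⊓ Subgroup.centralizer (R : Set _) with hU
  intro q hq
  haveI : Nontrivial X := by
    rw [← Finite.one_lt_card_iff_nontrivial, hX]; norm_num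
  obtain ⟨x, hx1⟩ := exists_ne (1 : X)
  have hgen : Subgroup.zpowers (x : ↥(Subgroup.centralizer ({z} : Set G))) = X := by
    refine Subgroup.eq_of_le_of_card_ge (Subgroup.zpowers_le.2 x.2) ?_
    rw [hX, Nat.card_zpowers, Subgroup.orderOf_coe]
    haveI : Fact (Nat.Prime 3) := ⟨Nat.prime_three⟩
    rw [orderOf_eq_prime (Subtype.ext (c.pow_three hX x.2) : x ^ 3 = 1) hx1]
  obtain ⟨x, hxX⟩ := x
  have hsm : ∀ a ∈ Q, x * a * x⁻¹ ∈ Q := fun a ha => (inferInstance : Q.Normal).conj_mem a ha x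
  obtain ⟨q1, hq1⟩ : ∃ q1, q1 = x * q * x⁻¹ := ⟨_, rfl⟩
  obtain ⟨q2, hq2⟩ : ∃ q2, q2 = x * q1 * x⁻¹ := ⟨_, rfl⟩
  have hq1Q : q1 ∈ Q := hq1 ▸ hsm q hq
  have hq2Q : q2 ∈ Q := hq2 ▸ hsm q1 hq1Q
  have hq3 : x * q2 * x⁻¹ = q := by
    have h3 := c.pow_three hX hxX
    have e : x * q2 * x⁻¹ = x ^ 3 * q * (x ^ 3)⁻¹ := by rw [hq2, hq1, pow_succ, pow_two]; group
    rw [e, h3]; group
  have hcU : ∀ a ∈ Q, a⁻¹ * (x * a * x⁻¹) ∈ U := by
    intro a ha
    refine ⟨Q.mul_mem (Q.inv_mem ha) (hsm a ha), Subgroup.mem_centralizer_iff.2 fun r hr => ?_⟩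
    have hxr : x * r = r * x := Subgroup.mem_centralizer_iff.1 hr.2 x hxX
    have hr1 : r * (x * a * x⁻¹) * r⁻¹ = x * (r * a * r⁻¹) * x⁻¹ := by
      calc r * (x * a * x⁻¹) * r⁻¹ = (r * x) * a * (r * x)⁻¹ := by group
        _ = (x * r) * a * (x * r)⁻¹ := by rw [hxr]
        _ = x * (r * a * r⁻¹) * x⁻¹ := by group
    have : r * (a⁻¹ * (x * a * x⁻¹)) * r⁻¹ = a⁻¹ * (x * a * x⁻¹) := by
      calc r * (a⁻¹ * (x * a * x⁻¹)) * r⁻¹ = (r * a * r⁻¹)⁻¹ * (r * (x * a * x⁻¹) * r⁻¹) := by group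
        _ = a⁻¹ * (x * a * x⁻¹) := by
          rw [hr1]
          rcases conj_cases c.setting ha hr.1 with h | h <;> rw [h]
          rw [conj_zH_mul]; group
    exact mul_inv_eq_iff_eq_mul.1 this
  have hrR : q * q1 * q2 ∈ R := by
    refine ⟨Q.mul_mem (Q.mul_mem hq hq1Q) hq2Q, Subgroup.mem_centralizer_iff.2 ?_⟩
    rw [← hgen]
    intro y hy
    obtain ⟨k, rfl⟩ := Subgroup.mem_zpowers_iff.1 hy
    refine (Commute.zpow_left ?_ k).eq
    refine c.fixed_of_mod hX hXN hxX ?_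
    have e : x * (q * q1 * q2) * x⁻¹ = q1 * q2 * q := by
      calc x * (q * q1 * q2) * x⁻¹ = (x * q * x⁻¹) * (x * q1 * x⁻¹) * (x * q2 * x⁻¹) := by group
        _ = q1 * q2 * q := by rw [hq3, ← hq1, ← hq2]
    rw [e]
    rcases conj_cases c.setting (Q.mul_mem hq1Q hq2Q) hq with h | h
    · left
      rw [mul_inv_eq_iff_eq_mul] at h
      rw [← h, mul_assoc]
    · right
      rw [mul_inv_eq_iff_eq_mul] at h
      rw [mul_assoc q q1 q2, h, mul_assoc (zH z), zH_cancel c.setting]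
  have hzU : zH z ∈ U :=
    ⟨zH_mem c.setting, Subgroup.mem_centralizer_iff.2 fun r _ => zH_comm r⟩
  set S := R ⊔ U
  have hRS : R ≤ S := le_sup_left
  have hUS : U ≤ S := le_sup_right
  have hzS : zH z ∈ S := hUS hzU
  -- q1 ≡ q, q2 ≡ q modulo U, hence q ^ 3 ∈ S
  have hu1' : q⁻¹ * q1 ∈ U := hq1 ▸ hcU q hq
  have hu2' : q1⁻¹ * q2 ∈ U := hq2 ▸ hcU q1 hq1Q
  have hqS : ∀ u ∈ U, q * u * q⁻¹ ∈ S := by
    intro u hu
    rcases conj_cases c.setting hu.1 hq with h | h <;> rw [h]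
    · exact hUS hu
    · exact S.mul_mem hzS (hUS hu)
  have h3 : q * q * q ∈ S := by
    set u1 := q⁻¹ * q1
    set u2 := q⁻¹ * q2
    have hu1 : u1 ∈ U := hu1'
    have hu2 : u2 ∈ U := by
      have e : u2 = (q⁻¹ * q1) * (q1⁻¹ * q2) := by simp only [u2]; group
      rw [e]; exact U.mul_mem hu1' hu2'
    have e : q * q * q = (q * q1 * q2) * u2⁻¹ * (q⁻¹ * u1⁻¹ * q) := by
      simp only [u1, u2]; group
    rw [e]
    refine S.mul_mem (S.mul_mem (hRS hrR) (hUS (U.inv_mem hu2))) ?_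
    rcases conj_cases c.setting (U.inv_mem hu1).1 (Q.inv_mem hq) with h | h
    · rw [inv_inv] at h; rw [h]; exact hUS (U.inv_mem hu1)
    · rw [inv_inv] at h; rw [h]; exact S.mul_mem hzS (hUS (U.inv_mem hu1))
  rcases sq_cases c.setting hq with h | h <;> rw [h] at h3
  · rwa [one_mul] at h3
  · have := S.mul_mem hzS h3
    rwa [zH_cancel c.setting] at this

/-- If `M / N` cannot act faithfully on a proper section `W / ⟨z⟩` then `C_Q(X) = ⟨z⟩`. -/
theorem fixed_cases
    (hbound : ∀ W : Subgroup ↥(Subgroup.centralizer ({z} : Set G)), W.Normal → W ≤ Q → zH z ∈ W →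
      W ≠ Q → M ≤ N ⊔ modKer c.setting W)
    {q : ↥(Subgroup.centralizer ({z} : Set G))} (hq : q ∈ Q) (hqX : ∀ x ∈ X, x * q = q * x) :
    q = 1 ∨ q = zH z := by
  by_contra hne
  haveI := c.normalN
  haveI := c.normalM
  set R := Q ⊓ Subgroup.centralizer (X : Set _) with hR
  haveI hRn : R.Normal := c.fixed_normal hX hXN
  set U := Q ⊓ Subgroup.centralizer (R : Set ↥(Subgroup.centralizer ({z} : Set G))) with hU
  haveI hUn : U.Normal := by
    haveI : (Subgroup.centralizer (R : Set ↥(Subgroup.centralizer ({z} : Set G)))).Normal := inferInstance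
    exact Subgroup.normal_inf_normal Q _
  have hqR : q ∈ R := ⟨hq, Subgroup.mem_centralizer_iff.2 hqX⟩
  have hUne : U ≠ Q := by
    intro h
    refine hne (center_cases c.setting hq fun y hy => ?_)
    rw [← h] at hy
    exact Subgroup.mem_centralizer_iff.1 hy.2 q hqR
  have hRne : R ≠ Q := by
    intro h
    obtain ⟨x, hx, hx1⟩ : ∃ x ∈ X, x ≠ 1 := (Subgroup.bot_or_exists_ne_one X).resolve_left (by
      rw [Subgroup.eq_bot_iff_card, hX]; norm_num)
    have hxQ : x ∈ Q := mem_Q_of_mod c.setting fun y hy => by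
      rw [← h] at hy
      exact Or.inl (mul_inv_eq_iff_eq_mul.2 (Subgroup.mem_centralizer_iff.1 hy.2 x hx))
    exact hx1 (Subgroup.mem_bot.1 (c.inf_three hX ▸ Subgroup.mem_inf.2 ⟨hx, hxQ⟩))
  have hzU : zH z ∈ U :=
    ⟨zH_mem c.setting, Subgroup.mem_centralizer_iff.2 fun r _ => zH_comm r⟩
  haveI := modKer_normal c.setting R
  haveI := modKer_normal c.setting U
  have hA := hbound R hRn inf_le_left (c.zH_mem_fixed hX hXN) hRne
  have hB := hbound U hUn inf_le_left hzU hUne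
  have hAB : modKer c.setting R ⊓ modKer c.setting U ≤ Q := by
    rintro a ⟨haR, haU⟩
    refine mem_Q_of_mod c.setting fun y hy => ?_
    obtain ⟨r, hr, u, hu, rfl⟩ := Subgroup.mem_sup_of_normal_right.1 (c.le_fixed_sup hX hXN hy)
    have e : a * (r * u) * a⁻¹ = (a * r * a⁻¹) * (a * u * a⁻¹) := by group
    rw [e]
    rcases haR r hr with h | h <;> rcases haU u hu with h' | h' <;> rw [h, h']
    · exact Or.inl rfl
    · exact Or.inr (by rw [← mul_assoc, zH_comm r, mul_assoc])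
    · exact Or.inr (mul_assoc _ _ _)
    · refine Or.inl ?_
      calc zH z * r * (zH z * u) = zH z * (r * zH z) * u := by group
        _ = r * u := by rw [zH_comm r, zH_cancel c.setting]
  set A := modKer c.setting R ⊓ M
  set B := modKer c.setting U ⊓ M
  have hMA : M ≤ A ⊔ N := by
    intro m hm
    obtain ⟨n, hn, a, ha, rfl⟩ := Subgroup.mem_sup_of_normal_left.1 (hA hm)
    exact Subgroup.mul_mem _ (Subgroup.mem_sup_right hn)
      (Subgroup.mem_sup_left ⟨ha, (M.mul_mem_cancel_left (c.N_le hn)).1 hm⟩)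
  have hMB : M ≤ B ⊔ N := by
    intro m hm
    obtain ⟨n, hn, b, hb, rfl⟩ := Subgroup.mem_sup_of_normal_left.1 (hB hm)
    exact Subgroup.mul_mem _ (Subgroup.mem_sup_right hn)
      (Subgroup.mem_sup_left ⟨hb, (M.mul_mem_cancel_left (c.N_le hn)).1 hm⟩)
  have hABN : ∀ a ∈ A, ∀ b ∈ B, a * b * a⁻¹ * b⁻¹ ∈ N := by
    intro a ha b hb
    refine c.Q_le (hAB ⟨?_, ?_⟩)
    · have := (inferInstance : (modKer c.setting R).Normal).conj_mem a⁻¹ (Subgroup.inv_mem _ ha.1) b
      have e : a * b * a⁻¹ * b⁻¹ = a * (b * a⁻¹ * b⁻¹) := by group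
      rw [e]; exact Subgroup.mul_mem _ ha.1 this
    · exact Subgroup.mul_mem _ ((inferInstance : (modKer c.setting U).Normal).conj_mem b hb.1 a) (Subgroup.inv_mem _ hb.1)
  obtain ⟨hcard, hn, hsim⟩ := c.quotient_facts
  haveI := hn
  haveI := hsim
  have hcomm : ∀ m ∈ M, ∀ m' ∈ M, m * m' * m⁻¹ * m'⁻¹ ∈ N := by
    intro m hm m' hm'
    obtain ⟨a, ha, n, hn, rfl⟩ := Subgroup.mem_sup_of_normal_right.1 (hMA hm)
    obtain ⟨b, hb, n', hn', rfl⟩ := Subgroup.mem_sup_of_normal_right.1 (hMB hm')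
    rw [← QuotientGroup.eq_one_iff]
    have e1 : ((n : ↥(Subgroup.centralizer ({z} : Set G))) :
        ↥(Subgroup.centralizer ({z} : Set G)) ⧸ N) = 1 := (QuotientGroup.eq_one_iff n).2 hn
    have e2 : ((n' : ↥(Subgroup.centralizer ({z} : Set G))) :
        ↥(Subgroup.centralizer ({z} : Set G)) ⧸ N) = 1 := (QuotientGroup.eq_one_iff n').2 hn'
    simp only [QuotientGroup.mk_mul, QuotientGroup.mk_inv, e1, e2, mul_one]
    simpa only [QuotientGroup.mk_mul, QuotientGroup.mk_inv] using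
      (QuotientGroup.eq_one_iff _).2 (hABN a ha b hb)
  letI : CommGroup (M ⧸ N.subgroupOf M) :=
    { (inferInstance : Group (M ⧸ N.subgroupOf M)) with
      mul_comm := fun a b => by
        obtain ⟨⟨a, ha⟩, rfl⟩ := QuotientGroup.mk_surjective a
        obtain ⟨⟨b, hb⟩, rfl⟩ := QuotientGroup.mk_surjective b
        rw [← QuotientGroup.mk_mul, ← QuotientGroup.mk_mul, QuotientGroup.eq, Subgroup.mem_subgroupOf]
        show (a * b)⁻¹ * (b * a) ∈ N
        have := hcomm b⁻¹ (inv_mem hb) a⁻¹ (inv_mem ha)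
        rwa [show (a * b)⁻¹ * (b * a) = b⁻¹ * a⁻¹ * b⁻¹⁻¹ * a⁻¹⁻¹ by group] }
  have := (inferInstance : IsSimpleGroup (M ⧸ N.subgroupOf M)).prime_card
  rw [hcard] at this
  norm_num at this

/-- `H = Q N_H(X)`. -/
theorem exists_mul_mem_normalizer (h : ↥(Subgroup.centralizer ({z} : Set G))) :
    ∃ q ∈ Q, q * h ∈ Subgroup.normalizer (X : Set _) := by
  haveI : Fact (Nat.Prime 3) := ⟨Nat.prime_three⟩
  haveI := c.normalN
  set Y := X.map (MulAut.conj h).toMonoidHom with hYdef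
  have hYN : Y ≤ N := by
    rintro _ ⟨x, hx, rfl⟩
    exact c.normalN.conj_mem x (c.X_le hX hXN hx) h
  have hYc : Nat.card Y = 3 := by
    rw [hYdef, Subgroup.card_map_of_injective (MulAut.conj h).injective, hX]
  have hfac : 3 ^ (Nat.card N).factorization 3 = 3 := by
    rw [c.cardN, c.cardQ, Nat.factorization_mul (by norm_num) (by norm_num), Nat.factorization_pow]
    simp [Nat.prime_three.factorization, Nat.prime_two.factorization]
  have mk : ∀ W : Subgroup ↥(Subgroup.centralizer ({z} : Set G)), W ≤ N → Nat.card W = 3 →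
      ∃ P : Sylow 3 N, (P : Subgroup N) = W.subgroupOf N := fun W hW hWc =>
    ⟨Sylow.ofCard (W.subgroupOf N)
      (by rw [Nat.card_congr (Subgroup.subgroupOfEquivOfLe hW).toEquiv, hWc, hfac]), rfl⟩
  obtain ⟨P, hP⟩ := mk X (c.X_le hX hXN) hX
  obtain ⟨P', hP'⟩ := mk Y hYN hYc
  obtain ⟨⟨n, hn⟩, hnP⟩ := MulAction.exists_smul_eq N P' P
  have hnY : ∀ y ∈ Y, n * y * n⁻¹ ∈ X := by
    intro y hy
    have hmem : (⟨n, hn⟩ : N) * ⟨y, hYN hy⟩ * (⟨n, hn⟩ : N)⁻¹ ∈ (P : Subgroup N) := by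
      rw [← hnP]
      show _ ∈ MulAut.conj (⟨n, hn⟩ : N) • (P' : Subgroup N)
      exact Subgroup.smul_mem_pointwise_smul _ _ _ (hP'.symm ▸ (hy : y ∈ Y))
    rw [hP] at hmem
    exact hmem
  have hnn := hn
  rw [← hXN] at hnn
  obtain ⟨x0, hx0, q, hq, hn_eq⟩ := Subgroup.mem_sup_of_normal_right.1 hnn
  refine ⟨q, hq, ?_⟩
  refine Subgroup.mem_normalizer_iff.2 fun y => ?_
  have key : ∀ y ∈ X, q * h * y * (q * h)⁻¹ ∈ X := by
    intro y hy
    have h1 := hnY _ ⟨y, hy, rfl⟩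
    have e : q * h * y * (q * h)⁻¹ = x0⁻¹ * (n * ((MulAut.conj h).toMonoidHom y) * n⁻¹) * x0 := by
      rw [← hn_eq, MulEquiv.coe_toMonoidHom, MulAut.conj_apply]; group
    rw [e]
    exact X.mul_mem (X.mul_mem (X.inv_mem hx0) h1) hx0
  refine ⟨key y, fun hy => ?_⟩
  have heq : X.map (MulAut.conj (q * h)).toMonoidHom = X := by
    refine Subgroup.eq_of_le_of_card_ge ?_ (by
      rw [Subgroup.card_map_of_injective (MulAut.conj (q * h)).injective])
    rintro _ ⟨v, hv, rfl⟩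
    exact key v hv
  rw [← heq] at hy
  obtain ⟨v, hv, hv'⟩ := hy
  exact (MulAut.conj (q * h)).injective hv' ▸ hv

/-- An element of `M` normalising `X` centralises it. -/
theorem centralizes_of_normalizes {m : ↥(Subgroup.centralizer ({z} : Set G))} (hm : m ∈ M)
    (hmX : m ∈ Subgroup.normalizer (X : Set _)) : m ∈ Subgroup.centralizer (X : Set _) := by
  refine Subgroup.mem_centralizer_iff.2 fun x hx => ?_
  have h1 : m * x * m⁻¹ ∈ X := (Subgroup.mem_normalizer_iff.1 hmX x).1 hx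
  have h2 : m * x * m⁻¹ * x⁻¹ = 1 := Subgroup.mem_bot.1 (c.inf_three hX ▸
    Subgroup.mem_inf.2 ⟨X.mul_mem h1 (X.inv_mem hx), c.commutator_mem hm (c.X_le hX hXN hx)⟩)
  rw [mul_inv_eq_one, mul_inv_eq_iff_eq_mul] at h2
  exact h2.symm

/-- `C_M(X)` covers `M / Q`. -/
theorem exists_mul_mem_centralizer {m : ↥(Subgroup.centralizer ({z} : Set G))} (hm : m ∈ M) :
    ∃ q ∈ Q, q * m ∈ Subgroup.centralizer (X : Set _) := by
  obtain ⟨q, hq, hqm⟩ := c.exists_mul_mem_normalizer hX hXN m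
  exact ⟨q, hq, c.centralizes_of_normalizes hX hXN (M.mul_mem (c.N_le (c.Q_le hq)) hm) hqm⟩

/-- `N_Q(X) = C_Q(X)`. -/
theorem centralizes_of_normalizes_Q {q : ↥(Subgroup.centralizer ({z} : Set G))} (hq : q ∈ Q)
    (hqX : q ∈ Subgroup.normalizer (X : Set _)) : q ∈ Subgroup.centralizer (X : Set _) :=
  c.centralizes_of_normalizes hX hXN (c.N_le (c.Q_le hq)) hqX

end Chain

end CfsgLib.LargeFischer
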