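import Cfsg.Agent.Lib.LargeFischer.EvenSpan
import Cfsg.Agent.Lib.LargeFischer.Setup
import Cfsg.Agent.Lib.ExtraspecialLarge.Basic

/-!
Large Fischer type: coordinates of elements of `Q`, and the canonical lifts attached to an
element inducing the scalar.
-/

set_option autoImplicit false
set_option linter.unusedSectionVars false

namespace CfsgLib.LargeFischer

open Orbits Cfsg

variable {G : Type*} [Group G] [Finite G] {z : G}
  {Q : Subgroup ↥(Subgroup.centralizer ({z} : Set G))} [Q.Normal]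

namespace Coords

variable (F : Coords z Q) {w : ℕ} (hs : IsExtraspecialCentralizerSetting z Q w)

open Classical in
/-- The coordinates of an element of `Q`. -/
noncomputable def co (q : ↥(Subgroup.centralizer ({z} : Set G))) : Pt :=
  if h : q ∈ Q then (F.lift_surj q h).choose else zeroPt

include hs

theorem zC_mul_self : zH z * zH z = 1 := zH_sq hs

theorem mul_zC_zC (q : ↥(Subgroup.centralizer ({z} : Set G))) : q * zH z * zH z = q := by
  rw [mul_assoc, zC_mul_self hs, mul_one]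

theorem co_spec {q : ↥(Subgroup.centralizer ({z} : Set G))} (hq : q ∈ Q) :
    q = F.lift (F.co q) ∨ q = F.lift (F.co q) * zH z := by
  rw [co, dif_pos hq]
  exact (F.lift_surj q hq).choose_spec

theorem co_eq {q : ↥(Subgroup.centralizer ({z} : Set G))} {v : Pt}
    (h : q = F.lift v ∨ q = F.lift v * zH z) : F.co q = v := by
  have hq : q ∈ Q := by
    rcases h with rfl | rfl
    · exact F.lift_mem v
    · exact Q.mul_mem (F.lift_mem v) (zH_mem hs)
  refine F.lift_inj _ _ ?_
  rcases F.co_spec hs hq with h' | h' <;> rcases h with h | h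
  · exact Or.inl (h'.symm.trans h)
  · exact Or.inr (h'.symm.trans h)
  · exact Or.inr (by rw [h.symm.trans h', mul_zC_zC hs])
  · exact Or.inl (mul_right_cancel (h'.symm.trans h))

theorem co_lift (v : Pt) : F.co (F.lift v) = v := F.co_eq hs (Or.inl rfl)

theorem co_lift_mul (v : Pt) : F.co (F.lift v * zH z) = v := F.co_eq hs (Or.inr rfl)

theorem co_mul_zC {q : ↥(Subgroup.centralizer ({z} : Set G))} (hq : q ∈ Q) :
    F.co (q * zH z) = F.co q := by
  rcases F.co_spec hs hq with h | h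
  · exact F.co_eq hs (Or.inr (by rw [← h]))
  · refine F.co_eq hs (Or.inl ?_)
    conv_lhs => rw [h, mul_zC_zC hs]

theorem co_mul {a b : ↥(Subgroup.centralizer ({z} : Set G))} (ha : a ∈ Q) (hb : b ∈ Q) :
    F.co (a * b) = addPt (F.co a) (F.co b) := by
  have key : F.co (F.lift (F.co a) * F.lift (F.co b)) = addPt (F.co a) (F.co b) :=
    F.co_eq hs (F.lift_add _ _)
  have hm := Q.mul_mem (F.lift_mem (F.co a)) (F.lift_mem (F.co b))
  rcases F.co_spec hs ha with h | h <;> rcases F.co_spec hs hb with h' | h'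
  · conv_lhs => rw [h, h', key]
  · conv_lhs => rw [h, h', ← mul_assoc, F.co_mul_zC hs hm, key]
  · conv_lhs => rw [h, h', mul_assoc, ← zH_comm, ← mul_assoc, F.co_mul_zC hs hm, key]
  · conv_lhs => rw [h, h', mul_assoc, ← mul_assoc (zH z), ← zH_comm, mul_assoc (F.lift _) (zH z),
      zC_mul_self hs, mul_one, key]

theorem co_conj (h : ↥(Subgroup.centralizer ({z} : Set G)))
    {q : ↥(Subgroup.centralizer ({z} : Set G))} (hq : q ∈ Q) :
    F.co (h * q * h⁻¹) = F.act (QuotientGroup.mk h) (F.co q) := by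
  rcases F.co_spec hs hq with e | e
  · conv_lhs => rw [e]
    exact F.co_eq hs (F.conj_lift h _)
  · conv_lhs => rw [e]
    have e2 : h * (F.lift (F.co q) * zH z) * h⁻¹ = h * F.lift (F.co q) * h⁻¹ * zH z := by
      rw [mul_assoc _ h⁻¹ (zH z), zH_comm h⁻¹]; group
    rw [e2, F.co_mul_zC hs (Subgroup.Normal.conj_mem inferInstance _ (F.lift_mem _) h)]
    exact F.co_eq hs (F.conj_lift h _)

theorem co_one : F.co 1 = zeroPt := by
  have h := F.co_mul hs Q.one_mem Q.one_mem
  rw [one_mul, addPt_self] at h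
  exact h

theorem co_zC : F.co (zH z) = zeroPt := by
  have h := F.co_mul_zC hs Q.one_mem
  rwa [one_mul, F.co_one hs] at h

theorem eq_or_of_co {a b : ↥(Subgroup.centralizer ({z} : Set G))} (ha : a ∈ Q) (hb : b ∈ Q)
    (h : F.co a = F.co b) : a = b ∨ a = b * zH z := by
  rcases F.co_spec hs ha with e | e <;> rcases F.co_spec hs hb with e' | e' <;> rw [h] at e
  · exact Or.inl (e.trans e'.symm)
  · exact Or.inr (by rw [e', mul_zC_zC hs]; exact e)
  · exact Or.inr (by rw [e']; exact e)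
  · exact Or.inl (e.trans e'.symm)

theorem eq_or_of_co_zero {a : ↥(Subgroup.centralizer ({z} : Set G))} (ha : a ∈ Q)
    (h : F.co a = zeroPt) : a = 1 ∨ a = zH z := by
  simpa using F.eq_or_of_co hs ha Q.one_mem (h.trans (F.co_one hs).symm)

theorem sq_one_iff {q : ↥(Subgroup.centralizer ({z} : Set G))} (hq : q ∈ Q) :
    q * q = 1 ↔ Even (wt (F.co q)) := by
  rw [← F.lift_sq]
  rcases F.co_spec hs hq with e | e
  · conv_lhs => rw [e]
  · conv_lhs => rw [e, mul_assoc, ← mul_assoc (zH z), ← zH_comm, mul_assoc (F.lift _) (zH z),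
      zC_mul_self hs, mul_one]

theorem act_addPt (γ : ↥(Subgroup.centralizer ({z} : Set G)) ⧸ Q) (v u : Pt) :
    F.act γ (addPt v u) = addPt (F.act γ v) (F.act γ u) := by
  obtain ⟨h, rfl⟩ := QuotientGroup.mk_surjective γ
  have e : h * (F.lift v * F.lift u) * h⁻¹ = (h * F.lift v * h⁻¹) * (h * F.lift u * h⁻¹) := by group
  have l := congrArg F.co e
  rw [F.co_conj hs h (Q.mul_mem (F.lift_mem v) (F.lift_mem u)), F.co_mul hs (F.lift_mem v) (F.lift_mem u),
    F.co_mul hs (Subgroup.Normal.conj_mem inferInstance _ (F.lift_mem v) h)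
      (Subgroup.Normal.conj_mem inferInstance _ (F.lift_mem u) h),
    F.co_conj hs h (F.lift_mem v), F.co_conj hs h (F.lift_mem u), F.co_lift hs, F.co_lift hs] at l
  exact l

theorem act_zero (γ : ↥(Subgroup.centralizer ({z} : Set G)) ⧸ Q) : F.act γ zeroPt = zeroPt := by
  have h := F.act_addPt hs γ zeroPt zeroPt
  rwa [addPt_self, addPt_self] at h

omit hs

theorem comm_x_iff (γ : ↥(Subgroup.centralizer ({z} : Set G)) ⧸ Q) :
    γ * QuotientGroup.mk F.x = QuotientGroup.mk F.x * γ ↔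
      ∀ v, F.act γ (shift (fun _ => 1) v) = shift (fun _ => 1) (F.act γ v) := by
  constructor
  · intro h v
    have := congrArg (fun δ => F.act δ v) h
    simpa [map_mul, F.act_x] using this
  · intro h
    refine F.act_injective (Equiv.ext fun v => ?_)
    simp [map_mul, F.act_x, h v]

theorem shift_one_two (v : Pt) :
    shift (fun _ => 2) v = shift (fun _ => 1) (shift (fun _ => 1) v) := by
  rw [shift_shift]; congr 1

/-- An element centralising the scalar element modulo `Q` is linear. -/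
theorem act_shift {γ : ↥(Subgroup.centralizer ({z} : Set G)) ⧸ Q}
    (h : γ * QuotientGroup.mk F.x = QuotientGroup.mk F.x * γ) (c : ZMod 3) (v : Pt) :
    F.act γ (shift (fun _ => c) v) = shift (fun _ => c) (F.act γ v) := by
  have h1 := (F.comm_x_iff γ).1 h
  have hc : c = 0 ∨ c = 1 ∨ c = 2 := by revert c; decide
  rcases hc with rfl | rfl | rfl
  · have e : (fun _ : Fin 6 => (0 : ZMod 3)) = 0 := rfl
    rw [e, shift_zero, shift_zero]
  · exact h1 v
  · rw [shift_one_two, h1, h1, shift_one_two]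

/-- Monomial elements are linear. -/
theorem P_comm_x {γ : ↥(Subgroup.centralizer ({z} : Set G)) ⧸ Q} (hγ : γ ∈ F.P) :
    γ * QuotientGroup.mk F.x = QuotientGroup.mk F.x * γ := by
  refine (F.comm_x_iff γ).2 fun v => funext fun k => ?_
  obtain ⟨σ, -, a, h⟩ := F.P_mono γ hγ
  obtain ⟨i, rfl⟩ := σ.surjective k
  show _ = (F.act γ v (σ i)).map _
  rw [h, h]
  rcases hv : v i with _ | e <;> simp [shift, hv, add_assoc, add_comm, add_left_comm]

end Coords

/-- The product of the three conjugates of `q` by powers of `x`. -/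
def tri {H : Type*} [Group H] (x q : H) : H := q * (x * q * x⁻¹) * (x * (x * q * x⁻¹) * x⁻¹)

theorem tri_conj {H : Type*} [Group H] {x c : H} (hc : c * x = x * c) (q : H) :
    tri x (c * q * c⁻¹) = c * tri x q * c⁻¹ := by
  have hc' : x⁻¹ * c⁻¹ = c⁻¹ * x⁻¹ := by rw [← mul_inv_rev, ← mul_inv_rev, hc]
  have e1 : x * (c * q * c⁻¹) * x⁻¹ = c * (x * q * x⁻¹) * c⁻¹ := by
    calc x * (c * q * c⁻¹) * x⁻¹ = (x * c) * q * (c⁻¹ * x⁻¹) := by group
      _ = (c * x) * q * (x⁻¹ * c⁻¹) := by rw [hc, hc']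
      _ = c * (x * q * x⁻¹) * c⁻¹ := by group
  have e2 : x * (c * (x * q * x⁻¹) * c⁻¹) * x⁻¹ = c * (x * (x * q * x⁻¹) * x⁻¹) * c⁻¹ := by
    calc x * (c * (x * q * x⁻¹) * c⁻¹) * x⁻¹ = (x * c) * (x * q * x⁻¹) * (c⁻¹ * x⁻¹) := by group
      _ = (c * x) * (x * q * x⁻¹) * (x⁻¹ * c⁻¹) := by rw [hc, hc']
      _ = c * (x * (x * q * x⁻¹) * x⁻¹) * c⁻¹ := by group
  simp only [tri, e1, e2]
  group

theorem tri_mul {H : Type*} [Group H] {x d a : H}
    (h1 : (x * d * x⁻¹) * a = a * (x * d * x⁻¹))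
    (h2 : (x * (x * d * x⁻¹) * x⁻¹) * a = a * (x * (x * d * x⁻¹) * x⁻¹)) :
    tri x (d * a) = tri x d * tri x a := by
  set d1 := x * d * x⁻¹
  set d2 := x * d1 * x⁻¹
  set a1 := x * a * x⁻¹ with ha1
  set a2 := x * a1 * x⁻¹
  have h3 : d2 * a1 = a1 * d2 := by
    calc d2 * a1 = x * (d1 * a) * x⁻¹ := by rw [ha1]; simp only [d2]; group
      _ = x * (a * d1) * x⁻¹ := by rw [h1]
      _ = a1 * d2 := by rw [ha1]; simp only [d2]; group
  have e1 : x * (d * a) * x⁻¹ = d1 * a1 := by simp only [d1, a1]; group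
  have e2 : x * (d1 * a1) * x⁻¹ = d2 * a2 := by simp only [d2, a2]; group
  simp only [tri, e1, e2]
  calc d * a * (d1 * a1) * (d2 * a2) = d * (a * d1) * (a1 * d2) * a2 := by group
    _ = d * (d1 * a) * (d2 * a1) * a2 := by rw [← h1, ← h3]
    _ = d * d1 * (a * d2) * a1 * a2 := by group
    _ = d * d1 * (d2 * a) * a1 * a2 := by rw [h2]
    _ = _ := by simp only [d1, d2, a1, a2]; group

namespace Coords

variable (F : Coords z Q) {w : ℕ} (hs : IsExtraspecialCentralizerSetting z Q w)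
  {x₀ : ↥(Subgroup.centralizer ({z} : Set G))}
  (hx : QuotientGroup.mk x₀ = (QuotientGroup.mk F.x : ↥(Subgroup.centralizer ({z} : Set G)) ⧸ Q))

include hs hx

theorem co_conj_x {q : ↥(Subgroup.centralizer ({z} : Set G))} (hq : q ∈ Q) :
    F.co (x₀ * q * x₀⁻¹) = shift (fun _ => 1) (F.co q) := by
  rw [F.co_conj hs x₀ hq, hx, F.act_x]

theorem fixed_cases_x {q : ↥(Subgroup.centralizer ({z} : Set G))} (hq : q ∈ Q)
    (hc : x₀ * q = q * x₀) : q = 1 ∨ q = zH z := by
  refine F.eq_or_of_co_zero hs hq ?_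
  have h := F.co_conj_x hs hx hq
  rw [hc, mul_inv_cancel_right] at h
  funext i
  have hi := congrFun h i
  rcases hv : F.co q i with _ | e
  · rfl
  · simp [shift, hv] at hi

theorem tri_cases {q : ↥(Subgroup.centralizer ({z} : Set G))} (hq : q ∈ Q) :
    tri x₀ q = 1 ∨ tri x₀ q = zH z := by
  have h1 : x₀ * q * x₀⁻¹ ∈ Q := Subgroup.Normal.conj_mem inferInstance q hq x₀
  have h2 := Subgroup.Normal.conj_mem inferInstance _ h1 x₀
  refine F.eq_or_of_co_zero hs (Q.mul_mem (Q.mul_mem hq h1) h2) ?_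
  rw [tri, F.co_mul hs (Q.mul_mem hq h1) h2, F.co_mul hs hq h1, F.co_conj_x hs hx hq,
    F.co_conj_x hs hx h1, F.co_conj_x hs hx hq, addPt_assoc, ← shift_one_two, addPt_three]

theorem tri_zC : tri x₀ (zH z) = zH z := by
  have h : x₀ * zH z * x₀⁻¹ = zH z := by rw [zH_comm, mul_inv_cancel_right]
  simp [tri, h, zC_mul_self hs]

theorem tri_mul_zC {q : ↥(Subgroup.centralizer ({z} : Set G))} :
    tri x₀ (q * zH z) = tri x₀ q * zH z := by
  rw [zH_comm q, tri_mul, F.tri_zC hs hx, ← zH_comm]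
  all_goals
    have h : x₀ * zH z * x₀⁻¹ = zH z := by rw [zH_comm, mul_inv_cancel_right]
    simp only [h]
    exact (zH_comm q).symm

/-- Two canonical lifts of the same vector are equal. -/
theorem eq_of_co_of_tri {a b : ↥(Subgroup.centralizer ({z} : Set G))} (ha : a ∈ Q) (hb : b ∈ Q)
    (hc : F.co a = F.co b) (ht : tri x₀ a = tri x₀ b) : a = b := by
  rcases F.eq_or_of_co hs ha hb hc with h | h
  · exact h
  · rw [h, F.tri_mul_zC hs hx, mul_eq_left] at ht
    exact absurd ht (zH_ne_one hs)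

end Coords

end CfsgLib.LargeFischer
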