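import Cfsg.Agent.Lib.LargeFischer.PairMeet

/-!
Large Fischer type: the centraliser of `X` in `M` does not split over `⟨z⟩`.
-/

set_option autoImplicit false
set_option linter.unusedSectionVars false
set_option linter.style.haveILetI false

namespace CfsgLib.LargeFischer

open Orbits Cfsg CfsgLib.ExtraspecialLarge
open scoped commutatorElement

variable {G : Type*} [Group G] [Finite G] {z : G}
  {Q : Subgroup ↥(Subgroup.centralizer ({z} : Set G))} [Q.Normal]

namespace SplitData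

variable (D : SplitData z Q)

/-- An element of `C(x₀)` congruent modulo `Q` to an element of the conjugate of `Q` lies in the
conjugate of `Q`. -/
theorem mem_conjQG_of_comm (htri : tri D.x₀ D.sH = 1)
    {c y q : ↥(Subgroup.centralizer ({z} : Set G))} (hc : c * D.x₀ = D.x₀ * c)
    (hy : (y : G) ∈ conjQG Q D.g) (hq : q ∈ Q) (hcy : c = y * q) : (c : G) ∈ conjQG Q D.g := by
  have hqI : q ∈ D.I := by
    refine D.mem_I_of_centralizes hq fun i hi => ?_
    have aux : ∀ i ∈ D.I, tri D.x₀ i = 1 → q * i = i * q := by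
      intro i hi hti
      rcases conj_cases D.setting hi.1 hq with e | e
      · exact mul_inv_eq_iff_eq_mul.1 e
      exfalso
      have ht : tri D.x₀ (c * i * c⁻¹) = 1 := by rw [tri_conj hc, hti, mul_one, mul_inv_cancel]
      have h2 : c * i * c⁻¹ = zH z * (y * i * y⁻¹) := by
        calc c * i * c⁻¹ = y * (q * i * q⁻¹) * y⁻¹ := by rw [hcy]; group
          _ = _ := by rw [e, conj_zH_mul]
      have hyi : tri D.x₀ (y * i * y⁻¹) = 1 := by
        rcases D.conj_cases_S hy hi with e' | e' <;> rw [e']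
        · exact hti
        · rw [tri_mul (D.comm_I D.x_s_mem_I hi) (D.comm_I D.xx_s_mem_I hi), htri, hti, one_mul]
      rw [h2, ← zH_comm, show y * i * y⁻¹ * zH z = (y * i * y⁻¹) * zH z from rfl,
        D.F.tri_mul_zC D.setting D.hx, hyi, one_mul] at ht
      exact zH_ne_one D.setting ht
    rcases D.F.tri_cases D.setting D.hx hi.1 with h | h
    · exact aux i hi h
    · have hzi : i * zH z ∈ D.I := D.I.mul_mem hi D.zH_mem_I
      have h' := aux _ hzi (by rw [D.F.tri_mul_zC D.setting D.hx, h]; exact zH_sq D.setting)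
      rw [mul_assoc i, ← zH_comm q, ← mul_assoc, ← mul_assoc] at h'
      exact mul_right_cancel h'
  rw [hcy]
  exact Subgroup.mul_mem _ hy hqI.2

variable {M L : Subgroup ↥(Subgroup.centralizer ({z} : Set G))}
  (hM : ∀ h : ↥(Subgroup.centralizer ({z} : Set G)), h ∈ M ↔
    (QuotientGroup.mk h : ↥(Subgroup.centralizer ({z} : Set G)) ⧸ Q) * QuotientGroup.mk D.F.x =
      QuotientGroup.mk D.F.x * QuotientGroup.mk h)
  (hidx : M.index = 2) (hLM : L ≤ M) (hLx : ∀ d ∈ L, d * D.x₀ = D.x₀ * d)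
  (hcover : ∀ m ∈ M, ∃ d ∈ L, d⁻¹ * m ∈ Q) (hz : zH z ∉ L) (htri : tri D.x₀ D.sH = 1)

include hM hidx in
/-- An element of the conjugate of `Q` lying in `M` but not in `Q`. -/
theorem exists_mem_M : ∃ y : ↥(Subgroup.centralizer ({z} : Set G)),
    (y : G) ∈ conjQG Q D.g ∧ y ∈ M ∧ y ∉ Q := by
  classical
  haveI : M.Normal := Subgroup.normal_of_index_eq_two hidx
  obtain ⟨y1, hy1, hy1s, hy1x⟩ := D.exists_inverter
  have hy1M : y1 ∉ M := fun h => hy1x ((hM _).1 h)
  set b := D.x₀ * D.sH * D.x₀⁻¹ with hb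
  have hbI : b ∈ D.I := D.x_s_mem_I
  have hcob : D.F.co b = fun k => some (D.e k + 1) := D.co_x_s
  have hnotQ : ∀ (y i : ↥(Subgroup.centralizer ({z} : Set G))), i ∈ D.I →
      y * i * y⁻¹ = D.sH * i → y ∉ Q := by
    intro y i hi hyi hyQ
    rcases conj_cases D.setting hi.1 hyQ with e | e
    · exact D.s_ne_one (mul_eq_right.1 (hyi.symm.trans e))
    · exact D.s_ne_z (mul_right_cancel (hyi.symm.trans e))
  obtain ⟨i, hi, hne0, hnec⟩ : ∃ i ∈ D.I, D.F.co i ≠ zeroPt ∧
      ∀ c, D.F.co i ≠ fun k => some (D.e k + c) := by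
    by_contra hcon
    push Not at hcon
    let f : Option (ZMod 3) × Bool → ↥(Subgroup.centralizer ({z} : Set G)) := fun p =>
      D.F.lift (p.1.elim zeroPt fun c k => some (D.e k + c)) * (if p.2 then zH z else 1)
    have hsub : (D.I : Set _) ⊆ Set.range f := by
      intro i hi
      have hco : ∃ o : Option (ZMod 3), D.F.co i = o.elim zeroPt fun c k => some (D.e k + c) := by
        by_cases h : D.F.co i = zeroPt
        · exact ⟨none, h⟩
        · obtain ⟨c, hc⟩ := hcon i hi h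
          exact ⟨some c, hc⟩
      obtain ⟨o, ho⟩ := hco
      rcases D.F.co_spec D.setting hi.1 with e | e
      · exact ⟨(o, false), by simp [f, ← ho, ← e]⟩
      · exact ⟨(o, true), by simp [f, ← ho, ← e]⟩
    have h := Set.ncard_le_ncard hsub (Set.finite_range f)
    rw [← Nat.card_coe_set_eq, ← Nat.card_coe_set_eq] at h
    have h' : Nat.card D.I ≤ Nat.card (Option (ZMod 3) × Bool) := h.trans (Finite.card_range_le f)
    rw [D.card_I, Nat.card_eq_fintype_card] at h'
    simp at h'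
  -- make `i` fixed by the inverter
  obtain ⟨i, hi, hne0, hnec, hfix⟩ : ∃ i ∈ D.I, D.F.co i ≠ zeroPt ∧
      (∀ c, D.F.co i ≠ fun k => some (D.e k + c)) ∧ y1 * i * y1⁻¹ = i := by
    rcases D.conj_cases_S hy1 hi with e | e
    · exact ⟨i, hi, hne0, hnec, e⟩
    have hco : D.F.co (i * b) = addPt (D.F.co i) (fun k => some (D.e k + 1)) := by
      rw [D.F.co_mul D.setting hi.1 hbI.1, hcob]
    refine ⟨i * b, D.I.mul_mem hi hbI, ?_, ?_, ?_⟩
    · intro h
      rw [hco] at h
      have h' := congrArg (addPt · (fun k => some (D.e k + 1))) h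
      simp only [addPt_assoc, addPt_self, addPt_zero, zero_addPt] at h'
      exact hnec 1 h'
    · intro c h
      rw [hco] at h
      have h' := congrArg (addPt · (fun k => some (D.e k + 1))) h
      simp only [addPt_assoc, addPt_self, addPt_zero] at h'
      have hc : ∀ t c : ZMod 3, (c = 1 ∧ addCoord (some (t + c)) (some (t + 1)) = none) ∨
          ∃ d, (∀ u, addCoord (some (u + c)) (some (u + 1)) = some (u + d)) := by decide
      rcases hc 0 c with ⟨rfl, -⟩ | ⟨d, hd⟩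
      · rw [addPt_self] at h'; exact hne0 h'
      · exact hnec d (h'.trans (funext fun k => hd _))
    · calc y1 * (i * b) * y1⁻¹ = (y1 * i * y1⁻¹) * (y1 * b * y1⁻¹) := by group
        _ = (D.sH * i) * (D.sH * b) := by rw [e, hy1s]
        _ = (D.sH * D.sH) * (i * b) := by
          rw [mul_assoc, ← mul_assoc i, D.comm_I hi D.sH_mem_I]; group
        _ = i * b := by rw [D.s_sq, one_mul]
  obtain ⟨y2, hy2, hy2i⟩ := D.exists_flip hi hne0 (by simpa using hnec 0)
  by_cases hy2M : y2 ∈ M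
  · exact ⟨y2, hy2, hy2M, hnotQ y2 i hi hy2i⟩
  refine ⟨y2 * y1, Subgroup.mul_mem _ hy2 hy1, ?_, hnotQ _ i hi ?_⟩
  · rw [Subgroup.mul_mem_iff_of_index_two hidx]
    exact iff_of_false hy2M hy1M
  · calc y2 * y1 * i * (y2 * y1)⁻¹ = y2 * (y1 * i * y1⁻¹) * y2⁻¹ := by group
      _ = D.sH * i := by rw [hfix, hy2i]

/-- The elements fixing `s`. -/
abbrev stabS : Subgroup ↥(Subgroup.centralizer ({z} : Set G)) :=
  Subgroup.centralizer ({D.sH} : Set ↥(Subgroup.centralizer ({z} : Set G)))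

theorem mem_stabS {h : ↥(Subgroup.centralizer ({z} : Set G))} :
    h ∈ D.stabS ↔ h * D.sH = D.sH * h := Subgroup.mem_centralizer_singleton_iff

/-- Conjugation by an element exchanging `z` and `s`. -/
def swapHom (τ : G) (_hzs : τ * z * τ⁻¹ = (D.sH : G)) (hsz : τ * (D.sH : G) * τ⁻¹ = z) :
    D.stabS →* ↥(Subgroup.centralizer ({z} : Set G)) where
  toFun h := ⟨τ * ((h : ↥(Subgroup.centralizer ({z} : Set G))) : G) * τ⁻¹,
    Subgroup.mem_centralizer_singleton_iff.2 (by
      have e := congrArg Subtype.val (D.mem_stabS.1 h.2)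
      simp only [Subgroup.coe_mul] at e
      calc τ * ((h : ↥(Subgroup.centralizer ({z} : Set G))) : G) * τ⁻¹ * z
          = τ * ((h : ↥(Subgroup.centralizer ({z} : Set G))) : G) * τ⁻¹ * (τ * (D.sH : G) * τ⁻¹) :=
            congrArg (τ * ((h : ↥(Subgroup.centralizer ({z} : Set G))) : G) * τ⁻¹ * ·) hsz.symm
        _ = τ * (((h : ↥(Subgroup.centralizer ({z} : Set G))) : G) * (D.sH : G)) * τ⁻¹ := by group
        _ = (τ * (D.sH : G) * τ⁻¹) * (τ * ((h : ↥(Subgroup.centralizer ({z} : Set G))) : G) * τ⁻¹) := by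
          rw [e]; group
        _ = z * (τ * ((h : ↥(Subgroup.centralizer ({z} : Set G))) : G) * τ⁻¹) :=
            congrArg (· * (τ * ((h : ↥(Subgroup.centralizer ({z} : Set G))) : G) * τ⁻¹)) hsz)⟩
  map_one' := Subtype.ext (by simp)
  map_mul' a b := Subtype.ext (by simp only [Subgroup.coe_mul]; group)

include hM hidx hLM hLx hcover hz htri in
/-- The centraliser of `X` does not split over `⟨z⟩`. -/
theorem split_false
    (hT : ∀ a b : G, a ∈ Q.map (Subgroup.centralizer ({z} : Set G)).subtype →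
      b ∈ Q.map (Subgroup.centralizer ({z} : Set G)).subtype → IsConj z a → IsConj z b →
      a ≠ z → b ≠ z → ∃ h ∈ Subgroup.centralizer ({z} : Set G), h * a * h⁻¹ = b) : False := by
  classical
  set QS := conjQG Q D.g with hQS
  haveI : M.Normal := Subgroup.normal_of_index_eq_two hidx
  -- exchange of `z` and `s`
  obtain ⟨s1, hs1Q, hs1⟩ := mem_conjQG.1 D.z_mem_S
  have hs1z : (s1 : G) ≠ z := fun e => by
    rw [e, D.conj_g] at hs1
    exact D.s_ne_z (Subtype.ext hs1)
  have hsz' : (D.sH : G) ≠ z := fun e => D.s_ne_z (Subtype.ext e)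
  obtain ⟨h0, hh0, hh0s⟩ := hT (D.sH : G) (s1 : G) ⟨_, D.sH_mem, rfl⟩ ⟨_, hs1Q, rfl⟩
    (isConj_iff.2 ⟨D.g, D.conj_g⟩) (isConj_iff.2 ⟨D.g⁻¹, (by
      calc D.g⁻¹ * z * D.g⁻¹⁻¹ = D.g⁻¹ * (D.g * (s1 : G) * D.g⁻¹) * D.g⁻¹⁻¹ := by
            exact congrArg (fun u => D.g⁻¹ * u * D.g⁻¹⁻¹) hs1.symm
        _ = (s1 : G) := by group)⟩) hsz' hs1z
  set τ := D.g * h0 with hτ
  have hzs : τ * z * τ⁻¹ = (D.sH : G) := by
    rw [← D.conj_g, hτ]
    calc D.g * h0 * z * (D.g * h0)⁻¹ = D.g * ((h0 * z) * h0⁻¹) * D.g⁻¹ := by group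
      _ = D.g * z * D.g⁻¹ := by rw [Subgroup.mem_centralizer_singleton_iff.1 hh0]; group
  have hsz : τ * (D.sH : G) * τ⁻¹ = z := by
    calc τ * (D.sH : G) * τ⁻¹ = D.g * (h0 * (D.sH : G) * h0⁻¹) * D.g⁻¹ := by rw [hτ]; group
      _ = D.g * (s1 : G) * D.g⁻¹ := by rw [hh0s]
      _ = z := hs1
  have hQSτ : conjQG Q τ = QS := conjQG_eq (hzs.trans D.conj_g.symm)
  have hQSτ' : conjQG Q τ⁻¹ = QS := conjQG_eq (by
    calc τ⁻¹ * z * τ⁻¹⁻¹ = τ⁻¹ * (τ * (D.sH : G) * τ⁻¹) * τ⁻¹⁻¹ := congrArg (fun u => τ⁻¹ * u * τ⁻¹⁻¹) hsz.symm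
      _ = (D.sH : G) := by group
      _ = D.g * z * D.g⁻¹ := D.conj_g.symm)
  set φ := D.swapHom τ hzs hsz with hφ
  have hφval : ∀ h : D.stabS, ((φ h : ↥(Subgroup.centralizer ({z} : Set G))) : G) = τ * ((h : ↥(Subgroup.centralizer ({z} : Set G))) : G) * τ⁻¹ := fun h => rfl
  have hφinj : Function.Injective φ := fun a b h => by
    refine Subtype.ext (Subtype.ext ?_)
    have e := congrArg Subtype.val h
    rw [hφval, hφval] at e
    exact mul_left_cancel (mul_right_cancel e)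
  have hφQ : ∀ h : D.stabS, ((h : ↥(Subgroup.centralizer ({z} : Set G))) : G) ∈ QS → φ h ∈ Q := by
    intro h hh
    rw [← hQSτ', mem_conjQG] at hh
    obtain ⟨q, hq, e⟩ := hh
    have : φ h = q := Subtype.ext (by rw [hφval, ← e]; group)
    exact this ▸ hq
  have hφS : ∀ h : D.stabS, (h : ↥(Subgroup.centralizer ({z} : Set G))) ∈ Q → ((φ h : ↥(Subgroup.centralizer ({z} : Set G))) : G) ∈ QS := fun h hh => by
    rw [← hQSτ, mem_conjQG]; exact ⟨_, hh, (hφval h).symm⟩
  have hφstab : ∀ h : D.stabS, φ h ∈ D.stabS := fun h => D.mem_stabS.2 (Subtype.ext (by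
    have e : ((h : ↥(Subgroup.centralizer ({z} : Set G))) : G) * z = z * ((h : ↥(Subgroup.centralizer ({z} : Set G))) : G) :=
      Subgroup.mem_centralizer_singleton_iff.1 (h : ↥(Subgroup.centralizer ({z} : Set G))).2
    simp only [Subgroup.coe_mul, hφval]
    rw [← hzs]
    calc τ * ((h : ↥(Subgroup.centralizer ({z} : Set G))) : G) * τ⁻¹ * (τ * z * τ⁻¹) = τ * (((h : ↥(Subgroup.centralizer ({z} : Set G))) : G) * z) * τ⁻¹ := by group
      _ = _ := by rw [e]; group))
  have hφsurj : ∀ h : ↥(Subgroup.centralizer ({z} : Set G)), h ∈ D.stabS → ∃ k : D.stabS, φ k = h := by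
    intro h hh
    have e : (h : G) * (D.sH : G) = (D.sH : G) * (h : G) := congrArg Subtype.val (D.mem_stabS.1 hh)
    have e' : (h : G) * z = z * (h : G) := Subgroup.mem_centralizer_singleton_iff.1 h.2
    have hk : τ⁻¹ * (h : G) * τ ∈ Subgroup.centralizer ({z} : Set G) := Subgroup.mem_centralizer_singleton_iff.2 (by
      calc τ⁻¹ * (h : G) * τ * z = τ⁻¹ * (h : G) * (τ * z * τ⁻¹) * τ := by group
        _ = τ⁻¹ * ((h : G) * (D.sH : G)) * τ := by rw [hzs]; group
        _ = τ⁻¹ * ((D.sH : G) * (h : G)) * τ := by rw [e]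
        _ = τ⁻¹ * (τ * z * τ⁻¹) * (h : G) * τ := by rw [hzs]; group
        _ = z * (τ⁻¹ * (h : G) * τ) := by group)
    refine ⟨⟨⟨_, hk⟩, D.mem_stabS.2 (Subtype.ext ?_)⟩, Subtype.ext ?_⟩
    · show τ⁻¹ * (h : G) * τ * (D.sH : G) = (D.sH : G) * (τ⁻¹ * (h : G) * τ)
      calc τ⁻¹ * (h : G) * τ * (D.sH : G) = τ⁻¹ * (h : G) * (τ * (D.sH : G) * τ⁻¹) * τ := by group
        _ = τ⁻¹ * ((h : G) * z) * τ := by rw [hsz]; group
        _ = τ⁻¹ * (z * (h : G)) * τ := by rw [e']
        _ = τ⁻¹ * (τ * (D.sH : G) * τ⁻¹) * (h : G) * τ := by rw [hsz]; group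
        _ = (D.sH : G) * (τ⁻¹ * (h : G) * τ) := by group
    · rw [hφval]; group
  have hIstab : ∀ i ∈ D.I, i ∈ D.stabS := fun i hi => D.mem_stabS.2 (D.comm_I hi D.sH_mem_I)
  have hQSstab : ∀ y : ↥(Subgroup.centralizer ({z} : Set G)), (y : G) ∈ QS → y ∈ D.stabS := fun y hy => D.mem_stabS.2 (D.comm_S hy)
  have hφI : ∀ h : D.stabS, (h : ↥(Subgroup.centralizer ({z} : Set G))) ∈ D.I → φ h ∈ D.I := fun h hh => ⟨hφQ h hh.2, hφS h hh.1⟩
  have hφI' : ∀ h : D.stabS, φ h ∈ D.I → (h : ↥(Subgroup.centralizer ({z} : Set G))) ∈ D.I := by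
    intro h hh
    refine ⟨?_, ?_⟩
    · obtain ⟨q, hq, e⟩ := mem_conjQG.1 (hQSτ.ge hh.2)
      have e : τ * (q : G) * τ⁻¹ = τ * ((h : ↥(Subgroup.centralizer ({z} : Set G))) : G) * τ⁻¹ := e
      have : (h : ↥(Subgroup.centralizer ({z} : Set G))) = q := Subtype.ext (mul_left_cancel (mul_right_cancel e)).symm
      exact this ▸ hq
    · show ((h : ↥(Subgroup.centralizer ({z} : Set G))) : G) ∈ QS
      rw [← hQSτ', mem_conjQG]
      exact ⟨φ h, hh.1, by rw [hφval]; group⟩
  -- the image of `x₀ s x₀⁻¹`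
  let w0 : D.stabS := ⟨D.x₀ * D.sH * D.x₀⁻¹, hIstab _ D.x_s_mem_I⟩
  set w := φ w0 with hw
  have hwI : w ∈ D.I := hφI w0 D.x_s_mem_I
  set ePt : Pt := fun k => some (D.e k) with hePt
  -- elements of `M` fixing `s` fix `s` through `L`
  have hdecomp : ∀ k : D.stabS, (k : ↥(Subgroup.centralizer ({z} : Set G))) ∈ M → ∃ (d : D.stabS) (q : D.stabS),
      (d : ↥(Subgroup.centralizer ({z} : Set G))) ∈ L ∧ (q : ↥(Subgroup.centralizer ({z} : Set G))) ∈ Q ∧ k = d * q := by
    intro k hk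
    obtain ⟨d, hd, hdq⟩ := hcover _ hk
    have hds : d ∈ D.stabS := by
      refine D.mem_stabS.2 (mul_inv_eq_iff_eq_mul.1 ?_)
      refine D.F.eq_of_co_of_tri D.setting D.hx
        (Subgroup.Normal.conj_mem inferInstance _ D.sH_mem d) D.sH_mem ?_ ?_
      · rw [D.F.co_conj D.setting d D.sH_mem, D.co_s]
        have : (QuotientGroup.mk d : ↥(Subgroup.centralizer ({z} : Set G)) ⧸ Q) = QuotientGroup.mk (k : ↥(Subgroup.centralizer ({z} : Set G))) := (QuotientGroup.eq).2 hdq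
        rw [this]
        exact D.act_comm_S (D.mem_stabS.1 k.2)
      · rw [tri_conj (hLx d hd), htri, mul_one, mul_inv_cancel]
    refine ⟨⟨d, hds⟩, ⟨d⁻¹ * (k : ↥(Subgroup.centralizer ({z} : Set G))), D.stabS.mul_mem (D.stabS.inv_mem hds) k.2⟩, hd, hdq,
      Subtype.ext ?_⟩
    simp
  have hdw0 : ∀ d : D.stabS, (d : ↥(Subgroup.centralizer ({z} : Set G))) ∈ L → d * w0 * d⁻¹ = w0 := by
    intro d hd
    refine Subtype.ext ?_
    show (d : ↥(Subgroup.centralizer ({z} : Set G))) * (D.x₀ * D.sH * D.x₀⁻¹) * (d : ↥(Subgroup.centralizer ({z} : Set G)))⁻¹ = D.x₀ * D.sH * D.x₀⁻¹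
    have e1 := hLx _ hd
    have e2 := D.mem_stabS.1 d.2
    rw [mul_inv_eq_iff_eq_mul]
    calc (d : ↥(Subgroup.centralizer ({z} : Set G))) * (D.x₀ * D.sH * D.x₀⁻¹) = ((d : ↥(Subgroup.centralizer ({z} : Set G))) * D.x₀) * D.sH * D.x₀⁻¹ := by group
      _ = D.x₀ * ((d : ↥(Subgroup.centralizer ({z} : Set G))) * D.sH) * D.x₀⁻¹ := by rw [e1]; group
      _ = D.x₀ * D.sH * ((d : ↥(Subgroup.centralizer ({z} : Set G))) * D.x₀⁻¹) := by rw [e2]; group
      _ = D.x₀ * D.sH * (D.x₀⁻¹ * (d : ↥(Subgroup.centralizer ({z} : Set G)))) := by rw [(show Commute (d : ↥(Subgroup.centralizer ({z} : Set G))) D.x₀ from e1).inv_right.eq]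
      _ = D.x₀ * D.sH * D.x₀⁻¹ * (d : ↥(Subgroup.centralizer ({z} : Set G))) := by group
  -- the permutations realised by images of elements of `M` fixing `s`
  let good : Subgroup (Equiv.Perm (Fin 6)) :=
    { carrier := {σ | ∃ k : D.stabS, (k : ↥(Subgroup.centralizer ({z} : Set G))) ∈ M ∧ ∃ a, D.F.Mono (QuotientGroup.mk (φ k)) σ a}
      one_mem' := ⟨1, M.one_mem, 0, by rw [map_one]; exact Coords.Mono.one⟩
      mul_mem' := by
        rintro σ π ⟨k, hk, a, ha⟩ ⟨l, hl, b, hb⟩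
        exact ⟨k * l, M.mul_mem hk hl, _, by rw [map_mul, QuotientGroup.mk_mul]; exact ha.mul hb⟩
      inv_mem' := by
        rintro σ ⟨k, hk, a, ha⟩
        exact ⟨k⁻¹, M.inv_mem hk, _, by rw [map_inv, QuotientGroup.mk_inv]; exact ha.inv⟩ }
  have hgood : alternatingGroup (Fin 6) ≤ good := by
    rw [← Equiv.Perm.closure_three_cycles_eq_alternating, Subgroup.closure_le]
    intro σ hσ
    obtain ⟨α, hα, β, hβ, rfl⟩ := exists_commutator_of_threeCycle hσ
    obtain ⟨γ, -, a, ha, hγe⟩ := D.F.exists_stab D.e hα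
    obtain ⟨δ, -, b, hb, hδe⟩ := D.F.exists_stab D.e hβ
    obtain ⟨h1, rfl, hh1⟩ := D.exists_fix γ hγe
    obtain ⟨h2, rfl, hh2⟩ := D.exists_fix δ hδe
    obtain ⟨k1, hk1⟩ := hφsurj h1 (D.mem_stabS.2 hh1)
    obtain ⟨k2, hk2⟩ := hφsurj h2 (D.mem_stabS.2 hh2)
    have hm := ((ha.mul hb).mul ha.inv).mul hb.inv
    obtain ⟨cv, hm⟩ : ∃ cv, D.F.Mono (QuotientGroup.mk h1 * QuotientGroup.mk h2 *
        (QuotientGroup.mk h1)⁻¹ * (QuotientGroup.mk h2)⁻¹) (α * β * α⁻¹ * β⁻¹) cv := ⟨_, hm⟩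
    refine ⟨k1 * k2 * k1⁻¹ * k2⁻¹, ?_, cv, ?_⟩
    · have key : ∀ u v : ↥(Subgroup.centralizer ({z} : Set G)), u * v * u⁻¹ * v⁻¹ ∈ M := fun u v => by
        by_cases hu : u ∈ M <;> by_cases hv : v ∈ M <;>
          simp [Subgroup.mul_mem_iff_of_index_two hidx, hu, hv]
      exact key (k1 : ↥(Subgroup.centralizer ({z} : Set G))) (k2 : ↥(Subgroup.centralizer ({z} : Set G)))
    · simp only [map_mul, map_inv, QuotientGroup.mk_mul, QuotientGroup.mk_inv, hk1, hk2]
      exact hm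
  -- effect of such an element on the meet
  have hfix : ∀ k : D.stabS, D.F.act (QuotientGroup.mk (φ k)) ePt = ePt := fun k =>
    D.act_comm_S (D.mem_stabS.1 (hφstab k))
  have hsmall : ∀ q : D.stabS, (q : ↥(Subgroup.centralizer ({z} : Set G))) ∈ Q → ∀ i ∈ D.I,
      D.F.act (QuotientGroup.mk (φ q)) (D.F.co i) = D.F.co i ∨
      D.F.act (QuotientGroup.mk (φ q)) (D.F.co i) = addPt (D.F.co i) ePt := by
    intro q hq i hi
    rw [← D.F.co_conj D.setting (φ q) hi.1]
    rcases D.conj_cases_S (hφS q hq) hi with e | e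
    · exact Or.inl (by rw [e])
    · exact Or.inr (by rw [e, D.F.co_mul D.setting D.sH_mem hi.1, D.co_s, addPt_comm])
  have hdw : ∀ d : D.stabS, (d : ↥(Subgroup.centralizer ({z} : Set G))) ∈ L →
      D.F.act (QuotientGroup.mk (φ d)) (D.F.co w) = D.F.co w := by
    intro d hd
    rw [← D.F.co_conj D.setting (φ d) hwI.1, hw, ← map_inv, ← map_mul, ← map_mul, hdw0 d hd]
  -- `w` is a scalar multiple of `s`
  have hw1 : D.F.co w ≠ zeroPt := by
    intro h
    rcases D.F.eq_or_of_co_zero D.setting hwI.1 h with e | e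
    · have := hφinj (e.trans (map_one φ).symm)
      have h' := congrArg (fun u : D.stabS => D.F.co (u : ↥(Subgroup.centralizer ({z} : Set G)))) this
      simp only [w0, D.co_x_s, Subgroup.coe_one, D.F.co_one D.setting] at h'
      simpa [zeroPt] using congrFun h' 0
    · have hs' : φ ⟨D.sH, hIstab _ D.sH_mem_I⟩ = zH z := Subtype.ext (by rw [hφval]; exact hsz)
      have := hφinj (e.trans hs'.symm)
      have h' := congrArg (fun u : D.stabS => D.F.co (u : ↥(Subgroup.centralizer ({z} : Set G)))) this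
      simp only [w0, D.co_x_s, D.co_s] at h'
      simpa using congrFun h' 0
  have hw2 : D.F.co w ≠ ePt := by
    intro h
    rcases D.F.eq_or_of_co D.setting hwI.1 D.sH_mem (h.trans D.co_s.symm) with e | e
    · have hz' : φ ⟨zH z, D.mem_stabS.2 (zH_comm D.sH).symm⟩ = D.sH :=
        Subtype.ext (by rw [hφval]; exact hzs)
      have := hφinj (e.trans hz'.symm)
      have h' := congrArg (fun u : D.stabS => D.F.co (u : ↥(Subgroup.centralizer ({z} : Set G)))) this
      simp only [w0, D.co_x_s] at h'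
      rw [show zH z = zH z from rfl, D.F.co_zC D.setting] at h'
      simpa [zeroPt] using congrFun h' 0
    · have hzs' : φ (⟨zH z, D.mem_stabS.2 (zH_comm D.sH).symm⟩ * ⟨D.sH, hIstab _ D.sH_mem_I⟩) =
          D.sH * zH z := Subtype.ext (by
        rw [map_mul]; simp only [Subgroup.coe_mul, hφval]; rw [show ((zH z : ↥(Subgroup.centralizer ({z} : Set G))) : G) = z from rfl, hzs, hsz])
      have := hφinj (e.trans hzs'.symm)
      have h' := congrArg (fun u : D.stabS => D.F.co (u : ↥(Subgroup.centralizer ({z} : Set G)))) this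
      simp only [w0, D.co_x_s, Subgroup.coe_mul] at h'
      rw [D.F.co_mul D.setting (zH_mem D.setting) D.sH_mem, show zH z = zH z from rfl,
        D.F.co_zC D.setting, zero_addPt, D.co_s] at h'
      simpa using congrFun h' 0
  have hconst : ∃ j : ZMod 3, j ≠ 0 ∧ D.F.co w = fun k => some (D.e k + j) := by
    by_contra hcon
    push Not at hcon
    set S : Set Pt := {v | v = zeroPt ∨ v = ePt ∨ v = D.F.co w ∨ v = addPt (D.F.co w) ePt} with hS
    have hadd : ∀ v ∈ S, ∀ u ∈ S, addPt v u ∈ S := by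
      have hx : addPt ePt (D.F.co w) = addPt (D.F.co w) ePt := addPt_comm _ _
      have hy : addPt (addPt (D.F.co w) ePt) (D.F.co w) = ePt := by
        rw [addPt_comm, ← addPt_assoc, addPt_self, zero_addPt]
      have hy' : addPt (addPt (D.F.co w) ePt) ePt = D.F.co w := by
        rw [addPt_assoc, addPt_self, addPt_zero]
      rintro v (rfl | rfl | rfl | rfl) u (rfl | rfl | rfl | rfl) <;>
        simp only [hS, Set.mem_ofPred_eq, addPt_zero, zero_addPt, addPt_self, hx, hy, hy', true_or,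
          or_true]
      · rw [addPt_comm ePt, hy']; exact Or.inr (Or.inr (Or.inl rfl))
      · rw [addPt_comm (D.F.co w), hy]; exact Or.inr (Or.inl rfl)
    have hin : ∀ v ∈ S, ∃ i ∈ D.I, D.F.co i = v := by
      rintro v (rfl | rfl | rfl | rfl)
      · exact ⟨1, D.I.one_mem, D.F.co_one D.setting⟩
      · exact ⟨_, D.sH_mem_I, D.co_s⟩
      · exact ⟨_, hwI, rfl⟩
      · exact ⟨w * D.sH, D.I.mul_mem hwI D.sH_mem_I, by
          rw [D.F.co_mul D.setting hwI.1 D.sH_mem, D.co_s]⟩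
    have heven : ∀ v ∈ S, Even (wt v) := fun v hv => by
      obtain ⟨i, hi, rfl⟩ := hin v hv
      exact (D.F.sq_one_iff D.setting hi.1).1 (D.sq_I hi)
    have hperm : ∀ σ ∈ alternatingGroup (Fin 6), ∃ f : Pt → Pt, (∀ v ∈ S, f v ∈ S) ∧
        f ePt = ePt ∧ ∃ a : Fin 6 → ZMod 3, ∀ (v : Pt) (i : Fin 6),
          f v (σ i) = (v i).map (· + a i) := by
      intro σ hσ
      obtain ⟨k, hkM, a, ha⟩ := hgood hσ
      refine ⟨D.F.act (QuotientGroup.mk (φ k)), ?_, hfix k, a, ha⟩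
      have hkw : D.F.act (QuotientGroup.mk (φ k)) (D.F.co w) = D.F.co w ∨
          D.F.act (QuotientGroup.mk (φ k)) (D.F.co w) = addPt (D.F.co w) ePt := by
        obtain ⟨d, q, hd, hq, rfl⟩ := hdecomp k hkM
        rw [map_mul, QuotientGroup.mk_mul, map_mul, Equiv.Perm.mul_apply]
        rcases hsmall q hq w hwI with e | e <;> rw [e]
        · exact Or.inl (hdw d hd)
        · exact Or.inr (by rw [D.F.act_addPt D.setting, hdw d hd, hfix])
      rintro v (rfl | rfl | rfl | rfl)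
      · exact Or.inl (D.F.act_zero D.setting _)
      · exact Or.inr (Or.inl (hfix k))
      · rcases hkw with e | e <;> rw [e]
        · exact Or.inr (Or.inr (Or.inl rfl))
        · exact Or.inr (Or.inr (Or.inr rfl))
      · rw [D.F.act_addPt D.setting, hfix]
        rcases hkw with e | e <;> rw [e]
        · exact Or.inr (Or.inr (Or.inr rfl))
        · rw [addPt_assoc, addPt_self, addPt_zero]; exact Or.inr (Or.inr (Or.inl rfl))
    have hne : ∃ v ∈ S, v ≠ zeroPt ∧ ∀ c, v ≠ fun k => some (D.e k + c) := by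
      refine ⟨D.F.co w, Or.inr (Or.inr (Or.inl rfl)), hw1, fun c h => ?_⟩
      by_cases hc : c = 0
      · subst hc; exact hw2 (by simpa using h)
      · exact hcon c hc h
    rcases span_cases_shift D.e S hadd heven (Or.inr (Or.inl rfl)) hperm hne with
      ⟨v, hv, h2, h4⟩ | h
    · obtain ⟨i, hi, rfl⟩ := hin v hv
      exact D.no_pair hi h2 h4
    · rcases h 1 with e | e | e | e
      · simpa [zeroPt] using congrFun e 0
      · simpa [hePt] using congrFun e 0
      · exact hcon 1 (by decide) e.symm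
      · refine hcon 2 (by decide) ?_
        have e' := congrArg (addPt · ePt) e
        simp only [addPt_assoc, addPt_self, addPt_zero] at e'
        rw [← e']
        funext k
        have hc : ∀ t : ZMod 3, addCoord (some (t + 1)) (some t) = some (t + 2) := by decide
        exact hc _
  obtain ⟨j, hj, hcow⟩ := hconst
  -- an element `t` carrying `s` to `w`, acting as the scalar `j`
  obtain ⟨t, htw, htco⟩ : ∃ t : ↥(Subgroup.centralizer ({z} : Set G)), t * D.sH * t⁻¹ = w ∧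
      ∀ q ∈ Q, D.F.co (t⁻¹ * q * t) = shift (fun _ => -j) (D.F.co q) := by
    have hpow : ∀ n : ℕ, ∀ v, D.F.act (QuotientGroup.mk (D.x₀ ^ n)) v =
        shift (fun _ => (n : ZMod 3)) v := by
      intro n
      induction n with
      | zero =>
        intro v
        rw [pow_zero, QuotientGroup.mk_one, map_one, Nat.cast_zero]
        exact (shift_zero v).symm
      | succ n ih =>
        intro v
        rw [pow_succ', QuotientGroup.mk_mul, map_mul, Equiv.Perm.mul_apply, ih, D.hx, D.F.act_x,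
          shift_shift]
        congr 1
        funext k
        simp [add_comm]
    have hco' : ∀ q0 ∈ Q, ∀ q ∈ Q, D.F.co ((q0 * D.x₀ ^ j.val)⁻¹ * q * (q0 * D.x₀ ^ j.val)) =
        shift (fun _ => -j) (D.F.co q) := by
      intro q0 hq0 q hq
      set t := q0 * D.x₀ ^ j.val
      have hm : t⁻¹ * q * t ∈ Q := by
        simpa using Subgroup.Normal.conj_mem inferInstance q hq t⁻¹
      have h := D.F.co_conj D.setting t hm
      rw [show t * (t⁻¹ * q * t) * t⁻¹ = q by group, QuotientGroup.mk_mul,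
        (QuotientGroup.eq_one_iff q0).2 hq0, one_mul, hpow, ZMod.natCast_zmod_val] at h
      rw [h, shift_shift]
      rw [show (fun _ : Fin 6 => -j) + (fun _ => j) = 0 from funext fun _ => neg_add_cancel j,
        shift_zero]
    have hco : D.F.co (D.x₀ ^ j.val * D.sH * (D.x₀ ^ j.val)⁻¹) = D.F.co w := by
      rw [D.F.co_conj D.setting _ D.sH_mem, hpow, D.co_s, hcow, ZMod.natCast_zmod_val]
      rfl
    have hmem : D.x₀ ^ j.val * D.sH * (D.x₀ ^ j.val)⁻¹ ∈ Q :=
      Subgroup.Normal.conj_mem inferInstance _ D.sH_mem _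
    rcases D.F.eq_or_of_co D.setting hmem hwI.1 hco with e | e
    · exact ⟨1 * D.x₀ ^ j.val, by rw [one_mul]; exact e, hco' 1 Q.one_mem⟩
    have hwne : w ≠ 1 := fun h => hw1 (by rw [h, D.F.co_one D.setting])
    have hwnz : w ≠ zH z := fun h => hw1 (by rw [h]; exact D.F.co_zC D.setting)
    obtain ⟨q0, hq0, hq0w⟩ := exists_conj D.setting hwI.1 hwne hwnz
    refine ⟨q0 * D.x₀ ^ j.val, ?_, hco' q0 hq0⟩
    calc q0 * D.x₀ ^ j.val * D.sH * (q0 * D.x₀ ^ j.val)⁻¹
        = q0 * (D.x₀ ^ j.val * D.sH * (D.x₀ ^ j.val)⁻¹) * q0⁻¹ := by group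
      _ = q0 * (w * zH z) * q0⁻¹ := by rw [e]
      _ = zH z * (q0 * w * q0⁻¹) := by rw [zH_comm]; exact conj_zH_mul q0 w
      _ = w := by rw [hq0w, zH_cancel D.setting]
  -- the transported subgroup
  have hRI : ∀ r : D.stabS, (r : ↥(Subgroup.centralizer ({z} : Set G))) ∈ L → ((r : ↥(Subgroup.centralizer ({z} : Set G))) : G) ∈ QS → t⁻¹ * φ r * t ∈ D.I := by
    intro r hrL hrS
    refine ⟨by simpa using Subgroup.Normal.conj_mem inferInstance _ (hφQ r hrS) t⁻¹, ?_⟩
    obtain ⟨q, hq, e⟩ := mem_conjQG.1 hrS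
    have hr : (r : ↥(Subgroup.centralizer ({z} : Set G))) = D.x₀ * (r : ↥(Subgroup.centralizer ({z} : Set G))) * D.x₀⁻¹ := by rw [← hLx _ hrL]; group
    have h1 : ((φ r : ↥(Subgroup.centralizer ({z} : Set G))) : G) ∈ conjQG Q (τ * (D.x₀ : G) * D.g) := by
      refine mem_conjQG.2 ⟨q, hq, ?_⟩
      rw [hφval]
      conv_rhs => rw [hr]
      simp only [Subgroup.coe_mul, Subgroup.coe_inv, ← e]
      group
    rw [conjQG_eq (a := τ * (D.x₀ : G) * D.g) (b := (t : G) * D.g)] at h1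
    · obtain ⟨q', hq', e'⟩ := mem_conjQG.1 h1
      refine mem_conjQG.2 ⟨q', hq', ?_⟩
      show D.g * (q' : G) * D.g⁻¹ = (t : G)⁻¹ * ((φ r : ↥(Subgroup.centralizer ({z} : Set G))) : G) * (t : G)
      rw [← e']
      group
    · have e1 := congrArg Subtype.val htw
      have e2 : ((w : ↥(Subgroup.centralizer ({z} : Set G))) : G) = τ * ((D.x₀ : G) * (D.sH : G) * (D.x₀ : G)⁻¹) * τ⁻¹ := by
        rw [hw, hφval]; rfl
      simp only [Subgroup.coe_mul, Subgroup.coe_inv] at e1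
      rw [e2, ← D.conj_g] at e1
      calc τ * (D.x₀ : G) * D.g * z * (τ * (D.x₀ : G) * D.g)⁻¹
          = τ * ((D.x₀ : G) * (D.g * z * D.g⁻¹) * (D.x₀ : G)⁻¹) * τ⁻¹ := by group
        _ = (t : G) * (D.g * z * D.g⁻¹) * (t : G)⁻¹ := e1.symm
        _ = _ := by group
  set rr : D.stabS → Pt := fun r => D.F.co (t⁻¹ * φ r * t) with hrr
  set S : Set Pt := {v | ∃ r : D.stabS, (r : ↥(Subgroup.centralizer ({z} : Set G))) ∈ L ∧ ((r : ↥(Subgroup.centralizer ({z} : Set G))) : G) ∈ QS ∧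
    (v = rr r ∨ v = addPt (rr r) ePt)} with hS
  have hin : ∀ v ∈ S, ∃ i ∈ D.I, D.F.co i = v := by
    rintro v ⟨r, hrL, hrS, rfl | rfl⟩
    · exact ⟨_, hRI r hrL hrS, rfl⟩
    · exact ⟨_, D.I.mul_mem (hRI r hrL hrS) D.sH_mem_I, by
        rw [D.F.co_mul D.setting (hRI r hrL hrS).1 D.sH_mem, D.co_s]⟩
  have hmul : ∀ a b : D.stabS, (a : ↥(Subgroup.centralizer ({z} : Set G))) ∈ L → ((a : ↥(Subgroup.centralizer ({z} : Set G))) : G) ∈ QS → (b : ↥(Subgroup.centralizer ({z} : Set G))) ∈ L →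
      ((b : ↥(Subgroup.centralizer ({z} : Set G))) : G) ∈ QS → rr (a * b) = addPt (rr a) (rr b) := by
    intro a b ha ha' hb hb'
    simp only [hrr]
    rw [← D.F.co_mul D.setting (hRI a ha ha').1 (hRI b hb hb').1, map_mul]
    congr 1
    group
  have hadd : ∀ v ∈ S, ∀ u ∈ S, addPt v u ∈ S := by
    rintro v ⟨a, ha, ha', hv⟩ u ⟨b, hb, hb', hu⟩
    refine ⟨a * b, L.mul_mem ha hb, QS.mul_mem ha' hb', ?_⟩
    rw [hmul a b ha ha' hb hb']
    rcases hv with rfl | rfl <;> rcases hu with rfl | rfl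
    · exact Or.inl rfl
    · exact Or.inr (by rw [addPt_assoc])
    · exact Or.inr (by rw [addPt_assoc, addPt_comm ePt, ← addPt_assoc])
    · refine Or.inl ?_
      rw [addPt_assoc, addPt_comm (rr b) ePt, ← addPt_assoc ePt, addPt_self, zero_addPt]
  have heven : ∀ v ∈ S, Even (wt v) := fun v hv => by
    obtain ⟨i, hi, rfl⟩ := hin v hv
    exact (D.F.sq_one_iff D.setting hi.1).1 (D.sq_I hi)
  have hone : rr 1 = zeroPt := by
    simp only [hrr, map_one, mul_one, inv_mul_cancel]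
    exact D.F.co_one D.setting
  have h1 : ePt ∈ S := ⟨1, L.one_mem, QS.one_mem, Or.inr (by rw [hone, zero_addPt])⟩
  have hperm : ∀ σ ∈ alternatingGroup (Fin 6), ∃ f : Pt → Pt, (∀ v ∈ S, f v ∈ S) ∧
      f ePt = ePt ∧ ∃ a : Fin 6 → ZMod 3, ∀ (v : Pt) (i : Fin 6),
        f v (σ i) = (v i).map (· + a i) := by
    intro σ hσ
    obtain ⟨k, hkM, a, ha⟩ := hgood hσ
    refine ⟨D.F.act (QuotientGroup.mk (φ k)), ?_, hfix k, a, ha⟩
    obtain ⟨d, q, hd, hq, rfl⟩ := hdecomp k hkM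
    have hlin : (QuotientGroup.mk (φ d) : ↥(Subgroup.centralizer ({z} : Set G)) ⧸ Q) * QuotientGroup.mk D.F.x =
        QuotientGroup.mk D.F.x * QuotientGroup.mk (φ d) := by
      rcases D.F.act_semilinear (QuotientGroup.mk (φ d)) with h | h
      · exact (D.F.comm_x_iff _).2 h
      exfalso
      have e1 := hdw d hd
      rw [hcow] at e1
      have hj' : j = 1 ∨ j = 2 := (by decide : ∀ t : ZMod 3, t ≠ 0 → t = 1 ∨ t = 2) j hj
      have e2 : (fun k => some (D.e k + 1)) = shift (fun _ => (1 : ZMod 3)) ePt := rfl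
      rcases hj' with rfl | rfl
      · rw [e2, h, hfix] at e1
        have := congrFun e1 0
        simp [shift, hePt] at this
        exact absurd this (by decide)
      · rw [show (fun k => some (D.e k + 2)) = shift (fun _ => (2 : ZMod 3)) ePt from rfl,
          Coords.shift_one_two, h, h, hfix] at e1
        have := congrFun e1 0
        simp [shift, hePt, add_assoc] at this
        exact absurd this (by decide)
    rintro v ⟨r, hrL, hrS, hv⟩
    rw [map_mul, QuotientGroup.mk_mul, map_mul, Equiv.Perm.mul_apply]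
    have hrd : rr (d * r * d⁻¹) = D.F.act (QuotientGroup.mk (φ d)) (rr r) := by
      simp only [hrr]
      rw [htco _ (hφQ r hrS), map_mul, map_mul, map_inv,
        htco _ (Subgroup.Normal.conj_mem inferInstance _ (hφQ r hrS) _),
        D.F.co_conj D.setting (φ d) (hφQ r hrS), D.F.act_shift hlin]
    have hmemS : ∀ u, u = rr r ∨ u = addPt (rr r) ePt →
        D.F.act (QuotientGroup.mk (φ d)) u ∈ S := by
      intro u hu
      refine ⟨d * r * d⁻¹, L.mul_mem (L.mul_mem hd hrL) (L.inv_mem hd), ?_, ?_⟩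
      · exact D.good_S.norm _ (congrArg Subtype.val (D.mem_stabS.1 d.2)) _ hrS
      · rw [hrd]
        rcases hu with rfl | rfl
        · exact Or.inl rfl
        · exact Or.inr (by rw [D.F.act_addPt D.setting, hfix])
    have hv' : v = D.F.co (t⁻¹ * φ r * t) ∨ v = D.F.co (t⁻¹ * φ r * t * D.sH) := by
      rcases hv with rfl | rfl
      · exact Or.inl rfl
      · exact Or.inr (by rw [D.F.co_mul D.setting (hRI r hrL hrS).1 D.sH_mem, D.co_s])
    rcases hv' with rfl | rfl
    · rcases hsmall q hq _ (hRI r hrL hrS) with e | e <;> rw [e]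
      · exact hmemS _ (Or.inl rfl)
      · exact hmemS _ (Or.inr rfl)
    · rcases hsmall q hq _ (D.I.mul_mem (hRI r hrL hrS) D.sH_mem_I) with e | e <;> rw [e]
      all_goals rw [D.F.co_mul D.setting (hRI r hrL hrS).1 D.sH_mem, D.co_s]
      · exact hmemS _ (Or.inr rfl)
      · exact hmemS _ (Or.inl (by rw [addPt_assoc, addPt_self, addPt_zero]))
  -- a non-trivial element
  have hbad : ∀ r : D.stabS, (r : ↥(Subgroup.centralizer ({z} : Set G))) ∈ L → ((r : ↥(Subgroup.centralizer ({z} : Set G))) : G) ∈ QS →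
      (∃ i ∈ D.I, D.F.co i = rr r) → rr r ≠ zeroPt →
      ¬ ∃ c, rr r = fun k => some (D.e k + c) := by
    rintro r hrL hrS - hne ⟨c, hc⟩
    have hφr : φ r ∈ D.I := by
      obtain ⟨i, hi, hic⟩ := D.const_mem (c + j)
      refine D.mem_I_of_co (hφQ r hrS) hi ?_
      have h := htco _ (hφQ r hrS)
      rw [show D.F.co (t⁻¹ * φ r * t) = rr r from rfl, hc] at h
      have h' := congrArg (shift fun _ => j) h
      rw [shift_shift, show (fun _ : Fin 6 => j) + (fun _ => -j) = 0 from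
        funext fun _ => add_neg_cancel j, shift_zero] at h'
      rw [← h', hic]
      funext k
      simp [shift, add_assoc]
    have hrQ := (hφI' r hφr).1
    rcases D.F.fixed_cases_x D.setting D.hx hrQ (hLx _ hrL).symm with e | e
    · exact hne ((congrArg rr (Subtype.ext e : r = 1)).trans hone)
    · rw [e] at hrL; exact hz hrL
  obtain ⟨y, hyS, hyM, hyQ⟩ := D.exists_mem_M hM hidx
  obtain ⟨d, hd, hdy⟩ := hcover y hyM
  have hdS : (d : G) ∈ QS := D.mem_conjQG_of_comm htri (hLx d hd) hyS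
    (q := y⁻¹ * d) (by have := Q.inv_mem hdy; rwa [mul_inv_rev, inv_inv] at this) (by group)
  let r0 : D.stabS := ⟨d, hQSstab d hdS⟩
  have hr0 : rr r0 ≠ zeroPt := by
    intro h
    have h' := htco _ (hφQ r0 hdS)
    rw [show D.F.co (t⁻¹ * φ r0 * t) = rr r0 from rfl, h] at h'
    have hz0 : D.F.co (φ r0) = zeroPt := by
      funext k
      have := congrFun h' k
      rcases hk : D.F.co (φ r0) k with _ | v
      · rfl
      · simp [shift, hk, zeroPt] at this
    have hI : φ r0 ∈ D.I := D.mem_I_of_co (hφQ r0 hdS) D.I.one_mem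
      (hz0.trans (D.F.co_one D.setting).symm)
    refine hyQ ?_
    have hdQ : d ∈ Q := (hφI' r0 hI).1
    simpa using Q.mul_mem hdQ hdy
  have hne : ∃ v ∈ S, v ≠ zeroPt ∧ ∀ c, v ≠ fun k => some (D.e k + c) :=
    ⟨rr r0, ⟨r0, hd, hdS, Or.inl rfl⟩, hr0, fun c h =>
      hbad r0 hd hdS (hin _ ⟨r0, hd, hdS, Or.inl rfl⟩) hr0 ⟨c, h⟩⟩
  rcases span_cases_shift D.e S hadd heven h1 hperm hne with ⟨v, hv, h2, h4⟩ | h
  · obtain ⟨i, hi, rfl⟩ := hin v hv
    exact D.no_pair hi h2 h4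
  obtain ⟨r, hrL, hrS, h' | h'⟩ := h 1
  · refine hbad r hrL hrS (hin _ ⟨r, hrL, hrS, Or.inl rfl⟩) ?_ ⟨1, h'.symm⟩
    intro e; rw [e] at h'; simpa [zeroPt] using congrFun h' 0
  · have e' := congrArg (addPt · ePt) h'
    simp only [addPt_assoc, addPt_self, addPt_zero] at e'
    have hc : ∀ t : ZMod 3, addCoord (some (t + 1)) (some t) = some (t + 2) := by decide
    have e2 : rr r = fun k => some (D.e k + 2) := e'.symm.trans (funext fun k => hc _)
    refine hbad r hrL hrS (hin _ ⟨r, hrL, hrS, Or.inl rfl⟩) ?_ ⟨2, e2⟩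
    intro e; rw [e] at e2; simpa [zeroPt] using congrFun e2 0

end SplitData

end CfsgLib.LargeFischer
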