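import Cfsg.Agent.Lib.LargeFischer.Rows
import Cfsg.Agent.Lib.LargeFischer.Split
import Mathlib.GroupTheory.IsPerfect

/-!
Large Fischer type: the centraliser in `H` of the subgroup of order three above `N / Q` is
quasisimple with cyclic centre of order six and central quotient `M / N`.
-/

set_option autoImplicit false
set_option linter.unusedSectionVars false
set_option linter.style.haveILetI false

namespace CfsgLib.LargeFischer

open Orbits Cfsg
open scoped commutatorElement

variable {G : Type*} [Group G] [Finite G] {z : G}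
  {Q N M : Subgroup ↥(Subgroup.centralizer ({z} : Set G))} [Q.Normal] (c : Chain z Q N M)

include c

theorem Chain.Q_le_M : Q ≤ M := c.Q_le.trans c.N_le

/-- `M / N` is not abelian. -/
theorem Chain.exists_commutator_not_mem : ∃ a ∈ M, ∃ b ∈ M, a * b * a⁻¹ * b⁻¹ ∉ N := by
  by_contra hc
  push Not at hc
  obtain ⟨hcard, hn, hsim⟩ := c.quotient_facts
  haveI := hn
  haveI := hsim
  letI : CommGroup (M ⧸ N.subgroupOf M) :=
    { (inferInstance : Group (M ⧸ N.subgroupOf M)) with
      mul_comm := fun a b => by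
        obtain ⟨⟨a, ha⟩, rfl⟩ := QuotientGroup.mk_surjective a
        obtain ⟨⟨b, hb⟩, rfl⟩ := QuotientGroup.mk_surjective b
        rw [← QuotientGroup.mk_mul, ← QuotientGroup.mk_mul, QuotientGroup.eq, Subgroup.mem_subgroupOf]
        show (a * b)⁻¹ * (b * a) ∈ N
        have := hc b⁻¹ (inv_mem hb) a⁻¹ (inv_mem ha)
        rwa [show (a * b)⁻¹ * (b * a) = b⁻¹ * a⁻¹ * b⁻¹⁻¹ * a⁻¹⁻¹ by group] }
  have := (inferInstance : IsSimpleGroup (M ⧸ N.subgroupOf M)).prime_card
  rw [hcard] at this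
  norm_num at this

/-- A normal subgroup of `H` inside `M` of index three over `Q` is `N`. -/
theorem Chain.eq_N {K : Subgroup ↥(Subgroup.centralizer ({z} : Set G))} [K.Normal] (hKM : K ≤ M)
    (hK : Nat.card K = 3 * Nat.card Q) : K = N := by
  haveI := c.normalN
  rcases c.le_or_sup hKM with h | h
  · exact Subgroup.eq_of_le_of_card_ge h (by rw [c.cardN, hK])
  · have hd := CfsgLib.Cores.card_sup_dvd K N
    rw [h, c.cardM, hK, c.cardN, c.cardQ] at hd
    norm_num at hd

theorem Chain.sup_eq_N {X : Subgroup ↥(Subgroup.centralizer ({z} : Set G))} (hX : Nat.card X = 3)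
    (hXQ : (X ⊔ Q).Normal) : X ⊔ Q = N := by
  haveI := hXQ
  refine c.eq_N (sup_le (fun x hx => c.mem_M_of_pow_three ?_) c.Q_le_M) (c.card_sup_of_three hX)
  have h : (⟨x, hx⟩ : X) ^ 3 = 1 := hX ▸ pow_card_eq_one'
  exact congrArg Subtype.val h

/-- The scalar element lies in `N`. -/
theorem Chain.x_mem_N (F : Coords z Q) : F.x ∈ N := by
  classical
  set π := QuotientGroup.mk' Q
  have hsh : ∀ (d : ZMod 3) (v : Pt), shift (fun _ => d) (shift (fun _ => (1 : ZMod 3)) v) =
      shift (fun _ => d + 1) v := fun d v => by rw [shift_shift]; rfl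
  have h3 : π F.x * π F.x * π F.x = 1 := by
    refine F.act_injective (Equiv.ext fun v => ?_)
    simp only [π, QuotientGroup.mk'_apply, map_mul, Equiv.Perm.mul_apply, F.act_x, hsh, map_one,
      Equiv.Perm.coe_one, id_eq]
    rw [shift_shift, show (fun _ : Fin 6 => (1 : ZMod 3)) + (fun _ => 1 + 1) = 0 from
      funext fun _ => (by decide : (1 : ZMod 3) + (1 + 1) = 0), shift_zero]
  have h1 : π F.x ≠ 1 := by
    intro e
    have := congrArg (fun γ => F.act γ (fun _ => some 0) 0) e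
    simp [π, F.act_x, shift] at this
  have hord : orderOf (π F.x) = 3 := orderOf_eq_prime (by rw [pow_succ, pow_two, h3]) h1
  set K := (Subgroup.zpowers (π F.x)).comap π
  haveI hKn : K.Normal := by
    have : (Subgroup.zpowers (π F.x)).Normal := by
      refine ⟨fun a ha γ => ?_⟩
      obtain ⟨k, rfl⟩ := Subgroup.mem_zpowers_iff.1 ha
      rw [← conj_zpow]
      refine Subgroup.zpow_mem _ ?_ k
      rcases F.act_semilinear γ with h | h
      · have e : γ * π F.x * γ⁻¹ = π F.x := mul_inv_eq_iff_eq_mul.2 ((F.comm_x_iff γ).2 h)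
        rw [e]; exact Subgroup.mem_zpowers _
      · have e : γ * π F.x * γ⁻¹ = π F.x * π F.x := by
          rw [mul_inv_eq_iff_eq_mul]
          refine F.act_injective (Equiv.ext fun v => ?_)
          simp only [π, QuotientGroup.mk'_apply, map_mul, Equiv.Perm.mul_apply, F.act_x, h, hsh]
          rfl
        rw [e]
        exact Subgroup.mul_mem _ (Subgroup.mem_zpowers _) (Subgroup.mem_zpowers _)
    exact this.comap π
  have hQK : Q ≤ K := fun q hq => Subgroup.mem_comap.2 (by
    rw [show π q = 1 from (QuotientGroup.eq_one_iff q).2 hq]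
    exact one_mem _)
  have hx4 : F.x * F.x * F.x ∈ Q := (QuotientGroup.eq_one_iff _).1 (by
    simpa [π, QuotientGroup.mk_mul] using h3)
  have hxM : F.x ∈ M := by
    have e : F.x = (F.x * F.x) * (F.x * F.x) * (F.x * F.x * F.x)⁻¹ := by group
    rw [e]
    exact M.mul_mem (M.mul_mem (Subgroup.mul_self_mem_of_index_two c.indexM _)
      (Subgroup.mul_self_mem_of_index_two c.indexM _)) (M.inv_mem (c.Q_le_M hx4))
  have hKM : K ≤ M := by
    intro k hk
    obtain ⟨n, hn⟩ := Subgroup.mem_zpowers_iff.1 (show π k ∈ Subgroup.zpowers (π F.x) from hk)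
    have e : π (F.x ^ n) = π k := by rw [map_zpow, hn]
    obtain ⟨q, hq, hkq⟩ := (QuotientGroup.mk'_eq_mk' Q).1 e
    rw [← hkq]
    exact M.mul_mem (M.zpow_mem hxM n) (c.Q_le_M hq)
  have hcard : Nat.card K = 3 * Nat.card Q := by
    rw [Subgroup.card_eq_card_quotient_mul_card_subgroup (Q.subgroupOf K),
      Nat.card_congr (Subgroup.subgroupOfEquivOfLe hQK).toEquiv]
    congr 1
    rw [← hord, ← Nat.card_zpowers]
    have hsurj : (Subgroup.zpowers (π F.x)).comap π = K := rfl
    let f : K →* Subgroup.zpowers (π F.x) := (π.comp K.subtype).codRestrict _ fun k => k.2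
    have hf : Function.Surjective f := by
      rintro ⟨a, ha⟩
      obtain ⟨b, rfl⟩ := QuotientGroup.mk'_surjective Q a
      exact ⟨⟨b, ha⟩, rfl⟩
    have hk : f.ker = Q.subgroupOf K := by
      ext k
      rw [MonoidHom.mem_ker, Subgroup.mem_subgroupOf]
      exact ⟨fun h => (QuotientGroup.eq_one_iff _).1 (congrArg Subtype.val h),
        fun h => Subtype.ext ((QuotientGroup.eq_one_iff _).2 h)⟩
    exact Nat.card_congr (((QuotientGroup.quotientMulEquivOfEq hk).symm.trans
      (QuotientGroup.quotientKerEquivOfSurjective f hf)).toEquiv)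
  rw [← c.eq_N hKM hcard]
  exact Subgroup.mem_zpowers (π F.x)

/-- The centraliser of `X`. -/
theorem Chain.centralizer_quasisimple (F : Coords z Q)
    {X : Subgroup ↥(Subgroup.centralizer ({z} : Set G))} (hX : Nat.card X = 3) (hXQ : (X ⊔ Q).Normal) :
    Cfsg.IsQuasisimple ↥(Subgroup.centralizer (X : Set ↥(Subgroup.centralizer ({z} : Set G)))) ∧
    IsCyclic ↥(Subgroup.center ↥(Subgroup.centralizer (X : Set ↥(Subgroup.centralizer ({z} : Set G))))) ∧
    Nat.card ↥(Subgroup.center ↥(Subgroup.centralizer (X : Set ↥(Subgroup.centralizer ({z} : Set G))))) = 6 ∧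
    ∃ (K : Type) (_ : Field K) (_ : Fintype K), Fintype.card K = 9 ∧
      Nonempty (↥(Subgroup.centralizer (X : Set ↥(Subgroup.centralizer ({z} : Set G)))) ⧸
        Subgroup.center ↥(Subgroup.centralizer (X : Set ↥(Subgroup.centralizer ({z} : Set G)))) ≃*
          Cfsg.PSU 4 K 3) := by
  classical
  set π := QuotientGroup.mk' Q with hπ
  haveI := c.normalN
  haveI := c.normalM
  have hs := c.setting
  have hXN := c.sup_eq_N hX hXQ
  set C := Subgroup.centralizer (X : Set ↥(Subgroup.centralizer ({z} : Set G))) with hC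
  -- a generator inducing the scalar
  obtain ⟨x₀, hx₀X, q₀, hq₀, hx₀q⟩ := Subgroup.mem_sup_of_normal_right.1 (hXN.ge (c.x_mem_N F))
  have hmk : (QuotientGroup.mk x₀ : ↥(Subgroup.centralizer ({z} : Set G)) ⧸ Q) = QuotientGroup.mk F.x := by
    rw [← hx₀q, QuotientGroup.mk_mul, (QuotientGroup.eq_one_iff q₀).2 hq₀, mul_one]
  have hx₀1 : x₀ ≠ 1 := by
    rintro rfl
    have := congrArg (fun γ => F.act γ (fun _ => some 0) 0) hmk
    simp [F.act_x, shift] at this
  have hXgen : Subgroup.zpowers x₀ = X := by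
    refine Subgroup.eq_of_le_of_card_ge (Subgroup.zpowers_le.2 hx₀X) ?_
    rw [hX, Nat.card_zpowers]
    have h : orderOf x₀ ∣ 3 := by
      rw [← hX, ← Nat.card_zpowers]; exact Subgroup.card_dvd_of_le (Subgroup.zpowers_le.2 hx₀X)
    rcases (Nat.dvd_prime Nat.prime_three).1 h with e | e
    · exact absurd (orderOf_eq_one_iff.1 e) hx₀1
    · omega
  have hCx : ∀ d, d ∈ C ↔ d * x₀ = x₀ * d := by
    intro d
    rw [hC, ← hXgen]
    constructor
    · exact fun h => (Subgroup.mem_centralizer_iff.1 h x₀ (Subgroup.mem_zpowers x₀)).symm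
    · intro h
      refine Subgroup.mem_centralizer_iff.2 fun y hy => ?_
      obtain ⟨k, rfl⟩ := Subgroup.mem_zpowers_iff.1 hy
      exact (Commute.zpow_left (show Commute x₀ d from h.symm) k).eq
  -- the classes
  obtain ⟨cl, hcl⟩ := F.exists_classData hs
  have hrep : ∀ q ∈ Q, F.Rep (F.co q) q := fun q hq => F.co_spec hs hq
  have htwo : ∀ q ∈ Q, wt (F.co q) = 2 → ¬ IsConj z (q : G) := by
    intro q hq h2 hcon
    obtain ⟨g, hg⟩ := isConj_iff.1 hcon
    have hne : q ≠ zH z := fun e => by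
      rw [e, show zH z = zH z from rfl, F.co_zC hs] at h2
      simp [wt_zeroPt] at h2
    obtain ⟨v, hv⟩ := exists_meetData hs F hcl g q hq hg hne
    exact not_two_four (Or.inl ((hrep q hq).unique hs hv.rep ▸ h2)) hv.inFour
  have hfour : ∀ q ∈ Q, wt (F.co q) = 4 → IsConj z (q : G) := fun q hq h =>
    isConj_of_inFour hs F hcl (hrep q hq) (Or.inl h)
  -- a conjugate of weight six, canonical
  obtain ⟨sH, hsQ, hsco, hstri⟩ : ∃ sH ∈ Q, F.co sH = vSix (cl + 1) ∧ tri x₀ sH = 1 := by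
    rcases F.tri_cases hs hmk (F.lift_mem (vSix (cl + 1))) with h | h
    · exact ⟨_, F.lift_mem _, F.co_lift hs _, h⟩
    · refine ⟨F.lift (vSix (cl + 1)) * zH z, Q.mul_mem (F.lift_mem _) (zH_mem hs), F.co_lift_mul hs _, ?_⟩
      rw [F.tri_mul_zC hs hmk, h]
      exact zH_sq hs
  have hsin : InFour cl (F.co sH) := by
    rw [hsco]
    exact Or.inr ⟨wt_vSix _, by rw [total_vSix]; intro e; exact absurd (left_eq_add.1 e.symm) (by decide)⟩
  obtain ⟨g, hg⟩ := isConj_iff.1 (isConj_of_inFour hs F hcl (hrep sH hsQ) hsin)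
  have hsne : sH ≠ zH z := fun e => by
    rw [e] at hsco
    have := congrFun ((F.co_zC hs).symm.trans hsco) 1
    simp [zeroPt, vSix] at this
  obtain ⟨v, hv⟩ := exists_meetData hs F hcl g sH hsQ hg hsne
  obtain ⟨e, he⟩ : ∃ e : Fin 6 → ZMod 3, F.co sH = fun i => some (e i) :=
    ⟨fun i => if i.val = 0 then cl + 1 else 0, by
      rw [hsco]; funext i; unfold vSix; split <;> simp_all⟩
  let D : SplitData z Q := ⟨F, hs, x₀, hmk, htwo, hfour, g, sH, hsQ, hg, e, he, hv.card_inf⟩
  -- linear means inside `M`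
  have hlinM : ∀ h ∈ M, (π h) * π F.x = π F.x * π h := by
    intro h hh
    have := (QuotientGroup.eq_one_iff _).2 (c.commutator_mem hh (c.x_mem_N F))
    simp only [QuotientGroup.mk_mul, QuotientGroup.mk_inv] at this
    rw [mul_inv_eq_one, mul_inv_eq_iff_eq_mul] at this
    exact this
  obtain ⟨y, -, -, hy⟩ := D.exists_inverter
  have hM : ∀ h : ↥(Subgroup.centralizer ({z} : Set G)), h ∈ M ↔
      π h * π F.x = π F.x * π h := by
    refine fun h => ⟨hlinM h, fun hc => ?_⟩
    by_contra hh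
    have hyM : y ∉ M := fun hy' => hy (hlinM y hy')
    have hm : h * y ∈ M := by
      rw [Subgroup.mul_mem_iff_of_index_two c.indexM]; exact iff_of_false hh hyM
    refine hy ?_
    have h1 := hlinM _ hm
    rw [map_mul, mul_assoc, ← mul_assoc (π F.x), ← hc, mul_assoc] at h1
    exact mul_left_cancel h1
  have hCM : C ≤ M := by
    intro d hd
    rw [hM, hπ, QuotientGroup.mk'_apply, QuotientGroup.mk'_apply, ← hmk, ← QuotientGroup.mk_mul,
      ← QuotientGroup.mk_mul, (hCx d).1 hd]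
  have hcov : ∀ m ∈ M, ∃ d ∈ C, π d = π m := fun m hm => by
    obtain ⟨q, hq, hqm⟩ := c.exists_mul_mem_centralizer hX hXN hm
    refine ⟨q * m, hqm, ?_⟩
    rw [map_mul, show π q = 1 from (QuotientGroup.eq_one_iff q).2 hq, one_mul]
  have hCQ : ∀ d ∈ C, d ∈ Q → d = 1 ∨ d = zH z := fun d hd hdQ =>
    F.fixed_cases_x hs hmk hdQ ((hCx d).1 hd).symm
  -- the derived subgroup
  set L := ⁅C, C⁆ with hL
  have hLC : L ≤ C := Subgroup.commutator_le.2 fun a ha b hb =>
    C.mul_mem (C.mul_mem (C.mul_mem ha hb) (C.inv_mem ha)) (C.inv_mem hb)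
  have himg : C.map π = M.map π := by
    refine le_antisymm (Subgroup.map_mono hCM) ?_
    rintro _ ⟨m, hm, rfl⟩
    obtain ⟨d, hd, hdm⟩ := hcov m hm
    exact ⟨d, hd, hdm⟩
  set K := (⁅M.map π, M.map π⁆).comap π with hK
  haveI : (M.map π).Normal := c.normalM.map π (QuotientGroup.mk'_surjective Q)
  haveI hKn : K.Normal := Subgroup.Normal.comap inferInstance π
  have hKM : K ≤ M := by
    intro k hk
    have h' : π k ∈ M.map π := Subgroup.commutator_le_left (M.map π) (M.map π) (Subgroup.mem_comap.1 hk)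
    obtain ⟨m, hm, e⟩ := h'
    obtain ⟨q, hq, hkq⟩ := (QuotientGroup.mk'_eq_mk' Q).1 e
    rw [← hkq]
    exact M.mul_mem hm (c.Q_le_M hq)
  have hQK : Q ≤ K := fun q hq => Subgroup.mem_comap.2 (by
    rw [show π q = 1 from (QuotientGroup.eq_one_iff q).2 hq]
    exact one_mem _)
  have hNK : N ≤ K := by
    rw [← hXN, ← hXgen]
    refine sup_le (Subgroup.zpowers_le.2 ?_) hQK
    rw [hK, Subgroup.mem_comap]
    rw [hπ, QuotientGroup.mk'_apply, hmk]
    have hP : F.P ≤ M.map π := fun γ hγ => by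
      obtain ⟨h, rfl⟩ := QuotientGroup.mk_surjective γ
      exact ⟨h, (hM h).2 (F.P_comm_x hγ), rfl⟩
    exact Subgroup.commutator_mono hP hP F.mk_x_mem
  have hKeq : K = M := by
    rcases c.le_or_sup hKM with h | h
    · obtain ⟨a, ha, b, hb, hab⟩ := c.exists_commutator_not_mem
      refine absurd (h ?_) hab
      rw [hK, Subgroup.mem_comap]
      simp only [map_mul, map_inv]
      exact Subgroup.commutator_mem_commutator (Subgroup.mem_map_of_mem π ha) (Subgroup.mem_map_of_mem π hb)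
    · exact le_antisymm hKM (h ▸ sup_le le_rfl hNK)
  have hLimg : ∀ m ∈ M, ∃ d ∈ L, d⁻¹ * m ∈ Q := by
    intro m hm
    have h' : π m ∈ L.map π := by
      rw [hL, Subgroup.map_commutator, himg]
      exact hKeq.ge hm
    obtain ⟨d, hd, e⟩ := h'
    exact ⟨d, hd, QuotientGroup.eq.1 e⟩
  have hzL : zH z ∈ L := by
    by_contra hz
    refine D.split_false hM c.indexM (hLC.trans hCM) (fun d hd => (hCx d).1 (hLC hd)) hLimg hz hstri ?_
    rintro a b ⟨a', ha', rfl⟩ ⟨b', hb', rfl⟩ ha hb haz hbz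
    exact one_class hs F _ _ ⟨a'.2, ha'⟩ ⟨b'.2, hb'⟩ ha hb haz hbz
  have hperf : ∀ d ∈ C, d ∈ L := by
    intro d hd
    obtain ⟨l, hl, hlq⟩ := hLimg d (hCM hd)
    rcases hCQ _ (C.mul_mem (C.inv_mem (hLC hl)) hd) hlq with e | e
    · rw [inv_mul_eq_one] at e; exact e ▸ hl
    · rw [inv_mul_eq_iff_eq_mul] at e
      exact e ▸ L.mul_mem hl hzL
  have hperfect : Group.IsPerfect ↥C :=
    Subgroup.isPerfect_iff.2 (le_antisymm hLC hperf)
  -- the centre
  haveI hNM : (N.subgroupOf M).Normal := c.normalN.subgroupOf M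
  let ψ : ↥C →* ↥M ⧸ N.subgroupOf M :=
    (QuotientGroup.mk' (N.subgroupOf M)).comp (Subgroup.inclusion hCM)
  have hψs : Function.Surjective ψ := by
    intro a
    obtain ⟨⟨m, hm⟩, rfl⟩ := QuotientGroup.mk_surjective a
    obtain ⟨d, hd, hdm⟩ := hcov m hm
    refine ⟨⟨d, hd⟩, QuotientGroup.eq.2 ?_⟩
    rw [Subgroup.mem_subgroupOf]
    exact c.Q_le (QuotientGroup.eq.1 hdm)
  have hzC : zH z ∈ C := hLC hzL
  have hx₀C : x₀ ∈ C := (hCx x₀).2 rfl
  set u : ↥C := ⟨x₀ * zH z, C.mul_mem hx₀C hzC⟩ with hu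
  have hker_mem : ∀ d : ↥C, ψ d = 1 ↔ (d : ↥(Subgroup.centralizer ({z} : Set G))) ∈ N := fun d => by
    simp [ψ, QuotientGroup.eq_one_iff, Subgroup.mem_subgroupOf]
  have hx₀3 : x₀ ^ 3 = 1 := c.pow_three hX hx₀X
  have hu4 : u ^ 4 = ⟨x₀, hx₀C⟩ := Subtype.ext (by
    show (x₀ * zH z) ^ 4 = x₀
    rw [(show Commute x₀ (zH z) from zH_comm x₀).mul_pow, pow_succ x₀ 3, hx₀3, one_mul,
      show zH z ^ 4 = (zH z * zH z) * (zH z * zH z) by simp only [pow_succ, pow_zero, one_mul]; group, zH_sq hs, one_mul, mul_one])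
  have hu3 : u ^ 3 = ⟨zH z, hzC⟩ := Subtype.ext (by
    show (x₀ * zH z) ^ 3 = zH z
    rw [(show Commute x₀ (zH z) from zH_comm x₀).mul_pow, hx₀3, one_mul,
      show zH z ^ 3 = (zH z * zH z) * zH z by simp only [pow_succ, pow_zero, one_mul], zH_sq hs, one_mul])
  have hker : ψ.ker = Subgroup.zpowers u := by
    refine le_antisymm (fun d hd => ?_) (Subgroup.zpowers_le.2 ?_)
    · have hdN := (hker_mem d).1 hd
      rw [← hXN, Subgroup.mem_sup_of_normal_right] at hdN
      obtain ⟨a, ha, q, hq, haq⟩ := hdN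
      have haC : a ∈ C := by
        rw [← hXgen] at ha
        obtain ⟨k, rfl⟩ := Subgroup.mem_zpowers_iff.1 ha
        exact C.zpow_mem hx₀C k
      have hqC : q ∈ C := by
        have e : q = a⁻¹ * (d : ↥(Subgroup.centralizer ({z} : Set G))) := by rw [← haq]; group
        rw [e]; exact C.mul_mem (C.inv_mem haC) d.2
      have hd' : d = ⟨a, haC⟩ * ⟨q, hqC⟩ := Subtype.ext haq.symm
      rw [hd']
      refine Subgroup.mul_mem _ ?_ ?_
      · rw [← hXgen] at ha
        obtain ⟨k, hk⟩ := Subgroup.mem_zpowers_iff.1 ha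
        refine Subgroup.mem_zpowers_iff.2 ⟨4 * k, Subtype.ext ?_⟩
        rw [zpow_mul, show u ^ (4 : ℤ) = u ^ 4 from zpow_natCast u 4, hu4]
        exact hk
      · rcases hCQ q hqC hq with rfl | rfl
        · exact (Subgroup.zpowers u).one_mem
        · exact Subgroup.mem_zpowers_iff.2 ⟨3, by
            rw [show u ^ (3 : ℤ) = u ^ 3 from zpow_natCast u 3, hu3]⟩
    · rw [MonoidHom.mem_ker, hker_mem, ← hXN]
      exact Subgroup.mul_mem _ (Subgroup.mem_sup_left hx₀X) (Subgroup.mem_sup_right (zH_mem hs))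
  have hucomm : ∀ d : ↥C, d * u = u * d := fun d => Subtype.ext (by
    show (d : ↥(Subgroup.centralizer ({z} : Set G))) * (x₀ * zH z) = x₀ * zH z * d
    rw [← mul_assoc, (hCx _).1 d.2, mul_assoc, zH_comm, ← mul_assoc])
  obtain ⟨-, _, hsim⟩ := c.quotient_facts
  have hcenter : Subgroup.center ↥C = ψ.ker := by
    refine le_antisymm ?_ ?_
    · intro d hd
      rw [MonoidHom.mem_ker]
      have hc' : ψ d ∈ Subgroup.center (↥M ⧸ N.subgroupOf M) :=
        Subgroup.mem_center_iff.2 fun a => by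
          obtain ⟨b, rfl⟩ := hψs a
          rw [← map_mul, ← map_mul, Subgroup.mem_center_iff.1 hd b]
      haveI := hsim
      rcases (inferInstance : (Subgroup.center (↥M ⧸ N.subgroupOf M)).Normal).eq_bot_or_eq_top with h | h
      · rw [h] at hc'; exact hc'
      · exfalso
        obtain ⟨a, ha, b, hb, hab⟩ := c.exists_commutator_not_mem
        have e := Subgroup.mem_center_iff.1 (h ▸ Subgroup.mem_top
          (QuotientGroup.mk' (N.subgroupOf M) ⟨a, ha⟩)) (QuotientGroup.mk' (N.subgroupOf M) ⟨b, hb⟩)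
        apply hab
        have e' : QuotientGroup.mk' (N.subgroupOf M) (⟨a, ha⟩ * ⟨b, hb⟩ * ⟨a, ha⟩⁻¹ * ⟨b, hb⟩⁻¹) = 1 := by
          simp only [map_mul, map_inv, ← e]; group
        exact Subgroup.mem_subgroupOf.1 ((QuotientGroup.eq_one_iff _).1 e')
    · rw [hker]
      exact Subgroup.zpowers_le.2 (Subgroup.mem_center_iff.2 hucomm)
  have hord : orderOf u = 6 := by
    have h6 : u ^ 6 = 1 := by
      rw [show u ^ 6 = u ^ 3 * u ^ 3 from by rw [← pow_add], hu3]
      exact Subtype.ext (zH_sq hs)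
    refine (orderOf_eq_iff (by norm_num)).2 ⟨h6, fun m hm hm0 hm1 => ?_⟩
    have hd := orderOf_dvd_of_pow_eq_one hm1
    have h6' := orderOf_dvd_of_pow_eq_one h6
    have hle := Nat.le_of_dvd hm0 hd
    have hcase : orderOf u ∣ 3 ∨ orderOf u ∣ 4 := by
      have : orderOf u < 6 := lt_of_le_of_lt hle hm
      interval_cases h : orderOf u <;> omega
    rcases hcase with h | h
    · have := orderOf_dvd_iff_pow_eq_one.1 h
      rw [hu3] at this
      exact zH_ne_one hs (congrArg Subtype.val this)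
    · have := orderOf_dvd_iff_pow_eq_one.1 h
      rw [hu4] at this
      exact hx₀1 (congrArg Subtype.val this)
  have e1 : ↥C ⧸ Subgroup.center ↥C ≃* ↥M ⧸ N.subgroupOf M :=
    (QuotientGroup.quotientMulEquivOfEq hcenter).trans (QuotientGroup.quotientKerEquivOfSurjective ψ hψs)
  obtain ⟨K', iK, iF, hK', ⟨eK⟩⟩ := c.psu
  refine ⟨⟨hperfect, ?_⟩, ?_, ?_, K', iK, iF, hK', ⟨e1.trans eK⟩⟩
  · haveI := hsim
    exact e1.isSimpleGroup
  · rw [hcenter, hker]; infer_instance
  · rw [hcenter, hker, Nat.card_zpowers, hord]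

end CfsgLib.LargeFischer
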