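import Cfsg.Agent.Lib.LargeFischer.Coords

/-!
Large Fischer type: the two classes of singular vectors, and in the stabiliser of a vector of
each class a subgroup of the monomial group meeting every normal 2-subgroup trivially.
-/

set_option autoImplicit false
set_option linter.unusedSectionVars false
set_option linter.style.haveILetI false

namespace CfsgLib.LargeFischer

open Orbits

/-- The shorter class. -/
def InTwo (c : ZMod 3) (v : Pt) : Prop := wt v = 2 ∨ (wt v = 6 ∧ total v = c)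

/-- The longer class. -/
def InFour (c : ZMod 3) (v : Pt) : Prop := wt v = 4 ∨ (wt v = 6 ∧ total v ≠ c)

theorem singular_cases {c : ZMod 3} {v : Pt} (h : Singular v) : InTwo c v ∨ InFour c v := by
  rcases singular_iff.1 h with e | e | e
  · exact Or.inl (Or.inl e)
  · exact Or.inr (Or.inl e)
  · by_cases ht : total v = c
    · exact Or.inl (Or.inr ⟨e, ht⟩)
    · exact Or.inr (Or.inr ⟨e, ht⟩)

theorem not_two_four {c : ZMod 3} {v : Pt} (h : InTwo c v) : ¬ InFour c v := by
  rintro (e | ⟨e, ht⟩) <;> rcases h with e' | ⟨e', ht'⟩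
  · omega
  · omega
  · omega
  · exact ht ht'

theorem InTwo.singular {c : ZMod 3} {v : Pt} (h : InTwo c v) : Singular v :=
  singular_iff.2 (by rcases h with e | ⟨e, -⟩ <;> omega)

theorem InFour.singular {c : ZMod 3} {v : Pt} (h : InFour c v) : Singular v :=
  singular_iff.2 (by rcases h with e | ⟨e, -⟩ <;> omega)

theorem Singular.ne_zeroPt {v : Pt} (h : Singular v) : v ≠ zeroPt := h.1

theorem shift_zero (v : Pt) : shift 0 v = v := by
  funext i
  rcases hv : v i with _ | e <;> simp [shift, hv]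

theorem card_mul_dvd {A : Type*} [Group A] (S E K : Subgroup A) (hE : E ≤ S)
    (hK : K ≤ S) (hn : ∀ s ∈ S, ∀ e ∈ E, s * e * s⁻¹ ∈ E) (hd : E ⊓ K = ⊥) :
    Nat.card E * Nat.card K ∣ Nat.card S := by
  haveI : (E.subgroupOf S).Normal := ⟨fun e he g => hn g g.2 _ he⟩
  have hinj : Function.Injective
      ((QuotientGroup.mk' (E.subgroupOf S)).comp (Subgroup.inclusion hK)) := by
    refine (injective_iff_map_eq_one _).2 fun k hk => ?_
    have h1 : (k : A) ∈ E := (QuotientGroup.eq_one_iff (Subgroup.inclusion hK k)).1 hk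
    have h2 : (k : A) ∈ (E ⊓ K : Subgroup A) := ⟨h1, k.2⟩
    rw [hd, Subgroup.mem_bot] at h2
    exact Subtype.ext h2
  rw [Subgroup.card_eq_card_quotient_mul_card_subgroup (E.subgroupOf S),
    Nat.card_congr (Subgroup.subgroupOfEquivOfLe hE).toEquiv, mul_comm]
  exact mul_dvd_mul_right (Subgroup.card_dvd_of_injective _ hinj) _

/-- No normal 2-subgroup. -/
def NoTwoCore (A : Type*) [Group A] : Prop :=
  ∀ R : Subgroup A, R.Normal → IsPGroup 2 R → R = ⊥

theorem NoTwoCore.congr {A B : Type*} [Group A] [Group B] (e : A ≃* B) (h : NoTwoCore A) :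
    NoTwoCore B := by
  intro R hR hp
  have h1 := h (R.comap e.toMonoidHom) (hR.comap _) (hp.comap_of_injective _ e.injective)
  rw [eq_bot_iff]
  intro r hr
  have : e.symm r ∈ R.comap e.toMonoidHom := by simpa using hr
  rw [h1, Subgroup.mem_bot] at this
  simpa using this

theorem NoTwoCore.inf_eq_bot {A : Type*} [Group A] {S E K : Subgroup A} (hK : K ≤ S)
    (hn : ∀ s ∈ S, ∀ e ∈ E, s * e * s⁻¹ ∈ E) (hp : IsPGroup 2 E) (h : NoTwoCore K) :
    E ⊓ K = ⊥ := by
  haveI : (E.subgroupOf K).Normal := ⟨fun e he g => hn g (hK g.2) _ he⟩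
  have h1 : E.subgroupOf K = ⊥ :=
    h _ inferInstance (hp.comap_of_injective K.subtype K.subtype_injective)
  rw [eq_bot_iff]
  rintro k ⟨hkE, hkK⟩
  have h2 : (⟨k, hkK⟩ : K) ∈ E.subgroupOf K := hkE
  rw [h1, Subgroup.mem_bot] at h2
  exact Subgroup.mem_bot.2 (congrArg Subtype.val h2)

namespace Coords

variable {G : Type*} [Group G] [Finite G] {z : G}
  {Q : Subgroup ↥(Subgroup.centralizer ({z} : Set G))} [Q.Normal] (C : Coords z Q)

/-- The stabiliser of a vector in `H/Q`. -/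
def stab (v : Pt) : Subgroup (↥(Subgroup.centralizer ({z} : Set G)) ⧸ Q) :=
  (MulAction.stabilizer (Equiv.Perm Pt) v).comap C.act

theorem mem_stab {v : Pt} {γ : ↥(Subgroup.centralizer ({z} : Set G)) ⧸ Q} :
    γ ∈ C.stab v ↔ C.act γ v = v := Iff.rfl

theorem mem_orbit {v w : Pt} :
    w ∈ MulAction.orbit C.act.range v ↔ ∃ γ, C.act γ v = w := by
  constructor
  · rintro ⟨⟨_, γ, rfl⟩, h⟩
    exact ⟨γ, h⟩
  · rintro ⟨γ, h⟩
    exact ⟨⟨C.act γ, γ, rfl⟩, h⟩

theorem act_mul_apply (γ δ : ↥(Subgroup.centralizer ({z} : Set G)) ⧸ Q) (v : Pt) :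
    C.act (γ * δ) v = C.act γ (C.act δ v) := by rw [map_mul, Equiv.Perm.mul_apply]

theorem act_inv_apply {γ : ↥(Subgroup.centralizer ({z} : Set G)) ⧸ Q} {v w : Pt}
    (h : C.act γ v = w) : C.act γ⁻¹ w = v := by
  rw [map_inv, Equiv.Perm.inv_eq_iff_eq, h]

theorem card_orbit_mul (v : Pt) :
    Nat.card (MulAction.orbit C.act.range v) * Nat.card (C.stab v) = 19595520 := by
  letI := MulAction.compHom Pt C.act
  have h1 : Nat.card (MulAction.orbit C.act.range v) =
      Nat.card (MulAction.orbit (↥(Subgroup.centralizer ({z} : Set G)) ⧸ Q) v) := by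
    refine Nat.card_congr (Equiv.setCongr (Set.ext fun w => ?_))
    rw [C.mem_orbit]
    exact Iff.rfl
  have h2 : C.stab v = MulAction.stabilizer (↥(Subgroup.centralizer ({z} : Set G)) ⧸ Q) v := rfl
  rw [h1, h2, ← Nat.card_prod, ← C.card_quot]
  exact Nat.card_congr (MulAction.orbitProdStabilizerEquivGroup _ v)

theorem card_stab_inf_P (v : Pt) (n : ℕ) (S : Finset Pt) (hS : S.card = n)
    (hiff : ∀ w, (∃ γ ∈ C.P, C.act γ v = w) ↔ w ∈ S) :
    n * Nat.card ↥(C.stab v ⊓ C.P) = 87480 := by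
  letI := MulAction.compHom Pt (C.act.comp C.P.subtype)
  have h1 : Nat.card (MulAction.orbit C.P v) = n := by
    rw [← hS, ← Nat.card_eq_finsetCard]
    refine Nat.card_congr (Equiv.subtypeEquivRight fun w => ?_)
    rw [← hiff w]
    constructor
    · rintro ⟨γ, h⟩
      exact ⟨γ, γ.2, h⟩
    · rintro ⟨γ, hγ, h⟩
      exact ⟨⟨γ, hγ⟩, h⟩
  have h2 : MulAction.stabilizer C.P v = (C.stab v ⊓ C.P).subgroupOf C.P := by
    rw [Subgroup.inf_subgroupOf_right]; rfl
  have h3 := Nat.card_congr (MulAction.orbitProdStabilizerEquivGroup C.P v)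
  rw [Nat.card_prod, h1, h2,
    Nat.card_congr (Subgroup.subgroupOfEquivOfLe (inf_le_right : C.stab v ⊓ C.P ≤ C.P)).toEquiv,
    C.card_P] at h3
  exact h3

/-! ### Representatives in `Q` -/

/-- `q` lies over the vector `v`. -/
def Rep (v : Pt) (q : ↥(Subgroup.centralizer ({z} : Set G))) : Prop :=
  q = C.lift v ∨ q = C.lift v * zH z

variable {C}

theorem Rep.mem (hs : Cfsg.IsExtraspecialCentralizerSetting z Q 6) {v : Pt}
    {q : ↥(Subgroup.centralizer ({z} : Set G))} (h : C.Rep v q) : q ∈ Q := by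
  rcases h with rfl | rfl
  · exact C.lift_mem v
  · exact Q.mul_mem (C.lift_mem v) (zH_mem hs)

theorem exists_rep {q : ↥(Subgroup.centralizer ({z} : Set G))} (hq : q ∈ Q) : ∃ v, C.Rep v q :=
  C.lift_surj q hq

theorem Rep.mul_z (hs : Cfsg.IsExtraspecialCentralizerSetting z Q 6) {v : Pt}
    {q : ↥(Subgroup.centralizer ({z} : Set G))} (h : C.Rep v q) : C.Rep v (q * zH z) := by
  rcases h with rfl | rfl
  · exact Or.inr rfl
  · exact Or.inl (by rw [mul_assoc, zH_sq hs, mul_one])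

theorem Rep.pair {v : Pt} {q r : ↥(Subgroup.centralizer ({z} : Set G))}
    (hs : Cfsg.IsExtraspecialCentralizerSetting z Q 6)
    (h : C.Rep v q) (h' : C.Rep v r) : r = q ∨ r = q * zH z := by
  rcases h with rfl | rfl <;> rcases h' with rfl | rfl
  · exact Or.inl rfl
  · exact Or.inr rfl
  · exact Or.inr (by rw [mul_assoc, zH_sq hs, mul_one])
  · exact Or.inl rfl

theorem Rep.unique (hs : Cfsg.IsExtraspecialCentralizerSetting z Q 6) {v w : Pt}
    {q : ↥(Subgroup.centralizer ({z} : Set G))} (h : C.Rep v q) (h' : C.Rep w q) : v = w := by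
  refine C.lift_inj v w ?_
  rcases h with rfl | rfl <;> rcases h' with e | e
  · exact Or.inl e
  · exact Or.inr e
  · exact Or.inr (by rw [← e, mul_assoc, zH_sq hs, mul_one])
  · exact Or.inl (mul_right_cancel e)

theorem Rep.conj {v : Pt} {q : ↥(Subgroup.centralizer ({z} : Set G))} (h : C.Rep v q)
    (hs : Cfsg.IsExtraspecialCentralizerSetting z Q 6)
    (a : ↥(Subgroup.centralizer ({z} : Set G))) :
    C.Rep (C.act (QuotientGroup.mk a) v) (a * q * a⁻¹) := by
  have h0 : C.Rep (C.act (QuotientGroup.mk a) v) (a * C.lift v * a⁻¹) := C.conj_lift a v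
  rcases h with rfl | rfl
  · exact h0
  · have e : a * (C.lift v * zH z) * a⁻¹ = a * C.lift v * a⁻¹ * zH z := by
      calc a * (C.lift v * zH z) * a⁻¹ = a * C.lift v * a⁻¹ * (a * zH z * a⁻¹) := by group
        _ = _ := by rw [conj_zH]
    rw [e]
    exact h0.mul_z hs

theorem Rep.sq (hs : Cfsg.IsExtraspecialCentralizerSetting z Q 6) {v : Pt}
    {q : ↥(Subgroup.centralizer ({z} : Set G))} (h : C.Rep v q) : q * q = 1 ↔ Even (wt v) := by
  rw [← C.lift_sq v]
  rcases h with rfl | rfl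
  · exact Iff.rfl
  · rw [show C.lift v * zH z * (C.lift v * zH z) = C.lift v * C.lift v by
      rw [mul_assoc, ← mul_assoc (zH z), ← zH_comm, mul_assoc (C.lift v), zH_sq hs, mul_one]]

variable (C)

theorem rep_one (hs : Cfsg.IsExtraspecialCentralizerSetting z Q 6) : C.Rep zeroPt 1 := by
  have e : addPt zeroPt zeroPt = zeroPt := addPt_self zeroPt
  rcases C.lift_add zeroPt zeroPt with h | h <;> rw [e] at h
  · exact Or.inl (mul_eq_left.1 h).symm
  · exact Or.inr (by rw [mul_left_cancel h, zH_sq hs])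

variable {C}

theorem Rep.zero_iff (hs : Cfsg.IsExtraspecialCentralizerSetting z Q 6) {v : Pt}
    {q : ↥(Subgroup.centralizer ({z} : Set G))} (h : C.Rep v q) :
    v = zeroPt ↔ q = 1 ∨ q = zH z := by
  constructor
  · rintro rfl
    rcases (C.rep_one hs).pair hs h with e | e
    · exact Or.inl e
    · exact Or.inr (by rw [e, one_mul])
  · rintro (rfl | rfl)
    · exact h.unique hs (C.rep_one hs)
    · have h1 := (C.rep_one hs).mul_z hs
      rw [one_mul] at h1
      exact h.unique hs h1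

theorem Rep.singular_iff (hs : Cfsg.IsExtraspecialCentralizerSetting z Q 6) {v : Pt}
    {q : ↥(Subgroup.centralizer ({z} : Set G))} (h : C.Rep v q) :
    Singular v ↔ q * q = 1 ∧ q ≠ 1 ∧ q ≠ zH z := by
  rw [h.sq hs, ← not_or, ← h.zero_iff hs]
  exact ⟨fun e => ⟨e.2, e.1⟩, fun e => ⟨e.2, e.1⟩⟩

theorem singular_act (hs : Cfsg.IsExtraspecialCentralizerSetting z Q 6)
    (γ : ↥(Subgroup.centralizer ({z} : Set G)) ⧸ Q) {v : Pt} (hv : Singular v) :
    Singular (C.act γ v) := by
  obtain ⟨a, rfl⟩ := QuotientGroup.mk_surjective γ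
  have h : C.Rep v (C.lift v) := Or.inl rfl
  rw [(h.conj hs a).singular_iff hs]
  obtain ⟨h1, h2, h3⟩ := (h.singular_iff hs).1 hv
  refine ⟨?_, ?_, ?_⟩
  · calc a * C.lift v * a⁻¹ * (a * C.lift v * a⁻¹) = a * (C.lift v * C.lift v) * a⁻¹ := by group
      _ = 1 := by rw [h1]; group
  · exact fun e => h2 (conj_eq_one_iff.1 e)
  · intro e
    rw [← conj_zH a] at e
    exact h3 (mul_left_cancel (mul_right_cancel e))

/-- Elements over vectors in one orbit are conjugate. -/
theorem exists_conj_eq (hs : Cfsg.IsExtraspecialCentralizerSetting z Q 6) {v w : Pt}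
    {q r : ↥(Subgroup.centralizer ({z} : Set G))} (hq : C.Rep v q) (hr : C.Rep w r)
    (hv : v ≠ zeroPt) {γ : ↥(Subgroup.centralizer ({z} : Set G)) ⧸ Q} (hγ : C.act γ v = w) :
    ∃ a, a * q * a⁻¹ = r := by
  obtain ⟨a, rfl⟩ := QuotientGroup.mk_surjective γ
  have h := hq.conj hs a
  rw [hγ] at h
  rcases h.pair hs hr with e | e
  · exact ⟨a, e.symm⟩
  · have hn : ¬ (q = 1 ∨ q = zH z) := fun c => hv ((hq.zero_iff hs).2 c)
    rw [not_or] at hn
    obtain ⟨y, hy, hyq⟩ := exists_conj hs (hq.mem hs) hn.1 hn.2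
    refine ⟨a * y, ?_⟩
    calc a * y * q * (a * y)⁻¹ = a * (y * q * y⁻¹) * a⁻¹ := by group
      _ = zH z * (a * q * a⁻¹) := by rw [hyq, conj_zH_mul]
      _ = r := by rw [← zH_comm, e]

/-! ### The classes -/

variable (C)

theorem card_range : Nat.card C.act.range = 19595520 := by
  rw [← Nat.card_congr (MonoidHom.ofInjective C.act_injective).toEquiv, C.card_quot]

/-- The classes of singular vectors. -/
structure ClassData (c : ZMod 3) : Prop where
  two_act : ∀ γ v, InTwo c v → InTwo c (C.act γ v)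
  four_act : ∀ γ v, InFour c v → InFour c (C.act γ v)
  two_trans : ∀ v w, InTwo c v → InTwo c w → ∃ γ, C.act γ v = w
  four_trans : ∀ v w, InFour c v → InFour c w → ∃ γ, C.act γ v = w
  two_card : ∀ v, InTwo c v → Nat.card (C.stab v) = 51840
  four_card : ∀ v, InFour c v → Nat.card (C.stab v) = 11520

theorem exists_classData (hs : Cfsg.IsExtraspecialCentralizerSetting z Q 6) :
    ∃ c, C.ClassData c := by
  obtain ⟨v₂, v₄, c, -, -, h₂, h₄, n₂, n₄, -, -⟩ := two_orbits (Γ := C.act.range)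
    (fun a ha => by
      obtain ⟨γ, -, hγ⟩ := C.P_diag a ha
      exact ⟨⟨C.act γ, γ, rfl⟩, hγ⟩)
    (fun σ hσ => by
      obtain ⟨γ, -, hγ⟩ := C.P_perm σ hσ
      exact ⟨⟨C.act γ, γ, rfl⟩, hγ⟩)
    (by
      rintro ⟨_, γ, rfl⟩ v hv
      exact singular_act hs γ hv)
    C.seven (by rw [C.card_range]; norm_num)
  have htrans : ∀ {u v w : Pt}, v ∈ MulAction.orbit C.act.range u →
      w ∈ MulAction.orbit C.act.range u → ∃ γ, C.act γ v = w := by
    intro u v w hv hw
    rw [← MulAction.orbit_eq_iff.2 hv, C.mem_orbit] at hw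
    exact hw
  have hact : ∀ {u v : Pt} γ, v ∈ MulAction.orbit C.act.range u →
      C.act γ v ∈ MulAction.orbit C.act.range u := by
    intro u v γ hv
    rw [← MulAction.orbit_eq_iff.2 hv, C.mem_orbit]
    exact ⟨γ, rfl⟩
  refine ⟨c, fun γ v hv => (h₂ _).1 (hact γ ((h₂ v).2 hv)),
    fun γ v hv => (h₄ _).1 (hact γ ((h₄ v).2 hv)),
    fun v w hv hw => htrans ((h₂ v).2 hv) ((h₂ w).2 hw),
    fun v w hv hw => htrans ((h₄ v).2 hv) ((h₄ w).2 hw), fun v hv => ?_, fun v hv => ?_⟩
  · have h := C.card_orbit_mul v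
    rw [MulAction.orbit_eq_iff.2 ((h₂ v).2 hv), n₂] at h
    omega
  · have h := C.card_orbit_mul v
    rw [MulAction.orbit_eq_iff.2 ((h₄ v).2 hv), n₄] at h
    omega

end Coords

end CfsgLib.LargeFischer
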