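/-
The combinatorics of the singular vectors of a six-dimensional hermitian space over the field with
four elements, seen on six orthogonal lines: a group containing the translations of determinant one
and inducing all even permutations of the lines, whose orbits have sizes divisible by seven and
whose order is prime to eleven, has exactly two orbits, of lengths 378 and 1701 (large Fischer type,
S5440).

A vector is recorded by its coordinates `v i : Option (ZMod 3)`: `none` for zero, `some e` for `ω ^ e`.
-/
import Mathlib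

set_option autoImplicit false
set_option linter.style.haveILetI false

namespace CfsgLib.LargeFischer.Orbits

/-- The vectors, by coordinates on the six lines. -/
abbrev Pt : Type := Fin 6 → Option (ZMod 3)

/-- The translation by `a`. -/
def shift (a : Fin 6 → ZMod 3) (v : Pt) : Pt := fun i => (v i).map (· + a i)

/-- The support. -/
def supp (v : Pt) : Finset (Fin 6) := Finset.univ.filter fun i => v i ≠ none

/-- The weight. -/
def wt (v : Pt) : ℕ := (supp v).card

/-- The product of the coordinates, as an exponent. -/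
def total (v : Pt) : ZMod 3 := ∑ i, (v i).getD 0

/-- The singular vectors other than zero. -/
def Singular (v : Pt) : Prop := v ≠ (fun _ => none) ∧ Even (wt v)

theorem mem_supp {v : Pt} {i : Fin 6} : i ∈ supp v ↔ v i ≠ none := by simp [supp]

theorem supp_shift (a : Fin 6 → ZMod 3) (v : Pt) : supp (shift a v) = supp v := by
  ext i
  simp [mem_supp, shift]

theorem wt_shift (a : Fin 6 → ZMod 3) (v : Pt) : wt (shift a v) = wt v := by
  rw [wt, wt, supp_shift]

theorem supp_eq_univ {v : Pt} (h : wt v = 6) : supp v = Finset.univ :=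
  Finset.eq_univ_of_card _ (by rw [← wt, h, Fintype.card_fin])

theorem total_shift {v : Pt} (h : wt v = 6) (a : Fin 6 → ZMod 3) :
    total (shift a v) = total v + ∑ i, a i := by
  rw [total, total, ← Finset.sum_add_distrib]
  refine Finset.sum_congr rfl fun i _ => ?_
  have hi : v i ≠ none := mem_supp.1 (by rw [supp_eq_univ h]; exact Finset.mem_univ i)
  obtain ⟨e, he⟩ := Option.ne_none_iff_exists'.1 hi
  simp [shift, he]

theorem wt_le (v : Pt) : wt v ≤ 6 := by
  simpa [wt] using Finset.card_le_univ (supp v)

theorem singular_iff {v : Pt} : Singular v ↔ wt v = 2 ∨ wt v = 4 ∨ wt v = 6 := by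
  have h6 := wt_le v
  constructor
  · rintro ⟨hne, he⟩
    have h0 : wt v ≠ 0 := fun h => hne (funext fun i => by
      by_contra hi
      have := mem_supp.2 hi
      rw [Finset.card_eq_zero.1 h] at this
      exact absurd this (Finset.notMem_empty i))
    obtain ⟨k, hk⟩ := he
    omega
  · intro h
    refine ⟨fun e => ?_, ?_⟩
    · have : wt v = 0 := by simp [e, wt, supp]
      omega
    · rcases h with e | e | e <;> rw [e] <;> decide

/-- Vectors with the same support differ by a translation. -/
theorem exists_shift_eq {v w : Pt} (h : supp v = supp w) :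
    ∃ a : Fin 6 → ZMod 3, shift a v = w := by
  refine ⟨fun i => (w i).getD 0 - (v i).getD 0, funext fun i => ?_⟩
  have hi := congrArg (i ∈ ·) h
  simp only [mem_supp, eq_iff_iff] at hi
  rcases hv : v i with _ | e <;> rcases hw : w i with _ | f <;> simp_all [shift]

/-- Outside weight six, the translation may be taken of determinant one. -/
theorem exists_shift_eq_zero {v w : Pt} (h : supp v = supp w) (h6 : wt v ≠ 6 ∨ total v = total w) :
    ∃ a : Fin 6 → ZMod 3, ∑ i, a i = 0 ∧ shift a v = w := by
  obtain ⟨a, ha⟩ := exists_shift_eq h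
  by_cases hw : wt v = 6
  · refine ⟨a, ?_, ha⟩
    have ht := total_shift hw a
    rw [ha, ← h6.resolve_left (not_not.2 hw)] at ht
    exact left_eq_add.1 ht
  obtain ⟨j, hj⟩ : ∃ j, j ∉ supp v := by
    by_contra hcon
    push Not at hcon
    exact hw (by rw [wt, Finset.eq_univ_iff_forall.2 hcon, Finset.card_univ, Fintype.card_fin])
  refine ⟨Function.update a j (a j - ∑ i, a i), ?_, ?_⟩
  · rw [Finset.sum_update_of_mem (Finset.mem_univ j),
      ← Finset.add_sum_erase Finset.univ a (Finset.mem_univ j), Finset.sdiff_singleton_eq_erase]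
    ring
  · rw [← ha]
    funext i
    by_cases hi : i = j
    · subst hi
      rw [mem_supp, not_not] at hj
      simp [shift, hj]
    · simp [shift, Function.update_of_ne hi]

/-- The even permutations are transitive on the subsets of size at least two of a given size. -/
theorem exists_even_perm {S T : Finset (Fin 6)} (h : S.card = T.card) (h2 : 2 ≤ S.card) :
    ∃ σ ∈ alternatingGroup (Fin 6), S.image σ = T := by
  classical
  set e : S ≃ T := S.equivOfCardEq h with he
  set σ : Equiv.Perm (Fin 6) := Equiv.extendSubtype e with hσdef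
  have hmem : ∀ x, x ∈ S → σ x ∈ T := fun x hx => by
    rw [hσdef, Equiv.extendSubtype_apply_of_mem e x hx]
    exact (e ⟨x, hx⟩).2
  have himg : S.image σ = T := by
    refine Finset.eq_of_subset_of_card_le (fun x hx => ?_) ?_
    · obtain ⟨y, hy, rfl⟩ := Finset.mem_image.1 hx
      exact hmem y hy
    · rw [Finset.card_image_of_injective _ σ.injective, h]
  rcases Int.units_eq_one_or (Equiv.Perm.sign σ) with hs | hs
  · exact ⟨σ, Equiv.Perm.mem_alternatingGroup.2 hs, himg⟩
  obtain ⟨x, hx, y, hy, hxy⟩ := Finset.one_lt_card.1 (show 1 < S.card by omega)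
  refine ⟨σ * Equiv.swap x y, Equiv.Perm.mem_alternatingGroup.2 ?_, ?_⟩
  · rw [map_mul, hs, Equiv.Perm.sign_swap hxy]
    norm_num
  · have hsw : ∀ z ∈ S, Equiv.swap x y z ∈ S := fun z hz => by
      rcases eq_or_ne z x with rfl | h1
      · rwa [Equiv.swap_apply_left]
      rcases eq_or_ne z y with rfl | h2'
      · rwa [Equiv.swap_apply_right]
      · rwa [Equiv.swap_apply_of_ne_of_ne h1 h2']
    refine Finset.eq_of_subset_of_card_le (fun z hz => ?_) ?_
    · obtain ⟨u, hu, rfl⟩ := Finset.mem_image.1 hz
      exact hmem _ (hsw u hu)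
    · rw [Finset.card_image_of_injective _ (σ * Equiv.swap x y).injective, h]

/-- The number of vectors of given support. -/
theorem card_supp (S : Finset (Fin 6)) :
    (Finset.univ.filter fun v : Pt => supp v = S).card = 3 ^ S.card := by
  classical
  have e : (Finset.univ.filter fun v : Pt => supp v = S) = Fintype.piFinset fun i =>
      if i ∈ S then (Finset.univ : Finset (ZMod 3)).image some else {none} := by
    ext v
    simp only [Finset.mem_filter, Finset.mem_univ, true_and, Fintype.mem_piFinset]
    constructor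
    · intro h i
      subst h
      split_ifs with hi
      · obtain ⟨f, hf⟩ := Option.ne_none_iff_exists'.1 (mem_supp.1 hi)
        exact Finset.mem_image.2 ⟨f, Finset.mem_univ f, hf.symm⟩
      · rw [mem_supp, not_not] at hi
        exact Finset.mem_singleton.2 hi
    · intro h
      ext i
      have := h i
      rw [mem_supp]
      split_ifs at this with hi
      · obtain ⟨f, -, hf⟩ := Finset.mem_image.1 this
        simp [hi, ← hf]
      · simp [hi, Finset.mem_singleton.1 this]
  rw [e, Fintype.card_piFinset]
  have hc : ∀ i : Fin 6,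
      (if i ∈ S then (Finset.univ : Finset (ZMod 3)).image some else {none}).card =
        if i ∈ S then 3 else 1 := fun i => by
    split_ifs
    · rw [Finset.card_image_of_injective _ (Option.some_injective _), Finset.card_univ, ZMod.card]
    · rfl
  rw [Finset.prod_congr rfl fun i _ => hc i, Finset.prod_ite_mem, Finset.univ_inter,
    Finset.prod_const]

/-- The number of vectors of given weight. -/
theorem card_wt (k : ℕ) :
    (Finset.univ.filter fun v : Pt => wt v = k).card = Nat.choose 6 k * 3 ^ k := by
  classical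
  rw [Finset.card_eq_sum_card_fiberwise (f := supp)
    (t := (Finset.univ : Finset (Fin 6)).powersetCard k) (fun v hv => by
      simp only [Finset.coe_filter, Finset.mem_univ, true_and, Set.mem_setOf_eq] at hv
      simpa [Finset.mem_powersetCard, wt] using hv)]
  rw [Finset.sum_congr rfl (g := fun _ => 3 ^ k) fun S hS => ?_, Finset.sum_const,
    Finset.card_powersetCard, Finset.card_univ, Fintype.card_fin, smul_eq_mul]
  have hk : S.card = k := (Finset.mem_powersetCard.1 hS).2
  rw [← hk, ← card_supp S, Finset.filter_filter]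
  congr 1
  refine Finset.filter_congr fun v _ => ⟨fun h => h.2, fun h => ⟨?_, h⟩⟩
  rw [wt, h]

/-- The vectors of weight six fall evenly into the three determinants. -/
theorem card_total (c : ZMod 3) :
    (Finset.univ.filter fun v : Pt => wt v = 6 ∧ total v = c).card = 243 := by
  classical
  have heq : ∀ d : ZMod 3, (Finset.univ.filter fun v : Pt => wt v = 6 ∧ total v = d).card =
      (Finset.univ.filter fun v : Pt => wt v = 6 ∧ total v = c).card := by
    intro d
    have hinv : ∀ (x : ZMod 3) (v : Pt),
        shift (Pi.single (0 : Fin 6) (-x)) (shift (Pi.single 0 x) v) = v := fun x v => by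
      funext i
      by_cases hi : i = 0
      · subst hi; rcases hv : v 0 with _ | e <;> simp [shift, hv]
      · rcases hv : v i with _ | e <;> simp [shift, hv, hi]
    refine Finset.card_bij (fun v _ => shift (Pi.single 0 (c - d)) v) (fun v hv => ?_)
      (fun v _ w _ h => ?_) fun w hw => ?_
    · simp only [Finset.mem_filter, Finset.mem_univ, true_and] at hv ⊢
      refine ⟨(wt_shift _ v).trans hv.1, ?_⟩
      rw [total_shift hv.1, hv.2, Finset.sum_pi_single']
      simp
    · rw [← hinv (c - d) v, h, hinv]
    · simp only [Finset.mem_filter, Finset.mem_univ, true_and] at hw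
      refine ⟨shift (Pi.single 0 (d - c)) w, ?_, ?_⟩
      · simp only [Finset.mem_filter, Finset.mem_univ, true_and]
        refine ⟨(wt_shift _ w).trans hw.1, ?_⟩
        rw [total_shift hw.1, hw.2, Finset.sum_pi_single']
        simp
      · show shift (Pi.single 0 (c - d)) (shift (Pi.single 0 (d - c)) w) = w
        rw [← neg_sub d c]
        exact hinv (d - c) w
  have h := card_wt 6
  rw [Finset.card_eq_sum_card_fiberwise (f := total) (t := (Finset.univ : Finset (ZMod 3)))
    (fun v _ => Finset.mem_univ _)] at h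
  simp only [Finset.filter_filter] at h
  rw [Finset.sum_congr rfl fun d _ => heq d, Finset.sum_const, Finset.card_univ, ZMod.card,
    smul_eq_mul] at h
  norm_num at h ⊢
  omega

/-- The possible lengths of an orbit. -/
theorem length_cases {p q : Prop} [Decidable p] [Decidable q] {k len : ℕ} (hk : k ≤ 3)
    (hn : len = (if p then 135 else 0) + (if q then 1215 else 0) + 243 * k) (hd : 7 ∣ len)
    (hne : len ≠ 2079) (hpos : 0 < len) :
    (p ∧ ¬ q ∧ k = 1 ∧ len = 378) ∨ (¬ p ∧ q ∧ k = 2 ∧ len = 1701) := by
  subst hn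
  interval_cases k <;> split_ifs at hd hne hpos ⊢ <;> first
    | omega
    | exact Or.inl ⟨by assumption, by assumption, rfl, rfl⟩
    | exact Or.inr ⟨by assumption, by assumption, rfl, rfl⟩

variable {Γ : Type*} [Group Γ] [MulAction Γ Pt]

/-- **The two orbits.**  There is a weight six determinant `c` such that the vectors of weight two
together with those of weight six and determinant `c` form an orbit (of length 378), and the other
singular vectors another one (of length 1701). -/
theorem two_orbits [Finite Γ]
    (hdiag : ∀ a : Fin 6 → ZMod 3, ∑ i, a i = 0 → ∃ γ : Γ, ∀ v : Pt, γ • v = shift a v)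
    (hperm : ∀ σ ∈ alternatingGroup (Fin 6), ∃ γ : Γ, ∀ v : Pt, supp (γ • v) = (supp v).image σ)
    (hsing : ∀ (γ : Γ) (v : Pt), Singular v → Singular (γ • v))
    (h7 : ∀ v : Pt, Singular v → 7 ∣ Nat.card (MulAction.orbit Γ v))
    (h11 : ¬ 11 ∣ Nat.card Γ) :
    ∃ v₂ v₄ : Pt, ∃ c : ZMod 3, wt v₂ = 2 ∧ wt v₄ = 4 ∧
      (∀ v, v ∈ MulAction.orbit Γ v₂ ↔ wt v = 2 ∨ (wt v = 6 ∧ total v = c)) ∧
      (∀ v, v ∈ MulAction.orbit Γ v₄ ↔ wt v = 4 ∨ (wt v = 6 ∧ total v ≠ c)) ∧
      Nat.card (MulAction.orbit Γ v₂) = 378 ∧ Nat.card (MulAction.orbit Γ v₄) = 1701 ∧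
      v₄ ∉ MulAction.orbit Γ v₂ ∧
      ∀ v, Singular v → v ∈ MulAction.orbit Γ v₂ ∨ v ∈ MulAction.orbit Γ v₄ := by
  classical
  -- transitivity inside the atoms
  have hatom : ∀ v w : Pt, Singular v → wt v = wt w → (wt v ≠ 6 ∨ total v = total w) →
      w ∈ MulAction.orbit Γ v := by
    intro v w hv hwt h6
    have h2 : 2 ≤ (supp v).card := by
      show 2 ≤ wt v
      rcases singular_iff.1 hv with e | e | e <;> omega
    by_cases h : wt v = 6
    · have hs : supp v = supp w := by rw [supp_eq_univ h, supp_eq_univ (hwt ▸ h)]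
      obtain ⟨a, ha, haw⟩ := exists_shift_eq_zero hs h6
      obtain ⟨γ, hγ⟩ := hdiag a ha
      exact ⟨γ, (hγ v).trans haw⟩
    · obtain ⟨σ, hσ, hσS⟩ := exists_even_perm hwt h2
      obtain ⟨γ, hγ⟩ := hperm σ hσ
      have hs : supp (γ • v) = supp w := (hγ v).trans hσS
      have hwt' : wt (γ • v) ≠ 6 := by rw [wt, hs, ← wt, ← hwt]; exact h
      obtain ⟨a, ha, haw⟩ := exists_shift_eq_zero hs (Or.inl hwt')
      obtain ⟨δ, hδ⟩ := hdiag a ha
      exact ⟨δ * γ, (mul_smul δ γ v).trans ((hδ _).trans haw)⟩
  have hclosed : ∀ {v w : Pt}, Singular v → w ∈ MulAction.orbit Γ v → Singular w := by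
    rintro v w hv ⟨γ, rfl⟩
    exact hsing γ v hv
  -- membership of the atoms
  set I : Pt → Finset Pt := fun v => Finset.univ.filter fun w => w ∈ MulAction.orbit Γ v with hI
  have hIc : ∀ v, (I v).card = Nat.card (MulAction.orbit Γ v) := fun v => by
    rw [Nat.card_eq_fintype_card, Fintype.card_subtype]
  set A : ℕ → Finset Pt := fun k => Finset.univ.filter fun w => wt w = k with hA
  set B : ZMod 3 → Finset Pt := fun c => Finset.univ.filter fun w => wt w = 6 ∧ total w = c with hB
  obtain ⟨v₂, hv₂⟩ : ∃ v : Pt, wt v = 2 := by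
    have : (A 2).Nonempty := Finset.card_pos.1 (by rw [hA]; simp only; rw [card_wt]; decide)
    obtain ⟨v, hv⟩ := this
    exact ⟨v, (Finset.mem_filter.1 hv).2⟩
  obtain ⟨v₄, hv₄⟩ : ∃ v : Pt, wt v = 4 := by
    have : (A 4).Nonempty := Finset.card_pos.1 (by rw [hA]; simp only; rw [card_wt]; decide)
    obtain ⟨v, hv⟩ := this
    exact ⟨v, (Finset.mem_filter.1 hv).2⟩
  have hs₂ : Singular v₂ := singular_iff.2 (Or.inl hv₂)
  have hs₄ : Singular v₄ := singular_iff.2 (Or.inr (Or.inl hv₄))
  have hex : ∀ c : ZMod 3, ∃ v : Pt, wt v = 6 ∧ total v = c := fun c => by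
    obtain ⟨v, hv⟩ := Finset.card_pos.1 (show 0 < (B c).card by rw [hB]; simp only; rw [card_total]; decide)
    exact ⟨v, (Finset.mem_filter.1 hv).2⟩
  choose w6 hw6 hw6t using hex
  -- the length of an orbit
  have hlen : ∀ v, Singular v → Nat.card (MulAction.orbit Γ v) =
      (if v₂ ∈ I v then 135 else 0) + (if v₄ ∈ I v then 1215 else 0) +
        243 * (Finset.univ.filter fun c => w6 c ∈ I v).card := by
    intro v hv
    have hcl : ∀ {x y : Pt}, Singular x → wt x = wt y → (wt x ≠ 6 ∨ total x = total y) →
        x ∈ I v → y ∈ I v := fun {x y} hx h1 h2 hxv => by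
      simp only [hI, Finset.mem_filter, Finset.mem_univ, true_and] at hxv ⊢
      rw [← MulAction.orbit_eq_iff.2 hxv]
      exact hatom x y hx h1 h2
    have hsplit : I v = (if v₂ ∈ I v then A 2 else ∅) ∪ (if v₄ ∈ I v then A 4 else ∅) ∪
        (Finset.univ.filter fun c => w6 c ∈ I v).biUnion B := by
      ext w
      constructor
      · intro hw
        have hw' : Singular w := hclosed hv (Finset.mem_filter.1 hw).2
        simp only [Finset.mem_union]
        rcases singular_iff.1 hw' with e | e | e
        · left; left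
          rw [if_pos (hcl hw' (e.trans hv₂.symm) (Or.inl (by omega)) hw)]
          simp [hA, e]
        · left; right
          rw [if_pos (hcl hw' (e.trans hv₄.symm) (Or.inl (by omega)) hw)]
          simp [hA, e]
        · right
          refine Finset.mem_biUnion.2 ⟨total w, Finset.mem_filter.2 ⟨Finset.mem_univ _,
            hcl hw' (e.trans (hw6 _).symm) (Or.inr (hw6t _).symm) hw⟩, ?_⟩
          simp [hB, e]
      · simp only [Finset.mem_union, Finset.mem_biUnion]
        rintro ((h | h) | ⟨c, hc, h⟩)
        · split_ifs at h with h2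
          · exact hcl hs₂ (hv₂.trans (Finset.mem_filter.1 h).2.symm) (Or.inl (by omega)) h2
          · exact absurd h (Finset.notMem_empty _)
        · split_ifs at h with h2
          · exact hcl hs₄ (hv₄.trans (Finset.mem_filter.1 h).2.symm) (Or.inl (by omega)) h2
          · exact absurd h (Finset.notMem_empty _)
        · obtain ⟨-, hw, hwc⟩ := Finset.mem_filter.1 h
          exact hcl (singular_iff.2 (Or.inr (Or.inr (hw6 c)))) ((hw6 c).trans hw.symm)
            (Or.inr ((hw6t c).trans hwc.symm)) (Finset.mem_filter.1 hc).2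
    rw [← hIc]
    conv_lhs => rw [hsplit]
    rw [Finset.card_union_of_disjoint, Finset.card_union_of_disjoint, Finset.card_biUnion]
    · have hBc : ∀ c, (B c).card = 243 := fun c => by rw [hB]; exact card_total c
      simp only [hBc, Finset.sum_const, smul_eq_mul, mul_comm _ 243, apply_ite Finset.card,
        Finset.card_empty]
      rw [hA]
      simp only [card_wt]
      norm_num [Nat.choose]
    · intro c _ c' _ hcc
      simp only [Function.onFun, hB, Finset.disjoint_filter]
      exact fun x _ h h' => hcc (h.2.symm.trans h'.2)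
    · rw [Finset.disjoint_left]
      intro x h h'
      split_ifs at h h' <;> simp_all [hA]
    · rw [Finset.disjoint_left]
      intro x h h'
      obtain ⟨c, -, hx⟩ := Finset.mem_biUnion.1 h'
      simp only [Finset.mem_union] at h
      simp only [hB, Finset.mem_filter] at hx
      rcases h with h | h <;> split_ifs at h <;> simp_all [hA]
  -- the cases
  have hcard11 : ∀ v : Pt, Nat.card (MulAction.orbit Γ v) ≠ 2079 := fun v h => h11 <| by
    have h1 : Nat.card (MulAction.orbit Γ v) ∣ Nat.card Γ := by
      rw [← Nat.card_congr (MulAction.orbitEquivQuotientStabilizer Γ v).symm]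
      exact Subgroup.card_quotient_dvd_card _
    exact (show 11 ∣ 2079 by norm_num).trans (h ▸ h1)
  have hcases : ∀ v, Singular v →
      (v₂ ∈ I v ∧ v₄ ∉ I v ∧ (Finset.univ.filter fun c => w6 c ∈ I v).card = 1 ∧
        Nat.card (MulAction.orbit Γ v) = 378) ∨
      (v₂ ∉ I v ∧ v₄ ∈ I v ∧ (Finset.univ.filter fun c => w6 c ∈ I v).card = 2 ∧
        Nat.card (MulAction.orbit Γ v) = 1701) := by
    intro v hv
    have h := hlen v hv
    have hd := h7 v hv
    have hne := hcard11 v
    have hle : (Finset.univ.filter fun c => w6 c ∈ I v).card ≤ 3 :=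
      (Finset.card_le_univ _).trans (by rw [ZMod.card])
    have hpos : 0 < Nat.card (MulAction.orbit Γ v) :=
      Nat.card_pos_iff.2 ⟨⟨⟨v, MulAction.mem_orbit_self v⟩⟩, inferInstance⟩
    exact length_cases hle h hd hne hpos
  have hself : ∀ v, v ∈ I v := fun v => by simp [hI]
  obtain ⟨-, h24, hk2, hlen2⟩ := (hcases v₂ hs₂).resolve_right fun h => h.1 (hself v₂)
  obtain ⟨h42, -, hk4, hlen4⟩ := (hcases v₄ hs₄).resolve_left fun h => h.2.1 (hself v₄)
  obtain ⟨c, hc⟩ := Finset.card_eq_one.1 hk2
  have horb : ∀ {x v : Pt}, x ∈ I v → MulAction.orbit Γ x = MulAction.orbit Γ v := fun {x v} h =>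
    MulAction.orbit_eq_iff.2 (Finset.mem_filter.1 h).2
  have hmem : ∀ {x v : Pt}, x ∈ I v ↔ x ∈ MulAction.orbit Γ v := fun {x v} => by simp [hI]
  have hc' : ∀ d, w6 d ∈ MulAction.orbit Γ v₂ ↔ d = c := fun d => by
    rw [← hmem]
    have := congrArg (d ∈ ·) hc
    simpa using this
  have hsix : ∀ d, d ≠ c → w6 d ∈ MulAction.orbit Γ v₄ := by
    intro d hd
    have hw : Singular (w6 d) := singular_iff.2 (Or.inr (Or.inr (hw6 d)))
    rcases hcases _ hw with h | h
    · exfalso
      refine hd ((hc' d).1 ?_)
      rw [horb h.1]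
      exact MulAction.mem_orbit_self _
    · rw [horb h.2.1]
      exact MulAction.mem_orbit_self _
  have hor : ∀ v, Singular v → (v ∈ MulAction.orbit Γ v₂ ↔ wt v = 2 ∨ (wt v = 6 ∧ total v = c)) ∧
      (v ∈ MulAction.orbit Γ v₂ ∨ v ∈ MulAction.orbit Γ v₄) := by
    intro v hv
    rcases singular_iff.1 hv with e | e | e
    · have h := hatom v₂ v hs₂ (hv₂.trans e.symm) (Or.inl (by omega))
      exact ⟨iff_of_true h (Or.inl e), Or.inl h⟩
    · have h := hatom v₄ v hs₄ (hv₄.trans e.symm) (Or.inl (by omega))
      refine ⟨iff_of_false (fun h' => h24 ?_) (by omega), Or.inr h⟩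
      rw [hmem, ← MulAction.orbit_eq_iff.2 h', MulAction.orbit_eq_iff.2 h]
      exact MulAction.mem_orbit_self _
    · have hws : Singular (w6 (total v)) := singular_iff.2 (Or.inr (Or.inr (hw6 _)))
      have h := hatom _ v hws ((hw6 _).trans e.symm) (Or.inr (hw6t _))
      have he : MulAction.orbit Γ v = MulAction.orbit Γ (w6 (total v)) := MulAction.orbit_eq_iff.2 h
      by_cases hd : total v = c
      · have hm : v ∈ MulAction.orbit Γ v₂ := by
          rw [← MulAction.orbit_eq_iff.2 ((hc' _).2 hd), ← he]
          exact MulAction.mem_orbit_self v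
        exact ⟨iff_of_true hm (Or.inr ⟨e, hd⟩), Or.inl hm⟩
      · refine ⟨iff_of_false (fun hm => hd ((hc' _).1 ?_)) (by simp [e, hd]), Or.inr ?_⟩
        · rw [← MulAction.orbit_eq_iff.2 hm, he]
          exact MulAction.mem_orbit_self _
        · rw [← MulAction.orbit_eq_iff.2 (hsix _ hd), ← he]
          exact MulAction.mem_orbit_self v
  have hdisj : v₄ ∉ MulAction.orbit Γ v₂ := fun h => h24 (hmem.2 h)
  refine ⟨v₂, v₄, c, hv₂, hv₄, fun v => ?_, fun v => ?_, hlen2, hlen4, hdisj,
    fun v hv => (hor v hv).2⟩
  · refine ⟨fun h => (hor v (hclosed hs₂ h)).1.1 h, fun h => (hor v (singular_iff.2 ?_)).1.2 h⟩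
    rcases h with e | ⟨e, -⟩
    exacts [Or.inl e, Or.inr (Or.inr e)]
  · constructor
    · intro h
      have hv := hclosed hs₄ h
      have hn : v ∉ MulAction.orbit Γ v₂ := fun h2 => hdisj (by
        rw [← MulAction.orbit_eq_iff.2 h2, MulAction.orbit_eq_iff.2 h]
        exact MulAction.mem_orbit_self _)
      rw [(hor v hv).1, not_or, not_and] at hn
      rcases singular_iff.1 hv with e | e | e
      · exact absurd e hn.1
      · exact Or.inl e
      · exact Or.inr ⟨e, hn.2 e⟩
    · intro h
      have hv : Singular v := singular_iff.2 (by rcases h with e | ⟨e, -⟩ <;> omega)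
      refine (hor v hv).2.resolve_left fun h2 => ?_
      rw [(hor v hv).1] at h2
      rcases h with e | ⟨e, hne⟩ <;> rcases h2 with e2 | ⟨e2, he2⟩
      all_goals first | omega | exact hne he2

end CfsgLib.LargeFischer.Orbits
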