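import Mathlib
import Cfsg.Agent.Lib.LargeFischer.Orbits
import Cfsg.Agent.Lib.LargeFischer.Setup

/-!
Large Fischer type: coordinates on `Q` modulo its centre.

`Coords z Q` is the interface between the construction of the six lines (producer) and the
statements on classes of involutions of `Q` and their stabilisers (consumers).
-/

set_option autoImplicit false

namespace CfsgLib.LargeFischer

open Orbits

/-- Addition of coordinates: `none` is zero and `some e` is the `e`-th power of a primitive cube
root of one. -/
def addCoord : Option (ZMod 3) → Option (ZMod 3) → Option (ZMod 3)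
  | none, b => b
  | a, none => a
  | some a, some b => if a = b then none else some (-(a + b))

/-- Addition of vectors. -/
def addPt (v w : Pt) : Pt := fun i => addCoord (v i) (w i)

/-- The zero vector. -/
def zeroPt : Pt := fun _ => none

theorem addPt_self (v : Pt) : addPt v v = zeroPt := by
  funext i
  rcases hv : v i with _ | a <;> simp [addPt, zeroPt, addCoord, hv]

theorem addPt_comm (v w : Pt) : addPt v w = addPt w v := by
  funext i
  have h : ∀ a b : Option (ZMod 3), addCoord a b = addCoord b a := by decide
  exact h _ _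

theorem addPt_zero (v : Pt) : addPt v zeroPt = v := by
  funext i
  rcases hv : v i with _ | a <;> simp [addPt, zeroPt, addCoord, hv]

variable {G : Type*} [Group G]

/-- Coordinates for a group of large Fischer type: `H/Q` acts faithfully on the six coordinate
space, `lift` gives representatives of the cosets of `<z>` in `Q`, `P` is the monomial
subgroup and `x` induces the scalars. -/
structure Coords (z : G) (Q : Subgroup ↥(Subgroup.centralizer ({z} : Set G))) [Q.Normal] where
  /-- The action of `H/Q` on vectors. -/
  act : (↥(Subgroup.centralizer ({z} : Set G)) ⧸ Q) →* Equiv.Perm Pt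
  act_injective : Function.Injective act
  /-- Representatives. -/
  lift : Pt → ↥(Subgroup.centralizer ({z} : Set G))
  lift_mem : ∀ v, lift v ∈ Q
  lift_surj : ∀ q ∈ Q, ∃ v, q = lift v ∨ q = lift v * zH z
  lift_inj : ∀ v w, (lift v = lift w ∨ lift v = lift w * zH z) → v = w
  lift_add : ∀ v w, lift v * lift w = lift (addPt v w) ∨
    lift v * lift w = lift (addPt v w) * zH z
  lift_sq : ∀ v, lift v * lift v = 1 ↔ Even (wt v)
  conj_lift : ∀ (h : ↥(Subgroup.centralizer ({z} : Set G))) (v : Pt),
    h * lift v * h⁻¹ = lift (act (QuotientGroup.mk h) v) ∨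
    h * lift v * h⁻¹ = lift (act (QuotientGroup.mk h) v) * zH z
  /-- The monomial subgroup. -/
  P : Subgroup (↥(Subgroup.centralizer ({z} : Set G)) ⧸ Q)
  card_P : Nat.card ↥P = 87480
  P_mono : ∀ γ ∈ P, ∃ σ ∈ alternatingGroup (Fin 6), ∃ a : Fin 6 → ZMod 3,
    ∀ (v : Pt) (i : Fin 6), act γ v (σ i) = (v i).map (· + a i)
  P_diag : ∀ a : Fin 6 → ZMod 3, ∑ i, a i = 0 → ∃ γ ∈ P, ∀ v, act γ v = shift a v
  P_perm : ∀ σ ∈ alternatingGroup (Fin 6), ∃ γ ∈ P, ∀ v, supp (act γ v) = (supp v).image σ
  /-- An element inducing the scalar. -/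
  x : ↥(Subgroup.centralizer ({z} : Set G))
  act_x : ∀ v, act (QuotientGroup.mk x) v = shift (fun _ => 1) v
  act_semilinear : ∀ γ : ↥(Subgroup.centralizer ({z} : Set G)) ⧸ Q,
    (∀ v, act γ (shift (fun _ => 1) v) = shift (fun _ => 1) (act γ v)) ∨
    (∀ v, act γ (shift (fun _ => 1) v) = shift (fun _ => -1) (act γ v))
  card_quot : Nat.card (↥(Subgroup.centralizer ({z} : Set G)) ⧸ Q) = 19595520
  seven : ∀ v, Singular v → 7 ∣ Nat.card (MulAction.orbit act.range v)

end CfsgLib.LargeFischer
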