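import Cfsg.Agent.Lib.SchurMult.U43.BoundThree

/-!
A central extension of `PSU₄(3)` by a group of order three: the preimage of `3^4` is elementary abelian of
order `3^5`, given here by a parametrisation, and is normalised by the lifts of the complement `A₆`.
-/

set_option autoImplicit false
set_option linter.unusedSectionVars false

namespace CfsgLib.LargeFischer.Six

open CfsgLib.SchurMult CfsgLib.SchurMult.U43 CfsgLib.SchurMult.U43.Three
open scoped commutatorElement

/-- The space of five coordinates over three elements. -/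
abbrev U5 : Type := Fin 5 → ZMod 3

/-- A central extension of `PSU₄(3)` with kernel of order three generated by `x`. -/
structure Cover {Γ : Type*} [Group Γ] (σ : Γ →* G0) (x : Γ) : Prop where
  surj : Function.Surjective σ
  central : σ.ker ≤ Subgroup.center Γ
  ker : σ.ker = Subgroup.zpowers x
  cube : x ^ 3 = 1
  ne_one : x ≠ 1

theorem exists_fix_move : ∀ a b c : Fin 6, a ≠ b → b ≠ c → c ≠ a →
    ∃ π : A6, π.1 c = c ∧ π.1 a = b := by
  decide +kernel

theorem exists_third : ∀ a b : Fin 6, ∃ c : Fin 6, b ≠ c ∧ c ≠ a := by decide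

theorem dd_self (i : Fin 6) : dd i i = 1 := mul_eq_left.1 (dd_mul i i i)

theorem dd_inv (i j : Fin 6) : (dd i j)⁻¹ = dd j i :=
  inv_eq_of_mul_eq_one_right (by rw [dd_mul, dd_self])

theorem dd_commute (i j k l : Fin 6) : Commute (dd i j) (dd k l) :=
  edge_base.comm i j k l _ _ rfl rfl

theorem dd_ne_one : dd 0 1 ≠ 1 := fun h => by
  have := indep_nat ![1, 0, 0, 0, 0] (by simp [h]) 0 1
  simp at this

variable {Γ : Type*} [Group Γ] {σ : Γ →* G0} {x : Γ}

namespace Cover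

variable (C : Cover σ x)
include C

theorem kc {z : Γ} (hz : z ∈ σ.ker) (g : Γ) : g * z = z * g := ker_comm C.central hz g

theorem xc (g : Γ) : g * x = x * g := C.kc (by rw [C.ker]; exact Subgroup.mem_zpowers x) g

theorem ker_cube {z : Γ} (hz : z ∈ σ.ker) : z ^ 3 = 1 := by
  rw [C.ker] at hz
  obtain ⟨k, rfl⟩ := hz
  show (x ^ k) ^ 3 = 1
  rw [← zpow_natCast, ← zpow_mul, mul_comm, zpow_mul, zpow_natCast, C.cube, one_zpow]

theorem ker_sq {z : Γ} (hz : z ∈ σ.ker) (h : z * z = 1) : z = 1 := by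
  have h3 := C.ker_cube hz
  rwa [pow_succ, pow_two, h, one_mul] at h3

theorem comm_conj {X Y X' Y' T : Γ} (hXY : Commute (σ X) (σ Y)) (hX : σ (T * X * T⁻¹) = σ X')
    (hY : σ (T * Y * T⁻¹) = σ Y') : ⁅X', Y'⁆ = ⁅X, Y⁆ := by
  have hz : ⁅X, Y⁆ ∈ σ.ker := comm_mem_ker hXY
  rw [← comm_eq_of_map_eq C.central hX hY,
    show ⁅T * X * T⁻¹, T * Y * T⁻¹⁆ = T * ⁅X, Y⁆ * T⁻¹ by simp only [commutatorElement_def]; group,
    C.kc hz T, mul_inv_cancel_right]

/-- Lifts of edges commute. -/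
theorem comm (i j k l : Fin 6) (U V : Γ) (hU : σ U = dd i j) (hV : σ V = dd k l) : Commute U V := by
  obtain ⟨X, hX⟩ := C.surj (dd 0 1)
  obtain ⟨Y, hY⟩ := C.surj (dd 0 2)
  have hXY : ⁅X, Y⁆ = 1 := by
    obtain ⟨π, h0, h1, h2⟩ := swap_move
    obtain ⟨T, hT⟩ := C.surj (aa π)
    have hcm : Commute (σ X) (σ Y) := by rw [hX, hY]; exact dd_commute 0 1 0 2
    have e := C.comm_conj (T := T) (X' := Y) (Y' := X) hcm
      (by rw [map_mul, map_mul, map_inv, hT, hX, dd_conj, h0, h1, hY])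
      (by rw [map_mul, map_mul, map_inv, hT, hY, dd_conj, h0, h2, hX])
    refine C.ker_sq (comm_mem_ker hcm) ?_
    nth_rewrite 1 [← e]
    rw [← commutatorElement_inv, inv_mul_cancel]
  choose w hw using fun j => C.surj (dd 0 j)
  have one : ∀ W W' : Γ, σ W = 1 → Commute W W' := fun W W' e =>
    ((C.kc (show W ∈ σ.ker from e) W').symm : W * W' = W' * W)
  have h0 : ∀ i j U V, σ U = dd 0 i → σ V = dd 0 j → Commute U V := by
    intro i j U V hU hV
    by_cases hij : i = j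
    · rw [← commutatorElement_eq_one_iff_commute, comm_eq_of_map_eq C.central (a' := U) (b' := U) rfl
        (by rw [hU, hV, hij]), commutatorElement_self]
    by_cases hi : i = 0
    · exact one U V (by rw [hU, hi, dd_self])
    by_cases hj : j = 0
    · exact (one V U (by rw [hV, hj, dd_self])).symm
    obtain ⟨π, p0, p1, p2⟩ := exists_move₃ 0 i j (Ne.symm hi) hij hj
    obtain ⟨T, hT⟩ := C.surj (aa π)
    rw [← commutatorElement_eq_one_iff_commute, C.comm_conj (X := X) (Y := Y) (T := T)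
      (by rw [hX, hY]; exact dd_commute 0 1 0 2)
      (by rw [map_mul, map_mul, map_inv, hT, hX, dd_conj, p0, p1, hU])
      (by rw [map_mul, map_mul, map_inv, hT, hY, dd_conj, p0, p2, hV]), hXY]
  have hd : ∀ i j, dd i j = (dd 0 i)⁻¹ * dd 0 j := dd_eq
  have hc2 : ∀ p q, Commute (w p) (w q) := fun p q => h0 p q _ _ (hw p) (hw q)
  have key : Commute ((w i)⁻¹ * w j) ((w k)⁻¹ * w l) :=
    ((((hc2 i k).inv_inv).mul_right (hc2 i l).inv_left)).mul_left (((hc2 j k).inv_right).mul_right (hc2 j l))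
  rw [← commutatorElement_eq_one_iff_commute] at key ⊢
  rw [comm_eq_of_map_eq C.central (a' := (w i)⁻¹ * w j) (b' := (w k)⁻¹ * w l)
    (by rw [hU, map_mul, map_inv, hw, hw, hd]) (by rw [hV, map_mul, map_inv, hw, hw, hd]), key]

/-- Lifts of edges have order three. -/
theorem lift_cube {a b : Fin 6} {W : Γ} (hW : σ W = dd a b) : W ^ 3 = 1 := by
  by_cases h : a = b
  · exact C.ker_cube (by rw [MonoidHom.mem_ker, hW, h, dd_self])
  obtain ⟨c, hbc, hca⟩ := exists_third a b
  obtain ⟨π, hc, ha⟩ := exists_fix_move a b c h hbc hca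
  obtain ⟨T, hT⟩ := C.surj (aa π)
  obtain ⟨U, hU⟩ := C.surj (dd c a)
  have h1 : σ (T * U * T⁻¹) = dd c b := by rw [map_mul, map_mul, map_inv, hT, hU, dd_conj, hc, ha]
  have h2 : σ U⁻¹ = dd a c := by rw [map_inv, hU, dd_inv]
  obtain ⟨z, hz, rfl⟩ : ∃ z ∈ σ.ker, W = (T * U * T⁻¹ * U⁻¹) * z := by
    refine ⟨(T * U * T⁻¹ * U⁻¹)⁻¹ * W, ?_, (mul_inv_cancel_left _ _).symm⟩
    rw [MonoidHom.mem_ker, map_mul, map_inv, map_mul, h1, h2, hW, (dd_commute c b a c).eq, dd_mul,
      inv_mul_cancel]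
  have hk : U ^ 3 ∈ σ.ker := by
    rw [MonoidHom.mem_ker, map_pow, hU, cube_Eh (dd_range c a)]
  have e : (T * U * T⁻¹ * U⁻¹) ^ 3 = 1 := by
    rw [(C.comm c b a c _ _ h1 h2).mul_pow, conj_pow, C.kc hk T, mul_inv_cancel_right, inv_pow, mul_inv_cancel]
  rw [(show Commute (T * U * T⁻¹ * U⁻¹) z from C.kc hz _).mul_pow, e, C.ker_cube hz, mul_one]

/-- **The preimage of `3^4`.** -/
theorem exists_param : ∃ φ : Multiplicative U5 →* Γ, Function.Injective φ ∧
    φ (Multiplicative.ofAdd (Pi.single 0 1)) = x ∧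
    (∀ i j U, σ U = dd i j → U ∈ φ.range) ∧
    (∀ (π : A6) (T : Γ), σ T = aa π → ∀ u ∈ φ.range, T * u * T⁻¹ ∈ φ.range) := by
  choose w hw using fun j : Fin 4 => C.surj (dd 0 j.castSucc.succ)
  obtain ⟨g, hg⟩ : ∃ g : Fin 5 → Γ, g = Fin.cons x w := ⟨_, rfl⟩
  have hgc : ∀ i j, Commute (g i) (g j) := by
    intro i j
    subst hg
    refine Fin.cases ?_ (fun i => ?_) i
    · exact (C.xc _).symm
    refine Fin.cases ?_ (fun j => ?_) j
    · exact C.xc _
    simp only [Fin.cons_succ]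
    exact C.comm _ _ _ _ _ _ (hw i) (hw j)
  have hg3 : ∀ i, g i ^ 3 = 1 := by
    intro i
    subst hg
    refine Fin.cases ?_ (fun i => ?_) i
    · exact C.cube
    simp only [Fin.cons_succ]
    exact C.lift_cube (hw i)
  have hv : ∀ (i : Fin 5) (a b : ZMod 3), g i ^ (a + b).val = g i ^ a.val * g i ^ b.val := fun i a b => by
    rw [ZMod.val_add, ← pow_eq_pow_mod _ (hg3 i), pow_add]
  let f : U5 → Γ := fun u => g 0 ^ (u 0).val * g 1 ^ (u 1).val * g 2 ^ (u 2).val * g 3 ^ (u 3).val *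
    g 4 ^ (u 4).val
  have hf : ∀ u v, f (u + v) = f u * f v := by
    intro u v
    have c : ∀ (i j : Fin 5) (s t : ℕ), Commute (g i ^ s) (g j ^ t) := fun i j s t => (hgc i j).pow_pow s t
    simp only [f, Pi.add_apply, hv]
    rw [Commute.mul_mul_mul_comm (((c 4 0 _ _).mul_right (c 4 1 _ _)).mul_right (c 4 2 _ _) |>.mul_right (c 4 3 _ _))]
    congr 1
    rw [Commute.mul_mul_mul_comm (((c 3 0 _ _).mul_right (c 3 1 _ _)).mul_right (c 3 2 _ _))]
    congr 1
    rw [Commute.mul_mul_mul_comm ((c 2 0 _ _).mul_right (c 2 1 _ _))]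
    congr 1
    rw [Commute.mul_mul_mul_comm (c 1 0 _ _)]
  let φ : Multiplicative U5 →* Γ := MonoidHom.mk' (fun u => f u.toAdd) fun u v => hf _ _
  have hsingle : ∀ i, φ (Multiplicative.ofAdd (Pi.single i 1)) = g i := fun i => by
    show f (Pi.single i 1) = g i
    fin_cases i <;> simp [f, ZMod.val_one]
  have h0 : g 0 = x := by rw [hg, Fin.cons_zero]
  have hsucc : ∀ j : Fin 4, g j.succ = w j := fun j => by rw [hg, Fin.cons_succ]
  have hker : ∀ z ∈ σ.ker, z ∈ φ.range := fun z hz => by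
    rw [C.ker] at hz
    exact (Subgroup.zpowers_le.2 (show x ∈ φ.range from ⟨_, (hsingle 0).trans h0⟩)) hz
  have hlift : ∀ {U : Γ}, σ U ∈ φ.range.map σ → U ∈ φ.range := by
    rintro U ⟨V, hV, e⟩
    rw [show U = V * (V⁻¹ * U) from (mul_inv_cancel_left _ _).symm]
    exact mul_mem hV (hker _ (by rw [MonoidHom.mem_ker, map_mul, map_inv, e, inv_mul_cancel]))
  have hz : ∀ j : Fin 6, dd 0 j ∈ φ.range.map σ := by
    have hj : ∀ j : Fin 4, dd 0 j.castSucc.succ ∈ φ.range.map σ := fun j =>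
      ⟨w j, ⟨_, (hsingle j.succ).trans (hsucc j)⟩, hw j⟩
    intro j
    fin_cases j
    · rw [show dd 0 (⟨0, by norm_num⟩ : Fin 6) = 1 from dd_self 0]; exact one_mem _
    · exact hj 0
    · exact hj 1
    · exact hj 2
    · exact hj 3
    · have e := dd_cyc
      rw [mul_eq_one_iff_inv_eq] at e
      show dd 0 5 ∈ _
      rw [← e]
      exact inv_mem (mul_mem (mul_mem (mul_mem (hj 0) (hj 1)) (hj 2)) (hj 3))
  have hdd : ∀ i j, dd i j ∈ φ.range.map σ := fun i j => by
    rw [dd_eq]; exact mul_mem (inv_mem (hz i)) (hz j)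
  refine ⟨φ, ?_, (hsingle 0).trans h0, fun i j U hU => hlift (hU ▸ hdd i j), ?_⟩
  · refine (injective_iff_map_eq_one φ).2 fun u hu => ?_
    have hu' : f u.toAdd = 1 := hu
    have e : σ (f u.toAdd) = dd 0 1 ^ (u.toAdd 1).val * dd 0 2 ^ (u.toAdd 2).val * dd 0 3 ^ (u.toAdd 3).val *
        dd 0 4 ^ (u.toAdd 4).val := by
      simp only [f, map_mul, map_pow]
      rw [h0, show σ x = 1 from MonoidHom.mem_ker.1 (by rw [C.ker]; exact Subgroup.mem_zpowers x), one_pow,
        one_mul, show g 1 = w 0 from hsucc 0, show g 2 = w 1 from hsucc 1, show g 3 = w 2 from hsucc 2,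
        show g 4 = w 3 from hsucc 3, hw, hw, hw, hw]
      rfl
    rw [hu', map_one] at e
    have hind := indep_nat ![(u.toAdd 1).val, (u.toAdd 2).val, (u.toAdd 3).val, (u.toAdd 4).val, 0]
      (by simp only [Matrix.cons_val]; rw [pow_zero, mul_one, ← e]; exact one_mem _)
    have hvz : ∀ i : Fin 4, u.toAdd i.succ = 0 := fun i => by
      have h := hind i.castSucc 4
      have hlt := ZMod.val_lt (u.toAdd i.succ)
      rw [← ZMod.val_eq_zero]
      fin_cases i <;>
        simp only [Matrix.cons_val, Fin.reduceCastSucc, Fin.reduceSucc, Fin.reduceFinMk, Fin.zero_eta,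
          Fin.mk_one, Fin.castSucc_zero, Fin.castSucc_one, Fin.succ_zero_eq_one] at h hlt ⊢ <;>
        (try rw [Nat.mod_eq_of_lt hlt, Nat.zero_mod] at h) <;> exact h
    have h00 : u.toAdd 0 = 0 := by
      simp only [f, show u.toAdd 1 = 0 from hvz 0, show u.toAdd 2 = 0 from hvz 1, show u.toAdd 3 = 0 from hvz 2,
        show u.toAdd 4 = 0 from hvz 3, ZMod.val_zero, pow_zero, mul_one, h0] at hu'
      rw [← ZMod.val_eq_zero]
      have hd := orderOf_dvd_of_pow_eq_one hu'
      rw [orderOf_eq_prime C.cube C.ne_one] at hd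
      exact Nat.eq_zero_of_dvd_of_lt hd (ZMod.val_lt _)
    refine Multiplicative.toAdd.injective (funext fun i => ?_)
    refine Fin.cases h00 (fun i => hvz i) i
  · intro π T hT u hu
    have hgen : ∀ i, T * g i * T⁻¹ ∈ φ.range := by
      intro i
      refine Fin.cases ?_ (fun j => ?_) i
      · rw [h0, C.xc T, mul_inv_cancel_right]; exact ⟨_, (hsingle 0).trans h0⟩
      · refine hlift ?_
        rw [map_mul, map_mul, map_inv, hT, hsucc, hw, dd_conj]
        exact hdd _ _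
    obtain ⟨v, rfl⟩ := hu
    show T * f v.toAdd * T⁻¹ ∈ _
    have hp : ∀ i n, T * g i ^ n * T⁻¹ ∈ φ.range := fun i n => by rw [← conj_pow]; exact pow_mem (hgen i) n
    rw [show ∀ a b c d e : Γ, T * (a * b * c * d * e) * T⁻¹ =
      (T * a * T⁻¹) * (T * b * T⁻¹) * (T * c * T⁻¹) * (T * d * T⁻¹) * (T * e * T⁻¹) from
        fun a b c d e => by group]
    exact mul_mem (mul_mem (mul_mem (mul_mem (hp _ _) (hp _ _)) (hp _ _)) (hp _ _)) (hp _ _)

end Cover

end CfsgLib.LargeFischer.Six
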