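import Cfsg.Agent.Lib.LargeFischer.Classes

/-!
Large Fischer type: sets of vectors closed under addition, with even weights, containing a vector
of weight six and invariant under the even permutations relative to it.
-/

set_option autoImplicit false

namespace CfsgLib.LargeFischer

open Orbits

/-- The constant vector. -/
def constPt (c : ZMod 3) : Pt := fun _ => some c

theorem addPt_assoc (u v w : Pt) : addPt (addPt u v) w = addPt u (addPt v w) := by
  have h : ∀ a b c : Option (ZMod 3),
      addCoord (addCoord a b) c = addCoord a (addCoord b c) := by decide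
  funext i; exact h _ _ _

theorem zero_addPt (v : Pt) : addPt zeroPt v = v := by
  rw [addPt_comm, addPt_zero]

theorem shift_addPt (a : Fin 6 → ZMod 3) (v w : Pt) :
    shift a (addPt v w) = addPt (shift a v) (shift a w) := by
  have h : ∀ (t : ZMod 3) (p q : Option (ZMod 3)),
      (addCoord p q).map (· + t) = addCoord (p.map (· + t)) (q.map (· + t)) := by decide
  funext i; exact h _ _ _

theorem shift_shift (a b : Fin 6 → ZMod 3) (v : Pt) : shift a (shift b v) = shift (a + b) v := by
  funext i
  rcases hv : v i with _ | e <;> simp [shift, hv, add_comm, add_left_comm]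

/-- The sum of the three scalar multiples of a vector is zero. -/
theorem addPt_three (v : Pt) :
    addPt v (addPt (shift (fun _ => 1) v) (shift (fun _ => 2) v)) = zeroPt := by
  have h : ∀ a : Option (ZMod 3),
      addCoord a (addCoord (a.map (· + 1)) (a.map (· + 2))) = none := by decide
  funext i; exact h _

theorem wt_zeroPt : wt zeroPt = 0 := by decide

theorem wt_constPt (c : ZMod 3) : wt (constPt c) = 6 := by
  simp [wt, supp, constPt]

theorem three_coord : ∀ a b c : Option (ZMod 3),
    (addCoord a b = none → addCoord b c = addCoord c a) ∧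
    (addCoord b c = none → addCoord c a = addCoord a b) ∧
    (addCoord c a = none → addCoord a b = addCoord b c) := by decide

theorem exists_third : ∀ i j : Fin 6, i ≠ j → ∃ l, l ≠ i ∧ l ≠ j := by decide

/-- A set of vectors of even weight, closed under addition, containing the all-one vector and
invariant under the even permutations, either consists of constants or contains a vector of
weight two with coordinates in the prime field, or all the non-zero constants. -/
theorem span_cases (S : Set Pt) (hadd : ∀ v ∈ S, ∀ w ∈ S, addPt v w ∈ S)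
    (heven : ∀ v ∈ S, Even (wt v)) (h1 : constPt 0 ∈ S)
    (hperm : ∀ σ ∈ alternatingGroup (Fin 6), ∀ v ∈ S, (fun i => v (σ⁻¹ i)) ∈ S)
    (hne : ∃ v ∈ S, ∃ i j, v i ≠ v j) :
    (∃ v ∈ S, wt v = 2 ∧ ∀ i, v i = none ∨ v i = some 0) ∨ ∀ c, constPt c ∈ S := by
  classical
  obtain ⟨v, hv, i, j, hij⟩ := hne
  have hij' : i ≠ j := fun h => hij (by rw [h])
  obtain ⟨l, hli, hlj⟩ := exists_third i j hij'
  set π : Equiv.Perm (Fin 6) := Equiv.swap i j * Equiv.swap j l
  have hπ : π ∈ alternatingGroup (Fin 6) := by
    simp [π, Equiv.Perm.mem_alternatingGroup, Equiv.Perm.sign_swap hij', Equiv.Perm.sign_swap hlj.symm]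
  set w : Pt := addPt v (fun k => v (π⁻¹ k)) with hwdef
  have hw : w ∈ S := hadd _ hv _ (hperm π hπ v hv)
  have hπi : π⁻¹ i = l := by
    rw [Equiv.Perm.inv_def, Equiv.symm_apply_eq]
    simp [π]
  have hπj : π⁻¹ j = i := by
    rw [Equiv.Perm.inv_def, Equiv.symm_apply_eq]
    simp [π, Equiv.swap_apply_of_ne_of_ne, hij', hli.symm]
  have hπl : π⁻¹ l = j := by
    rw [Equiv.Perm.inv_def, Equiv.symm_apply_eq]
    simp [π, Equiv.swap_apply_of_ne_of_ne, hlj, hli]
  have hwi : w i = addCoord (v l) (v i) := by
    show addCoord (v i) (v (π⁻¹ i)) = _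
    rw [hπi]; exact congrFun (addPt_comm (fun _ => v i) (fun _ => v l)) i
  have hwj : w j = addCoord (v i) (v j) := by
    show addCoord (v j) (v (π⁻¹ j)) = _
    rw [hπj]; exact congrFun (addPt_comm (fun _ => v j) (fun _ => v i)) i
  have hwl : w l = addCoord (v j) (v l) := by
    show addCoord (v l) (v (π⁻¹ l)) = _
    rw [hπl]; exact congrFun (addPt_comm (fun _ => v l) (fun _ => v j)) i
  have hother : ∀ k, k ≠ i → k ≠ j → k ≠ l → w k = none := by
    intro k h1 h2 h3
    have : π⁻¹ k = k := by
      rw [Equiv.Perm.inv_def, Equiv.symm_apply_eq]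
      simp [π, Equiv.swap_apply_of_ne_of_ne, h1, h2, h3]
    show addCoord (v k) (v (π⁻¹ k)) = none
    rw [this]; exact congrFun (addPt_self v) k
  have hsub : supp w ⊆ {i, j, l} := by
    intro k hk
    rw [mem_supp] at hk
    simp only [Finset.mem_insert, Finset.mem_singleton]
    by_contra hc
    push Not at hc
    exact hk (hother k hc.1 hc.2.1 hc.2.2)
  have hwtj : w j ≠ none := by
    rw [hwj]
    intro h
    have : ∀ a b : Option (ZMod 3), addCoord a b = none → a = b := by decide
    exact hij (this _ _ h)
  have hwt : wt w = 2 := by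
    have h3 : wt w ≤ 3 := (Finset.card_le_card hsub).trans Finset.card_le_three
    have h0 : wt w ≠ 0 := fun h => by
      rw [wt, Finset.card_eq_zero] at h
      exact hwtj (by simpa [mem_supp, h] using (mem_supp (v := w) (i := j)).not)
    obtain ⟨r, hr⟩ := heven w hw
    omega
  obtain ⟨c, hc⟩ := Option.ne_none_iff_exists'.1 hwtj
  -- the two non-zero coordinates are equal
  have hval : ∀ k, w k = none ∨ w k = some c := by
    intro k
    by_cases hki : k = i
    · subst hki
      rcases hwk : w k with _ | d
      · exact Or.inl rfl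
      refine Or.inr ?_
      have hl0 : w l = none := by
        by_contra hl
        have h3 : ({k, j, l} : Finset (Fin 6)) ⊆ supp w := by
          intro t ht
          simp only [Finset.mem_insert, Finset.mem_singleton] at ht
          rw [mem_supp]
          rcases ht with rfl | rfl | rfl
          · rw [hwk]; simp
          · exact hwtj
          · exact hl
        have := Finset.card_le_card h3
        rw [Finset.card_eq_three.2 ⟨k, j, l, hij', hli.symm, hlj.symm, rfl⟩, ← wt, hwt] at this
        omega
      rw [hwl] at hl0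
      rw [← hc, ← hwk, hwi, hwj]
      exact (three_coord _ _ _).2.1 hl0
    by_cases hkj : k = j
    · exact Or.inr (hkj ▸ hc)
    by_cases hkl : k = l
    · subst hkl
      rcases hwk : w k with _ | d
      · exact Or.inl rfl
      refine Or.inr ?_
      have hi0 : w i = none := by
        by_contra hi
        have h3 : ({i, j, k} : Finset (Fin 6)) ⊆ supp w := by
          intro t ht
          simp only [Finset.mem_insert, Finset.mem_singleton] at ht
          rw [mem_supp]
          rcases ht with rfl | rfl | rfl
          · exact hi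
          · exact hwtj
          · rw [hwk]; simp
        have := Finset.card_le_card h3
        rw [Finset.card_eq_three.2 ⟨i, j, k, hij', hli.symm, hlj.symm, rfl⟩, ← wt, hwt] at this
        omega
      rw [hwi] at hi0
      rw [← hc, ← hwk, hwj, hwl]
      exact ((three_coord _ _ _).2.2 hi0).symm
    · exact Or.inl (hother k hki hkj hkl)
  by_cases hc0 : c = 0
  · subst hc0
    exact Or.inl ⟨w, hw, hwt, hval⟩
  right
  -- the pair vector for every pair
  have hpair : ∀ p q : Fin 6, p ≠ q →
      (fun k => if k = p ∨ k = q then some c else none) ∈ S := by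
    intro p q hpq
    obtain ⟨σ, hσ, hσw⟩ := exists_even_perm (S := supp w) (T := {p, q})
      (by rw [Finset.card_pair hpq, ← wt, hwt]) (by rw [← wt, hwt])
    have e : (fun k => if k = p ∨ k = q then some c else none) = fun k => w (σ⁻¹ k) := by
      funext k
      have hk : k ∈ ({p, q} : Finset (Fin 6)) ↔ w (σ⁻¹ k) ≠ none := by
        rw [← hσw, Finset.mem_image, ← mem_supp]
        refine ⟨?_, fun h => ⟨_, h, by simp⟩⟩
        rintro ⟨t, ht, rfl⟩
        simpa using ht
      simp only [Finset.mem_insert, Finset.mem_singleton] at hk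
      rcases hval (σ⁻¹ k) with h | h
      · rw [h] at hk ⊢
        rw [if_neg]
        simpa using hk
      · rw [h] at hk ⊢
        rw [if_pos]
        simpa using hk
    rw [e]
    exact hperm σ hσ w hw
  have hcc : constPt c ∈ S := by
    have := hadd _ (hadd _ (hpair 0 1 (by decide)) _ (hpair 2 3 (by decide))) _
      (hpair 4 5 (by decide))
    convert this using 1
    funext k
    fin_cases k <;> simp [addPt, addCoord, constPt]
  intro d
  have h3 : ∀ a b : ZMod 3, a ≠ 0 → b = 0 ∨ b = a ∨ some b = addCoord (some a) (some 0) := by decide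
  rcases h3 c d hc0 with rfl | rfl | h
  · exact h1
  · exact hcc
  · have := hadd _ hcc _ h1
    convert this using 1
    funext k
    exact h

/-- The translated version: invariance under monomial maps fixing a vector of weight six. -/
theorem span_cases_shift (e : Fin 6 → ZMod 3) (S : Set Pt) (hadd : ∀ v ∈ S, ∀ w ∈ S, addPt v w ∈ S)
    (heven : ∀ v ∈ S, Even (wt v)) (h0 : (fun i => some (e i)) ∈ S)
    (hperm : ∀ σ ∈ alternatingGroup (Fin 6), ∃ f : Pt → Pt, (∀ v ∈ S, f v ∈ S) ∧
      f (fun i => some (e i)) = (fun i => some (e i)) ∧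
      ∃ a : Fin 6 → ZMod 3, ∀ (v : Pt) (i : Fin 6), f v (σ i) = (v i).map (· + a i))
    (hne : ∃ v ∈ S, v ≠ zeroPt ∧ ∀ c, v ≠ fun i => some (e i + c)) :
    (∃ v ∈ S, wt v = 2 ∧ wt (addPt v (fun i => some (e i))) = 4) ∨
      ∀ c, (fun i => some (e i + c)) ∈ S := by
  set T : Set Pt := {u | shift e u ∈ S}
  have he : ∀ c, shift e (constPt c) = fun i => some (e i + c) := by
    intro c; funext i; simp [shift, constPt, add_comm]
  have he0 : shift e (constPt 0) = fun i => some (e i) := by rw [he]; simp
  have hback : ∀ v, shift e (shift (-e) v) = v := fun v => by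
    rw [shift_shift, add_neg_cancel, shift_zero]
  have hTperm : ∀ σ ∈ alternatingGroup (Fin 6), ∀ v ∈ T, (fun i => v (σ⁻¹ i)) ∈ T := by
    intro σ hσ u hu
    obtain ⟨f, hfS, hfe, a, hfa⟩ := hperm σ hσ
    show shift e (fun i => u (σ⁻¹ i)) ∈ S
    convert hfS _ hu using 1
    funext k
    obtain ⟨i, rfl⟩ := σ.surjective k
    rw [hfa]
    have ha := hfa (fun j => some (e j)) i
    rw [hfe] at ha
    simp only [Option.map_some, Option.some.injEq] at ha
    rcases hui : u i with _ | t <;> simp [shift, hui, ha, add_assoc]
  have hTne : ∃ v ∈ T, ∃ i j, v i ≠ v j := by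
    obtain ⟨v, hv, hv0, hvc⟩ := hne
    refine ⟨shift (-e) v, by show shift e _ ∈ S; rwa [hback], ?_⟩
    by_contra hcon
    push Not at hcon
    rcases hd : shift (-e) v 0 with _ | c
    · apply hv0
      rw [← hback v, show shift (-e) v = zeroPt from funext fun i => (hcon i 0).trans hd]
      funext i; simp [shift, zeroPt]
    · apply hvc c
      rw [← hback v, show shift (-e) v = constPt c from funext fun i => (hcon i 0).trans hd, he]
  rcases span_cases T (fun v hv w hw => by
      show shift e (addPt v w) ∈ S
      rw [shift_addPt]; exact hadd _ hv _ hw)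
      (fun v hv => wt_shift e v ▸ heven _ hv) (by show shift e _ ∈ S; rwa [he0]) hTperm hTne with
    ⟨u, hu, hu2, huv⟩ | h
  · refine Or.inl ⟨shift e u, hu, by rw [wt_shift, hu2], ?_⟩
    rw [← he0, ← shift_addPt, wt_shift]
    have hs : supp (addPt u (constPt 0)) = (supp u)ᶜ := by
      ext i
      rw [Finset.mem_compl, mem_supp, mem_supp]
      rcases huv i with h | h <;> simp [addPt, addCoord, constPt, h]
    rw [wt, hs, Finset.card_compl, ← wt, hu2, Fintype.card_fin]
  · exact Or.inr fun c => he c ▸ h c

end CfsgLib.LargeFischer
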