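import Cfsg.Agent.Lib.LargeFischer.WeightSpaces
import Cfsg.Agent.Lib.LargeFischer.Orbits

/-!
A faithful orthogonal module of order `2^12` for a central extension of `PSU₄(3)` by three: the six weight
spaces of the preimage of `3^4`, giving coordinates in which that preimage is the translations of
determinant one and the lifts of `A₆` permute the coordinates evenly.
-/

set_option autoImplicit false
set_option linter.unusedSectionVars false
set_option linter.style.haveILetI false

namespace CfsgLib.LargeFischer.Six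

open CfsgLib.SchurMult.U43 CfsgLib.SchurMult.U43.Three Weights Orbits

/-- The polar form of a map to the field with two elements. -/
def polar2 {V : Type*} [Add V] (q : V → ZMod 2) (u v : V) : ZMod 2 := q (u + v) + q u + q v

/-- The module. -/
structure Mod {Γ V : Type*} [Group Γ] [AddCommGroup V] [DistribMulAction Γ V] (σ : Γ →* G0) (x : Γ)
    (q : V → ZMod 2) : Prop where
  cover : Cover σ x
  faithful : ∀ γ : Γ, (∀ v : V, γ • v = v) → γ = 1
  two : ∀ v : V, v + v = 0
  card : Nat.card V = 4096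
  qinv : ∀ (γ : Γ) (v : V), q (γ • v) = q v
  badd : ∀ u v w : V, polar2 q (u + v) w = polar2 q u w + polar2 q v w
  nondeg : ∀ v : V, (∀ w, polar2 q v w = 0) → v = 0

theorem alt_six_range {θ : A6 →* Equiv.Perm (Fin 6)} (h : Function.Injective θ) :
    θ.range = alternatingGroup (Fin 6) := by
  refine Equiv.Perm.eq_alternatingGroup_of_index_eq_two ?_
  have hc := Subgroup.card_mul_index θ.range
  rw [← Nat.card_congr (MonoidHom.ofInjective h).toEquiv, nat_card_alternatingGroup, Nat.card_perm,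
    Nat.card_fin] at hc
  simp [Nat.factorial] at hc ⊢
  omega

theorem card_A6 : Nat.card A6 = 360 := by
  rw [nat_card_alternatingGroup, Nat.card_fin]
  rfl

theorem fact_ge : ∀ n : ℕ, n ≤ 6 → 360 ≤ n.factorial → n = 6 := by decide

theorem cubes_one : ∀ k : ZMod 3, k * (k * k) = 1 → k = 1 := by decide

theorem pi_facts : ∃ π : A6, π ^ 3 = 1 ∧ π.1 2 = 2 ∧ π.1 0 = 1 :=
  ⟨⟨Equiv.swap 0 1 * Equiv.swap 1 3, Equiv.Perm.mem_alternatingGroup.2 (by decide)⟩, by decide +kernel,
    by decide, by decide⟩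

theorem map_inj_of_card {α β : Type*} [Finite α] [Finite β] {f : α → β} (hf : Function.Injective f)
    (h : Nat.card β ≤ Nat.card α) : Function.Bijective f :=
  hf.bijective_of_nat_card_le h

theorem zmod3_pair : ∀ a b : ZMod 3, (a ≠ 0 ∨ b ≠ 0) →
    (a ≠ 0 ∧ b = 0) ∨ (a = 0 ∧ b ≠ 0) ∨ (a ≠ 0 ∧ b = a) ∨ (a ≠ 0 ∧ b = -a) := by
  decide

theorem exists_even_to_aux : ∀ i j : Fin 6, ∃ π : A6, π.1 i = j := by decide +kernel

theorem exists_even_to (i j : Fin 6) : ∃ g ∈ alternatingGroup (Fin 6), g i = j :=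
  let ⟨π, h⟩ := exists_even_to_aux i j
  ⟨π.1, π.2, h⟩

theorem even_move : ∀ i j : Fin 6, i ≠ j → ∃ π : A6, π.1 i = 0 ∧ π.1 j = 1 := by decide +kernel

/-- An invariant space of order `3^5` contains the vectors of sum zero. -/
theorem sum_zero_mem (T : AddSubgroup (Fin 6 → ZMod 3)) (hc : Nat.card T = 243)
    (hinv : ∀ π ∈ alternatingGroup (Fin 6), ∀ t ∈ T, (fun i => t (π i)) ∈ T) {a : Fin 6 → ZMod 3}
    (ha : ∑ i, a i = 0) : a ∈ T := by
  classical
  have hsm : ∀ (k : ZMod 3) (v : Fin 6 → ZMod 3), v ∈ T → k • v ∈ T := fun k v hv => by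
    rw [← ZMod.natCast_zmod_val k, Nat.cast_smul_eq_nsmul]
    exact nsmul_mem hv _
  -- a nonzero vector of `T` on the first two coordinates
  obtain ⟨t, ht, htne, ht2⟩ : ∃ t ∈ T, t ≠ 0 ∧ ∀ i : Fin 4, t i.succ.succ = 0 := by
    by_contra hcon
    push Not at hcon
    have hinj : Function.Injective (fun (t : T) (i : Fin 4) => t.1 i.succ.succ) := fun t t' e => by
      by_contra hne
      obtain ⟨i, hi⟩ := hcon (t.1 - t'.1) (T.sub_mem t.2 t'.2) (sub_ne_zero.2 fun e' => hne (Subtype.ext e'))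
      exact hi (sub_eq_zero.2 (congrFun e i))
    have := Nat.card_le_card_of_injective _ hinj
    rw [hc, Nat.card_eq_fintype_card, Fintype.card_fun, ZMod.card, Fintype.card_fin] at this
    norm_num at this
  have hdec : t = t 0 • Pi.single 0 1 + t 1 • Pi.single 1 1 := funext fun k => by
    refine Fin.cases (by simp) (fun k => ?_) k
    refine Fin.cases (by simp) (fun k => ?_) k
    simp [ht2 k, Pi.single_apply]
    intro h
    exact absurd (congrArg Fin.val h) (by simp)
  have hpair : ∀ i j : Fin 6, i ≠ j → t 0 • (Pi.single i 1 : Fin 6 → ZMod 3) + t 1 • Pi.single j 1 ∈ T := by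
    intro i j hij
    obtain ⟨π, h0, h1⟩ := even_move i j hij
    convert hinv π.1 π.2 t ht using 1
    funext k
    conv_rhs => rw [hdec]
    simp only [Pi.add_apply, Pi.smul_apply, Pi.single_apply, ← h0, ← h1, π.1.injective.eq_iff]
  have hnefull : ∃ i : Fin 6, (Pi.single i 1 : Fin 6 → ZMod 3) ∉ T := by
    by_contra hall
    push Not at hall
    have : T = ⊤ := eq_top_iff.2 fun v _ => by
      rw [← Finset.univ_sum_single v]
      exact AddSubgroup.sum_mem _ fun i _ => by
        rw [show (Pi.single i (v i) : Fin 6 → ZMod 3) = v i • Pi.single i 1 by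
          rw [← Pi.single_smul, smul_eq_mul, mul_one]]
        exact hsm _ _ (hall i)
    rw [this, AddSubgroup.card_top, Nat.card_eq_fintype_card, Fintype.card_fun, ZMod.card, Fintype.card_fin] at hc
    norm_num at hc
  obtain ⟨m, hm⟩ := hnefull
  obtain ⟨m', hm'⟩ := exists_ne m
  have hdiff : ∀ i j : Fin 6, i ≠ j → (Pi.single i 1 : Fin 6 → ZMod 3) - Pi.single j 1 ∈ T := by
    have hne0 : t 0 ≠ 0 ∨ t 1 ≠ 0 := by
      by_contra hcon
      push Not at hcon
      exact htne (by rw [hdec, hcon.1, hcon.2]; simp)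
    rcases zmod3_pair _ _ hne0 with ⟨h0, h1⟩ | ⟨h0, h1⟩ | ⟨h0, h1⟩ | ⟨h0, h1⟩
    · exfalso
      have := hsm (t 0)⁻¹ _ (hpair m m' hm'.symm)
      rw [h1, zero_smul, add_zero, smul_smul, inv_mul_cancel₀ h0, one_smul] at this
      exact hm this
    · exfalso
      have := hsm (t 1)⁻¹ _ (hpair m' m hm')
      rw [h0, zero_smul, zero_add, smul_smul, inv_mul_cancel₀ h1, one_smul] at this
      exact hm this
    · exfalso
      have hsum : ∀ i j : Fin 6, i ≠ j → (Pi.single i 1 : Fin 6 → ZMod 3) + Pi.single j 1 ∈ T := fun i j hij => by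
        have := hsm (t 0)⁻¹ _ (hpair i j hij)
        rwa [h1, ← smul_add, smul_smul, inv_mul_cancel₀ h0, one_smul] at this
      obtain ⟨m'', h1', h2'⟩ := (by decide : ∀ a b : Fin 6, ∃ c, c ≠ a ∧ c ≠ b) m m'
      have h2m : (Pi.single m 1 : Fin 6 → ZMod 3) + Pi.single m 1 ∈ T := by
        have := T.sub_mem (T.add_mem (hsum m m' hm'.symm) (hsum m m'' h1'.symm)) (hsum m' m'' h2'.symm)
        convert this using 1
        abel
      refine hm ?_
      have := T.add_mem h2m h2m
      convert this using 1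
      funext k
      simp only [Pi.add_apply]
      exact (by decide : ∀ e : ZMod 3, e = e + e + (e + e)) _
    · intro i j hij
      have := hsm (t 0)⁻¹ _ (hpair i j hij)
      rwa [h1, neg_smul, ← sub_eq_add_neg, ← smul_sub, smul_smul, inv_mul_cancel₀ h0, one_smul] at this
  have e : a = ∑ i, a i • ((Pi.single i 1 : Fin 6 → ZMod 3) - Pi.single 0 1) := by
    simp only [smul_sub, Finset.sum_sub_distrib, ← Finset.sum_smul, ha, zero_smul, sub_zero]
    conv_lhs => rw [← Finset.univ_sum_single a]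
    exact Finset.sum_congr rfl fun i _ => by rw [← Pi.single_smul, smul_eq_mul, mul_one]
  rw [e]
  refine AddSubgroup.sum_mem _ fun i _ => hsm _ _ ?_
  by_cases hi : i = 0
  · rw [hi, sub_self]; exact T.zero_mem
  · exact hdiff i 0 hi

variable {Γ V : Type*} [Group Γ] [AddCommGroup V] [Finite V] [DistribMulAction Γ V] {σ : Γ →* G0} {x : Γ}
  {q : V → ZMod 2}

namespace Mod

variable (m : Mod σ x q)
include m

theorem q_zero : q 0 = 0 := by
  have h : polar2 q (0 : V) 0 = 0 := by
    have := m.badd 0 0 0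
    rw [add_zero] at this
    simpa using this
  rw [polar2, add_zero] at h
  revert h
  generalize q 0 = a
  revert a
  decide

theorem polar_self (v : V) : polar2 q v v = 0 := by
  rw [polar2, m.two, m.q_zero, zero_add]
  exact (by decide : ∀ a : ZMod 2, a + a = 0) _

omit m in
theorem polar_comm (u v : V) : polar2 q u v = polar2 q v u := by
  rw [polar2, polar2, add_comm u v]; ring

theorem polar_smul (γ : Γ) (u v : V) : polar2 q (γ • u) (γ • v) = polar2 q u v := by
  rw [polar2, polar2, ← smul_add, m.qinv, m.qinv, m.qinv]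

theorem polar_zero (u : V) : polar2 q u 0 = 0 := by
  rw [polar2, add_zero, m.q_zero, add_zero]
  exact (by decide : ∀ a : ZMod 2, a + a = 0) _

theorem polar_add_right (u v w : V) : polar2 q u (v + w) = polar2 q u v + polar2 q u w := by
  rw [polar_comm, m.badd, polar_comm v, polar_comm w]

theorem polar_sum {ι : Type*} (u : V) (s : Finset ι) (f : ι → V) :
    polar2 q u (∑ i ∈ s, f i) = ∑ i ∈ s, polar2 q u (f i) :=
  map_sum (AddMonoidHom.mk' (polar2 q u) (m.polar_add_right u)) f s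

theorem q_sum {ι : Type*} [DecidableEq ι] (s : Finset ι) (f : ι → V)
    (h : ∀ i ∈ s, ∀ j ∈ s, i ≠ j → polar2 q (f i) (f j) = 0) : q (∑ i ∈ s, f i) = ∑ i ∈ s, q (f i) := by
  induction s using Finset.induction_on with
  | empty => simp [m.q_zero]
  | insert a s ha ih =>
    rw [Finset.sum_insert ha, Finset.sum_insert ha,
      ← ih fun i hi j hj => h i (Finset.mem_insert_of_mem hi) j (Finset.mem_insert_of_mem hj)]
    have hp : polar2 q (f a) (∑ i ∈ s, f i) = 0 := by
      rw [m.polar_sum]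
      exact Finset.sum_eq_zero fun i hi => h a (Finset.mem_insert_self a s) i (Finset.mem_insert_of_mem hi)
        fun e => ha (e ▸ hi)
    rw [polar2] at hp
    revert hp
    generalize q (f a + ∑ i ∈ s, f i) = A
    generalize q (f a) = B
    generalize q (∑ i ∈ s, f i) = C
    revert A B C
    decide

/-- The weight spaces are orthogonal. -/
theorem polar_other (φ : Multiplicative U5 →* Γ) (h2 : ∀ v : V, v + v = 0) {c d : Rep} (h : c ≠ d) {v w : V}
    (hv : v ∈ Vc φ c.1) (hw : w ∈ Vc φ d.1) : polar2 q v w = 0 := by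
  have e1 : pk φ c.1 v = v := pk_fixed h2 (rep_ne_zero c) hv.1
  have e2 : pk φ c.1 w = 0 := pk_other h2 (Ne.symm h) hw
  have e3 : polar2 q (pk φ c.1 v) w = polar2 q v (pk φ c.1 w) := by
    rw [polar_comm, pk, m.polar_sum, pk, m.polar_sum]
    refine Finset.sum_equiv (Equiv.neg U5) (fun u => ?_) fun u _ => ?_
    · rw [mem_Zk, mem_Zk, Equiv.neg_apply, dot5_neg, neg_eq_zero]
    · rw [Equiv.neg_apply, polar_comm, act, act]
      conv_rhs => rw [← m.polar_smul (φ (Multiplicative.ofAdd u))]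
      rw [← mul_smul, ← map_mul, ← ofAdd_add, add_neg_cancel, ofAdd_zero, map_one, one_smul]
  rw [← e1, e3, e2, m.polar_zero]

/-- **The coordinates.** -/
theorem exists_frame [Finite Γ] : ∃ Φ : Pt ≃ V,
    (∀ a : Fin 6 → ZMod 3, ∑ i, a i = 0 → ∃ γ : Γ, ∀ v, γ • Φ v = Φ (shift a v)) ∧
    (∀ π ∈ alternatingGroup (Fin 6), ∃ γ : Γ, ∀ v, supp (Φ.symm (γ • Φ v)) = (supp v).image π) ∧
    (∀ v, q (Φ v) = (wt v : ZMod 2)) ∧
    (∀ v, x • Φ v = Φ (shift (fun _ => 1) v)) := by
  classical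
  obtain ⟨φ, hφ, hφx, hφdd, hφconj⟩ := m.cover.exists_param
  have h2 := m.two
  have hab : ∀ {u v : U5}, φ (Multiplicative.ofAdd u) = φ (Multiplicative.ofAdd v) → u = v :=
    fun {u v} h => Multiplicative.ofAdd.injective (hφ h)
  obtain ⟨P, hP⟩ : ∃ P : Finset Rep, P = (Set.toFinite (weights φ (V := V))).toFinset := ⟨_, rfl⟩
  have hmemP : ∀ {c : Rep}, c ∈ P ↔ c ∈ weights φ (V := V) := fun {c} => by rw [hP, Set.Finite.mem_toFinset]
  have hwit : ∀ c ∈ P, ∃ v, v ∈ Vc φ (V := V) c.1 ∧ v ≠ 0 := by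
    intro c hc
    by_contra hcon
    push Not at hcon
    exact hmemP.1 hc ((AddSubgroup.eq_bot_iff_forall _).2 hcon)
  have h4 : ∀ c ∈ P, 4 ≤ Nat.card (Vc φ (V := V) c.1) := fun c hc => by
    obtain ⟨v, hv, hv0⟩ := hwit c hc
    exact four_le h2 hv hv0
  have hcnt : Nat.card (Fix0 φ (V := V)) * ∏ c ∈ P, Nat.card (Vc φ (V := V) c.1) ≤ 4096 := by
    rw [hP, ← m.card]; exact count h2
  have hF1 : 1 ≤ Nat.card (Fix0 φ (V := V)) := Nat.one_le_iff_ne_zero.2 Nat.card_pos.ne'
  have hP6 : P.card ≤ 6 := by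
    by_contra hlt
    have h1 : 4 ^ P.card ≤ ∏ c ∈ P, Nat.card (Vc φ (V := V) c.1) := Finset.pow_card_le_prod _ _ _ h4
    have h7 : 4 ^ 7 ≤ 4 ^ P.card := Nat.pow_le_pow_right (by norm_num) (by omega)
    have h3 := Nat.mul_le_mul hF1 h1
    omega
  have hdecomp : ∀ v : V, pall φ v + ∑ c ∈ P, eps φ c.1 v = v := fun v => by
    rw [Finset.sum_subset (Finset.subset_univ P) fun c _ hc => eps_eq_zero h2 (fun h => hc (hmemP.2 h)) v]
    exact decomp h2 v
  -- conjugation by a lift
  have hconj : ∀ (π : A6) (A : Γ), σ A = aa π → ∃ α : U5 ≃+ U5,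
      (∀ u, A * φ (Multiplicative.ofAdd u) * A⁻¹ = φ (Multiplicative.ofAdd (α u))) ∧
      ∀ (u : U5) (v : V), act φ (α u) (A • v) = A • act φ u v := by
    intro π A hA
    choose f hf using fun u : U5 => hφconj π A hA (φ (Multiplicative.ofAdd u)) ⟨_, rfl⟩
    obtain ⟨α0, hα⟩ : ∃ α : U5 →+ U5, ∀ u, φ (Multiplicative.ofAdd (α u)) =
        A * φ (Multiplicative.ofAdd u) * A⁻¹ :=
      ⟨AddMonoidHom.mk' (fun u => (f u).toAdd) (fun u v => by
        apply hab
        rw [ofAdd_add, map_mul, ofAdd_toAdd, ofAdd_toAdd, ofAdd_toAdd, hf, hf, hf, ofAdd_add, map_mul]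
        group), fun u => by rw [AddMonoidHom.mk'_apply, ofAdd_toAdd, hf]⟩
    have hinj : Function.Injective α0 := fun u v e => by
      apply hab
      have := hα u
      rw [e, hα] at this
      exact mul_left_cancel (mul_right_cancel this).symm
    obtain ⟨α, hαe⟩ : ∃ α : U5 ≃+ U5, ∀ u, α u = α0 u :=
      ⟨AddEquiv.ofBijective α0 ⟨hinj, (Finite.injective_iff_surjective).1 hinj⟩, fun _ => rfl⟩
    refine ⟨α, fun u => by rw [hαe]; exact (hα u).symm, fun u v => ?_⟩
    rw [act, act, hαe, hα, ← mul_smul, inv_mul_cancel_right, mul_smul]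
  -- the weight spaces are permuted
  have hmap : ∀ (π : A6) (A : Γ), σ A = aa π → ∀ c ∈ P, ∃ d ∈ P, ∀ v ∈ Vc φ (V := V) c.1,
      A • v ∈ Vc φ (V := V) d.1 := by
    intro π A hA c hc
    obtain ⟨α, -, hαa⟩ := hconj π A hA
    obtain ⟨L, hL⟩ : ∃ L : U5 →+ ZMod 3, ∀ u, L u = dot5 c.1 (α.symm u) :=
      ⟨(dotHom c.1).comp α.symm.toAddMonoidHom, fun _ => rfl⟩
    obtain ⟨e, he⟩ : ∃ e : U5, ∀ u, dot5 e u = L u := by
      refine ⟨fun i => L (Pi.single i 1), fun u => ?_⟩
      conv_rhs => rw [← Finset.univ_sum_single u, map_sum]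
      refine Finset.sum_congr rfl fun i _ => ?_
      rw [show (Pi.single i (u i) : U5) = u i • Pi.single i 1 by rw [← Pi.single_smul, smul_eq_mul, mul_one],
        ZMod.map_smul, smul_eq_mul, mul_comm]
    have he0 : e ≠ 0 := fun h => by
      obtain ⟨u, hu⟩ := exists_dot_one c
      have := he (α u)
      rw [hL, α.symm_apply_apply, hu, h] at this
      simp [dot5] at this
    obtain ⟨k, hk, hrep⟩ := exists_rep_smul e he0
    have hz : ∀ u, dot5 (k • e) u = 0 ↔ dot5 c.1 (α.symm u) = 0 := fun u => by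
      rw [smul_dot5, he, hL, mul_eq_zero, or_iff_right hk]
    have hin : ∀ v ∈ Vc φ (V := V) c.1, A • v ∈ Vc φ (V := V) (k • e) := by
      intro v hv
      refine ⟨fun u hu => ?_, ?_⟩
      · have := hαa (α.symm u) v
        rw [α.apply_symm_apply] at this
        rw [this, hv.1 _ ((hz u).1 hu)]
      · have e1 : pall φ (A • v) = A • pall φ v := by
          rw [pall, pall, Finset.smul_sum]
          exact (Fintype.sum_equiv α.toEquiv _ _ fun u => (hαa u v).symm).symm
        rw [e1, hv.2, smul_zero]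
    refine ⟨⟨k • e, hrep⟩, hmemP.2 ?_, hin⟩
    obtain ⟨v, hv, hv0⟩ := hwit c hc
    intro hbot
    refine hv0 ?_
    have := hin v hv
    rw [show Vc φ (V := V) (k • e) = ⊥ from hbot, AddSubgroup.mem_bot, smul_eq_zero_iff_eq] at this
    exact this
  obtain ⟨lift, hlift⟩ : ∃ lift : A6 → Γ, ∀ π, σ (lift π) = aa π :=
    ⟨fun π => (m.cover.surj (aa π)).choose, fun π => (m.cover.surj (aa π)).choose_spec⟩
  have hmap' : ∀ (π : A6) (c : {c // c ∈ P}), ∃ d : {c // c ∈ P}, ∀ v ∈ Vc φ (V := V) c.1.1,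
      lift π • v ∈ Vc φ (V := V) d.1.1 := fun π c => by
    obtain ⟨d, hd, h⟩ := hmap π (lift π) (hlift π) c.1 c.2
    exact ⟨⟨d, hd⟩, h⟩
  choose p hp using hmap'
  have huniq : ∀ (γ : Γ) (c : {c // c ∈ P}) (d d' : {c // c ∈ P}),
      (∀ v ∈ Vc φ (V := V) c.1.1, γ • v ∈ Vc φ (V := V) d.1.1) →
      (∀ v ∈ Vc φ (V := V) c.1.1, γ • v ∈ Vc φ (V := V) d'.1.1) → d = d' := by
    intro γ c d d' h h'
    obtain ⟨v, hv, hv0⟩ := hwit c.1 c.2
    exact Subtype.ext (eq_of_mem_Vc h2 (fun e => hv0 ((smul_eq_zero_iff_eq γ).1 e)) (h v hv) (h' v hv))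
  have hkerfix : ∀ z ∈ σ.ker, ∀ (c : Rep) (v : V), v ∈ Vc φ c.1 → z • v ∈ Vc φ c.1 := by
    intro z hz c v hv
    obtain ⟨u, rfl⟩ : z ∈ φ.range := hφdd 0 0 z (by rw [MonoidHom.mem_ker.1 hz, dd_self])
    exact act_mem_Vc hv u.toAdd
  have hp1 : ∀ c, p 1 c = c := fun c => huniq (lift 1) c _ _ (hp 1 c)
    (hkerfix _ (by rw [MonoidHom.mem_ker, hlift, map_one]) c.1)
  have hpmul : ∀ π π' c, p (π * π') c = p π (p π' c) := by
    intro π π' c
    refine huniq (lift (π * π')) c _ _ (hp _ c) fun v hv => ?_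
    obtain ⟨z, hz, e⟩ : ∃ z ∈ σ.ker, lift (π * π') = z * (lift π * lift π') :=
      ⟨lift (π * π') * (lift π * lift π')⁻¹,
        by rw [MonoidHom.mem_ker, map_mul, map_inv, map_mul, hlift, hlift, hlift, map_mul, mul_inv_cancel],
        (inv_mul_cancel_right _ _).symm⟩
    rw [e, mul_smul, mul_smul]
    exact hkerfix z hz _ _ (hp π _ _ (hp π' c v hv))
  have hbij : ∀ π, Function.Bijective (p π) := fun π => Function.bijective_iff_has_inverse.2 ⟨p π⁻¹,
    fun c => by rw [← hpmul, inv_mul_cancel, hp1], fun c => by rw [← hpmul, mul_inv_cancel, hp1]⟩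
  obtain ⟨θ, hθ⟩ : ∃ θ : A6 →* Equiv.Perm {c // c ∈ P}, ∀ π c, θ π c = p π c :=
    ⟨MonoidHom.mk' (fun π => Equiv.ofBijective (p π) (hbij π)) fun π π' => Equiv.ext fun c => hpmul π π' c,
      fun _ _ => rfl⟩
  haveI : IsSimpleGroup A6 := alternatingGroup.isSimpleGroup (by simp)
  -- the action on the weights is faithful
  have hθi : Function.Injective θ := by
    rw [← MonoidHom.ker_eq_bot_iff]
    refine (Subgroup.Normal.eq_bot_or_eq_top (H := θ.ker) inferInstance).resolve_right fun htop => ?_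
    have htriv : ∀ π c, p π c = c := fun π c => by
      rw [← hθ, show θ π = 1 from MonoidHom.mem_ker.1 (htop ▸ Subgroup.mem_top π), Equiv.Perm.one_apply]
    obtain ⟨π, hπ3, hπ2, hπ0⟩ := pi_facts
    obtain ⟨U, hU⟩ := m.cover.surj (dd 2 0)
    obtain ⟨u, hu⟩ := hφdd 2 0 U hU
    obtain ⟨α, hαφ, hαa⟩ := hconj π (lift π) (hlift π)
    refine dd_ne_one ?_
    have hA3 : ∀ w : U5, α (α (α w)) = w := fun w => hab (by
      rw [← hαφ, ← hαφ, ← hαφ]
      have hk : lift π ^ 3 ∈ σ.ker := by rw [MonoidHom.mem_ker, map_pow, hlift, ← map_pow, hπ3, map_one]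
      rw [show lift π * (lift π * (lift π * φ (Multiplicative.ofAdd w) * (lift π)⁻¹) * (lift π)⁻¹) * (lift π)⁻¹ =
        φ (Multiplicative.ofAdd w) * ((φ (Multiplicative.ofAdd w))⁻¹ * lift π ^ 3 * φ (Multiplicative.ofAdd w)) *
          (lift π ^ 3)⁻¹ by rw [pow_succ, pow_two]; group, mul_assoc (φ _)⁻¹, ← m.cover.kc hk, inv_mul_cancel_left,
        mul_assoc, mul_inv_cancel, mul_one])
    -- the commutator acts trivially
    have hsame : ∀ (c : Rep) (v : V), v ∈ Vc φ c.1 → act φ (α u.toAdd + -u.toAdd) v = v := by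
      intro c v hv
      by_cases hv0 : v = 0
      · rw [hv0, act_map_zero]
      have hcP : c ∈ P := hmemP.2 fun hbot => hv0 (by rwa [hbot, AddSubgroup.mem_bot] at hv)
      have hst : ∀ w, w ∈ Vc φ (V := V) c.1 → lift π • w ∈ Vc φ (V := V) c.1 := fun w hw => by
        have := hp π ⟨c, hcP⟩ w hw
        rwa [htriv] at this
      have hker : ∀ w, dot5 c.1 w = 0 → dot5 c.1 (α w) = 0 := fun w hw => by
        by_contra hne
        refine act_ne h2 (hst v hv) (fun e => hv0 ((smul_eq_zero_iff_eq _).1 e)) hne ?_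
        rw [hαa, hv.1 w hw]
      obtain ⟨u1, hu1⟩ := exists_dot_one c
      have hk : ∀ w, dot5 c.1 (α w) = dot5 c.1 w * dot5 c.1 (α u1) := fun w => by
        have h0 := hker (w + -(dot5 c.1 w • u1)) (by
          rw [dot5_add, dot5_neg, dot5_smul, hu1, mul_one, add_neg_cancel])
        rw [map_add, map_neg, ZMod.map_smul, dot5_add, dot5_neg, dot5_smul, add_neg_eq_zero] at h0
        exact h0
      obtain ⟨k, hkdef⟩ : ∃ k, k = dot5 c.1 (α u1) := ⟨_, rfl⟩
      have hk1 : k = 1 := by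
        refine cubes_one k ?_
        have h3 := congrArg (dot5 c.1) (hA3 u1)
        rw [hk, hk, hu1, ← hkdef] at h3
        linear_combination h3
      refine hv.1 _ ?_
      rw [dot5_add, dot5_neg, hk, ← hkdef, hk1, mul_one, add_neg_cancel]
    have hW : lift π * U * (lift π)⁻¹ * U⁻¹ = 1 := by
      rw [← hu, ← ofAdd_toAdd u, hαφ, ← map_inv, ← map_mul, ← ofAdd_neg, ← ofAdd_add]
      refine m.faithful _ fun v => ?_
      show act φ _ v = v
      conv_lhs => rw [← hdecomp v]
      conv_rhs => rw [← hdecomp v]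
      rw [act_vadd, act_pall, act_sum]
      congr 1
      exact Finset.sum_congr rfl fun c _ => hsame c _ (eps_mem h2 (rep_ne_zero c) v)
    have e := congrArg σ hW
    rwa [map_mul, map_mul, map_mul, map_inv, map_inv, hlift, hU, dd_conj, hπ2, hπ0, dd_inv, map_one,
      (dd_commute 2 1 0 2).eq, dd_mul] at e
  have hP6' : P.card = 6 := by
    refine fact_ge _ hP6 ?_
    have := Nat.card_le_card_of_injective θ hθi
    rwa [card_A6, Nat.card_eq_fintype_card, Fintype.card_perm, Fintype.card_coe] at this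
  have heq : Nat.card (Fix0 φ (V := V)) = 1 ∧ ∀ c ∈ P, Nat.card (Vc φ (V := V) c.1) = 4 := by
    have h1 : 4 ^ P.card ≤ ∏ c ∈ P, Nat.card (Vc φ (V := V) c.1) := Finset.pow_card_le_prod _ _ _ h4
    rw [hP6'] at h1
    norm_num at h1
    refine ⟨by nlinarith, fun c hc => ?_⟩
    by_contra hne
    have h5 : 5 ≤ Nat.card (Vc φ (V := V) c.1) := by have := h4 c hc; omega
    have h2' : 4 ^ (P.erase c).card ≤ ∏ d ∈ P.erase c, Nat.card (Vc φ (V := V) d.1) :=
      Finset.pow_card_le_prod _ _ _ fun d hd => h4 d (Finset.mem_of_mem_erase hd)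
    rw [Finset.card_erase_of_mem hc, hP6'] at h2'
    rw [← Finset.mul_prod_erase P _ hc] at hcnt
    have h3 := Nat.mul_le_mul hF1 (Nat.mul_le_mul h5 h2')
    norm_num at h3
    omega
  have hpall : ∀ v : V, pall φ v = 0 := fun v => by
    have hsub := (Nat.card_eq_one_iff_unique.1 heq.1).1
    exact congrArg Subtype.val (hsub.elim (⟨pall φ v, fun u => act_pall φ u v⟩ : Fix0 φ (V := V)) 0)
  -- the numbering
  obtain ⟨ix, hix⟩ : ∃ ix : Fin 6 ≃ {c // c ∈ P}, True :=
    ⟨(Finset.equivFinOfCardEq hP6').symm, trivial⟩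
  obtain ⟨θ', hθ'⟩ : ∃ θ' : A6 →* Equiv.Perm (Fin 6), ∀ π i, θ' π i = ix.symm (p π (ix i)) :=
    ⟨ix.symm.permCongrHom.toMonoidHom.comp θ, fun π i => by
      simp [Equiv.permCongrHom, Equiv.permCongr_apply, hθ]⟩
  have hθ'i : Function.Injective θ' := fun π π' e => hθi (Equiv.ext fun c => by
    have := congrArg (fun g : Equiv.Perm (Fin 6) => g (ix.symm c)) e
    simp only [hθ', Equiv.apply_symm_apply, EmbeddingLike.apply_eq_iff_eq] at this
    rw [hθ, hθ, this])
  have hrange := alt_six_range hθ'i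
  have hstep : ∀ π i (v : V), v ∈ Vc φ (ix i).1.1 → lift π • v ∈ Vc φ (ix (θ' π i)).1.1 := fun π i v hv => by
    rw [hθ', Equiv.apply_symm_apply]; exact hp π _ v hv
  -- `x` moves every weight space
  have hsum : ∀ v : V, ∑ i, eps φ (ix i).1.1 v = v := fun v => by
    have := hdecomp v
    rw [hpall, zero_add, ← Finset.sum_coe_sort] at this
    rwa [Fintype.sum_equiv ix _ (fun c : {c // c ∈ P} => eps φ c.1.1 v) fun i => rfl]
  have hnum : ∀ v w : V, (∀ i, eps φ (ix i).1.1 v = eps φ (ix i).1.1 w) → v = w := fun v w h => by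
    rw [← hsum v, ← hsum w]; exact Finset.sum_congr rfl fun i _ => h i
  obtain ⟨e0, he0⟩ : ∃ e0 : U5, e0 = Pi.single 0 1 := ⟨_, rfl⟩
  have hxact : ∀ v : V, act φ e0 v = x • v := fun v => by rw [he0, act, hφx]
  have hxne : ∀ i, dot5 (ix i).1.1 e0 ≠ 0 := by
    by_contra hcon
    push Not at hcon
    obtain ⟨i, hi⟩ := hcon
    refine m.cover.ne_one (m.faithful x fun v => hnum _ _ fun j => ?_)
    obtain ⟨g, hg, hgj⟩ : ∃ g ∈ alternatingGroup (Fin 6), g i = j :=
      exists_even_to i j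
    obtain ⟨π, rfl⟩ : g ∈ θ'.range := hrange ▸ hg
    have hfix : ∀ w, w ∈ Vc φ (V := V) (ix j).1.1 → x • w = w := by
      intro w hw
      obtain ⟨γ, hγ, e⟩ : ∃ γ : Γ, (∀ u, u ∈ Vc φ (V := V) (ix j).1.1 → γ • u ∈ Vc φ (V := V) (ix i).1.1) ∧
          γ * lift π = 1 := by
        refine ⟨(lift π)⁻¹, fun u hu => ?_, inv_mul_cancel _⟩
        have h' := hstep π⁻¹ j u hu
        rw [show θ' π⁻¹ j = i by rw [map_inv, ← hgj, Equiv.Perm.inv_def, Equiv.symm_apply_apply]] at h'
        obtain ⟨z, hz, e⟩ : ∃ z ∈ σ.ker, (lift π)⁻¹ = z * lift π⁻¹ :=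
          ⟨(lift π)⁻¹ * (lift π⁻¹)⁻¹, by
            rw [MonoidHom.mem_ker, map_mul, map_inv, map_inv, hlift, hlift, map_inv, mul_inv_cancel],
            (inv_mul_cancel_right _ _).symm⟩
        rw [e, mul_smul]
        exact hkerfix z hz _ _ h'
      have h1 : x • γ • w = γ • w := by rw [← hxact, (hγ w hw).1 e0 hi]
      rwa [← mul_smul, ← m.cover.xc γ, mul_smul, smul_left_cancel_iff] at h1
    have hz := eps_mem h2 (φ := φ) (rep_ne_zero (ix j).1) v
    have e1 : eps φ (ix j).1.1 (x • v) = x • eps φ (ix j).1.1 v := by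
      simp only [← hxact, eps, pk, pall, act_vadd, act_sum, act_comm φ e0]
    rw [e1, hfix _ hz]
  -- the translations
  obtain ⟨t, ht⟩ : ∃ t : U5 →+ (Fin 6 → ZMod 3), ∀ u i,
      t u i = (dot5 (ix i).1.1 e0)⁻¹ * dot5 (ix i).1.1 u :=
    ⟨AddMonoidHom.mk' (fun u i => (dot5 (ix i).1.1 e0)⁻¹ * dot5 (ix i).1.1 u)
      fun u v => funext fun i => by simp [dot5_add, mul_add], fun _ _ => rfl⟩
  have hte : ∀ i, t e0 i = 1 := fun i => by rw [ht, inv_mul_cancel₀ (hxne i)]
  have hw : ∀ (i : Fin 6) (u : U5) (v : V), v ∈ Vc φ (ix i).1.1 → act φ u v = act φ (t u i • e0) v := by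
    intro i u v hv
    rw [show u = t u i • e0 + (u + -(t u i • e0)) by abel, act_add]
    simp only [map_add, map_neg, Pi.add_apply, Pi.neg_apply, ZMod.map_smul, Pi.smul_apply, hte,
      smul_eq_mul, mul_one, add_neg_cancel, add_zero]
    congr 1
    refine hv.1 _ ?_
    rw [dot5_add, dot5_neg, dot5_smul, ht, mul_comm (dot5 (ix i).1.1 e0)⁻¹, mul_assoc,
      inv_mul_cancel₀ (hxne i), mul_one, add_neg_cancel]
  have hti : Function.Injective t := by
    refine (injective_iff_map_eq_zero t).2 fun u hu => hab ?_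
    rw [ofAdd_zero, map_one]
    refine m.faithful _ fun v => hnum _ _ fun i => ?_
    show eps φ _ (act φ u v) = _
    have e1 : eps φ (ix i).1.1 (act φ u v) = act φ u (eps φ (ix i).1.1 v) := by
      simp only [eps, pk, pall, act_vadd, act_sum, act_comm φ u]
    rw [e1, hw i u _ (eps_mem h2 (rep_ne_zero _) v), hu, Pi.zero_apply, zero_smul, act_zero]
  have hweq : ∀ (i : Fin 6) (a b : ZMod 3) (v : V), v ∈ Vc φ (ix i).1.1 → v ≠ 0 →
      act φ (a • e0) v = act φ (b • e0) v → a = b := by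
    intro i a b v hv hv0 e
    by_contra hne
    have hd : dot5 (ix i).1.1 ((a + -b) • e0) ≠ 0 := by
      rw [dot5_smul]
      refine mul_ne_zero (fun h => hne ?_) (hxne i)
      exact add_neg_eq_zero.1 h
    refine act_ne h2 hv hv0 hd ?_
    rw [add_comm, add_smul, act_add, e, ← act_add, ← add_smul, neg_add_cancel, zero_smul, act_zero]
  have htperm : ∀ π (α : U5 ≃+ U5), (∀ (u : U5) (v : V), act φ (α u) (lift π • v) = lift π • act φ u v) →
      ∀ u i, t (α u) (θ' π i) = t u i := by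
    intro π α hαa u i
    obtain ⟨v, hv, hv0⟩ := hwit (ix i).1 (ix i).2
    refine hweq (θ' π i) _ _ (lift π • v) (hstep π i v hv) (fun e => hv0 ((smul_eq_zero_iff_eq _).1 e)) ?_
    rw [← hw _ (α u) _ (hstep π i v hv), hαa, hw i u v hv]
    show lift π • φ (Multiplicative.ofAdd (t u i • e0)) • v = φ (Multiplicative.ofAdd (t u i • e0)) • lift π • v
    rw [← mul_smul, ← mul_smul]
    congr 1
    obtain ⟨n, hn⟩ : ∃ n : ℕ, t u i • e0 = n • e0 :=
      ⟨(t u i).val, by rw [← Nat.cast_smul_eq_nsmul (ZMod 3), ZMod.natCast_zmod_val]⟩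
    rw [hn, ofAdd_nsmul, map_pow, he0, hφx]
    exact ((show Commute (lift π) x from m.cover.xc _).pow_right n).eq
  have hcard : Nat.card t.range = 243 := by
    rw [← Nat.card_congr (AddMonoidHom.ofInjective hti).toEquiv, Nat.card_eq_fintype_card, Fintype.card_fun,
      ZMod.card, Fintype.card_fin]
    rfl
  have hinv : ∀ π ∈ alternatingGroup (Fin 6), ∀ w ∈ t.range, (fun i => w (π i)) ∈ t.range := by
    intro g hg w hw'
    obtain ⟨π, rfl⟩ : g ∈ θ'.range := hrange ▸ hg
    obtain ⟨u, rfl⟩ := hw'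
    obtain ⟨α, -, hαa⟩ := hconj π (lift π) (hlift π)
    exact ⟨α.symm u, funext fun i => by rw [← htperm π α hαa, α.apply_symm_apply]⟩
  -- the coordinates
  have hbase : ∀ i, ∃ a, a ∈ Vc φ (V := V) (ix i).1.1 ∧ a ≠ 0 := fun i => hwit (ix i).1 (ix i).2
  choose a ha ha0 using hbase
  obtain ⟨y, hy⟩ : ∃ y : Fin 6 → Option (ZMod 3) → V,
      ∀ i o, y i o = o.elim 0 fun e => act φ (e • e0) (a i) :=
    ⟨fun i o => o.elim 0 fun e => act φ (e • e0) (a i), fun _ _ => rfl⟩
  have hynone : ∀ i, y i none = 0 := fun i => hy i none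
  have hysome : ∀ i e, y i (some e) = act φ (e • e0) (a i) := fun i e => hy i (some e)
  have hymem : ∀ i o, y i o ∈ Vc φ (V := V) (ix i).1.1 := by
    intro i o
    cases o with
    | none => rw [hynone]; exact zero_mem _
    | some e => rw [hysome]; exact act_mem_Vc (ha i) _
  have hyne : ∀ i e, y i (some e) ≠ 0 := fun i e h => ha0 i (by
    rw [hysome] at h
    have := congrArg (act φ (-(e • e0))) h
    rwa [← act_add, neg_add_cancel, act_zero, act_map_zero] at this)
  have hybij : ∀ i, Function.Bijective fun o => (⟨y i o, hymem i o⟩ : Vc φ (V := V) (ix i).1.1) := by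
    intro i
    refine map_inj_of_card ?_ (by rw [heq.2 _ (ix i).2]; simp)
    intro o o' h
    have h' : y i o = y i o' := congrArg Subtype.val h
    rcases o with _ | e <;> rcases o' with _ | e'
    · rfl
    · exact absurd (h'.symm.trans (hynone i)) (hyne i e')
    · exact absurd (h'.trans (hynone i)) (hyne i e)
    · rw [hysome, hysome] at h'
      rw [hweq i e e' _ (ha i) (ha0 i) h']
  have hne_ix : ∀ {i j : Fin 6}, i ≠ j → (ix i).1 ≠ (ix j).1 := fun h e => h (ix.injective (Subtype.ext e))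
  have hcoord : ∀ (v : Pt) (j : Fin 6), eps φ (ix j).1.1 (∑ i, y i (v i)) = y j (v j) := by
    intro v j
    rw [show eps φ (ix j).1.1 (∑ i, y i (v i)) = ∑ i, eps φ (ix j).1.1 (y i (v i)) from
      map_sum (AddMonoidHom.mk' (eps φ (ix j).1.1) (eps_add φ _)) _ _,
      Finset.sum_eq_single j (fun i _ hij => eps_other h2 (hne_ix hij) (hymem i _))
        (fun h => absurd (Finset.mem_univ j) h), eps_self h2 (rep_ne_zero _) (hymem j _)]
  have hinjΦ : Function.Injective fun v : Pt => ∑ i, y i (v i) := fun v w h => funext fun j => by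
    have h1 := congrArg (eps φ (ix j).1.1) h
    simp only [hcoord] at h1
    exact (hybij j).1 (Subtype.ext h1)
  obtain ⟨Φ, hΦ⟩ : ∃ Φ : Pt ≃ V, ∀ v, Φ v = ∑ i, y i (v i) :=
    ⟨Equiv.ofBijective _ (map_inj_of_card hinjΦ (by rw [m.card]; simp)), fun _ => rfl⟩
  have hshift : ∀ (u : U5) (v : Pt), act φ u (Φ v) = Φ (shift (t u) v) := by
    intro u v
    rw [hΦ, hΦ, act_sum]
    refine Finset.sum_congr rfl fun i _ => ?_
    rw [hw i u _ (hymem i _)]
    rcases hv : v i with _ | e
    · simp [shift, hv, hynone, act_map_zero]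
    · simp only [shift, hv, Option.map_some, hysome]
      rw [← act_add, ← add_smul, add_comm]
  have hqy : ∀ i e, q (y i (some e)) = 1 := by
    intro i e
    obtain ⟨b, hb, hb'⟩ : ∃ b, b = x • a i ∧ b ∈ Vc φ (V := V) (ix i).1.1 :=
      ⟨_, rfl, by rw [← hxact]; exact act_mem_Vc (ha i) _⟩
    have hyq : q (y i (some e)) = q (a i) := by rw [hysome]; exact m.qinv _ _
    rw [hyq]
    obtain ⟨o, ho⟩ := (hybij i).2 ⟨a i + b, add_mem (ha i) hb'⟩
    have ho' : y i o = a i + b := congrArg Subtype.val ho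
    have hqs : q (a i + b) = q (a i) := by
      rcases o with _ | f
      · exfalso
        rw [hynone] at ho'
        have e2 : a i = b := add_eq_zero_iff_eq_neg.1 ho'.symm |>.trans (neg_eq_of_add_eq_zero_right (h2 b))
        refine act_ne h2 (ha i) (ha0 i) (hxne i) ?_
        rw [hxact, ← hb, ← e2]
      · rw [← ho', hysome]; exact m.qinv _ _
    have hqb : q b = q (a i) := by rw [hb, m.qinv]
    have hpp : polar2 q (a i) b = 1 := by
      by_contra hne
      have hp0 : polar2 q (a i) b = 0 := (by decide : ∀ z : ZMod 2, z ≠ 1 → z = 0) _ hne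
      refine ha0 i (m.nondeg _ fun w => ?_)
      rw [← hsum w, m.polar_sum]
      refine Finset.sum_eq_zero fun j _ => ?_
      have hwj := eps_mem h2 (φ := φ) (rep_ne_zero (ix j).1) w
      by_cases hji : j = i
      · subst hji
        obtain ⟨o', ho2⟩ := (hybij j).2 ⟨_, hwj⟩
        rw [← show y j o' = eps φ (ix j).1.1 w from congrArg Subtype.val ho2]
        rcases o' with _ | f
        · rw [hynone, m.polar_zero]
        · rw [hysome]
          rcases (by decide : ∀ k : ZMod 3, k = 0 ∨ k = 1 ∨ k = 2) f with rfl | rfl | rfl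
          · rw [zero_smul, act_zero, m.polar_self]
          · rw [one_smul, hxact, ← hb, hp0]
          · rw [two_smul, act_add, hxact, hxact]
            have e3 := m.polar_smul (x * x) (a j) b
            rw [hp0, mul_smul, hb, ← mul_smul x x, ← mul_smul (x * x), show x * x * x = 1 by
              rw [← pow_two, ← pow_succ]; exact m.cover.cube, one_smul, polar_comm] at e3
            rw [← mul_smul]
            exact e3
      · exact polar_other m φ h2 (hne_ix (Ne.symm hji)) (ha i) hwj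
    rw [polar2, hqs, hqb] at hpp
    revert hpp
    generalize q (a i) = z
    revert z
    decide
  refine ⟨Φ, fun b hb => ?_, fun g hg => ?_, fun v => ?_, fun v => ?_⟩
  · obtain ⟨u, rfl⟩ := sum_zero_mem t.range hcard hinv hb
    exact ⟨φ (Multiplicative.ofAdd u), fun v => hshift u v⟩
  · obtain ⟨π, rfl⟩ : g ∈ θ'.range := hrange ▸ hg
    refine ⟨lift π, fun v => ?_⟩
    have hex : ∀ i, ∃ o, y (θ' π i) o = lift π • y i (v i) := fun i => by
      obtain ⟨o, ho⟩ := (hybij (θ' π i)).2 ⟨_, hstep π i _ (hymem i (v i))⟩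
      exact ⟨o, congrArg Subtype.val ho⟩
    choose o ho using hex
    have he : Φ.symm (lift π • Φ v) = fun j => o ((θ' π).symm j) := by
      rw [Equiv.symm_apply_eq, hΦ, hΦ, Finset.smul_sum]
      refine Fintype.sum_equiv (θ' π) _ _ fun i => ?_
      rw [Equiv.symm_apply_apply, ho]
    rw [he]
    ext j
    rw [mem_supp, Finset.mem_image]
    constructor
    · intro hj
      refine ⟨(θ' π).symm j, mem_supp.2 fun h => hj ?_, Equiv.apply_symm_apply _ _⟩
      have h1 := ho ((θ' π).symm j)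
      rw [h, hynone, smul_zero] at h1
      rcases ho2 : o ((θ' π).symm j) with _ | e
      · rfl
      · rw [ho2] at h1; exact absurd h1 (hyne _ _)
    · rintro ⟨i, hi, rfl⟩
      simp only [Equiv.symm_apply_apply]
      intro h
      obtain ⟨e, he'⟩ := Option.ne_none_iff_exists'.1 (mem_supp.1 hi)
      have h1 := ho i
      rw [h, hynone, he', eq_comm, smul_eq_zero_iff_eq] at h1
      exact hyne _ _ h1
  · rw [hΦ, m.q_sum _ _ fun i _ j _ hij => polar_other m φ h2 (hne_ix hij) (hymem i _) (hymem j _), wt, supp,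
      Finset.card_filter, Nat.cast_sum]
    refine Finset.sum_congr rfl fun i _ => ?_
    rcases hv : v i with _ | e
    · simp [hynone, m.q_zero]
    · simp [hqy]
  · rw [← hxact, hshift]
    congr 2
    exact funext hte

end Mod

end CfsgLib.LargeFischer.Six
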