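import Cfsg.Agent.Lib.LargeFischer.Classes
import Mathlib.GroupTheory.SpecificGroups.Alternating.Simple

/-!
Large Fischer type: monomial elements, and bounds on normal 2-subgroups of stabilisers.
-/

set_option autoImplicit false
set_option linter.unusedSectionVars false
set_option linter.style.haveILetI false

namespace CfsgLib.LargeFischer

open Orbits

theorem card_alt_six : Nat.card ↥(alternatingGroup (Fin 6)) = 360 := by
  rw [nat_card_alternatingGroup, Nat.card_fin]; decide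

theorem noTwoCore_alt : NoTwoCore ↥(alternatingGroup (Fin 6)) := by
  intro R hR hp
  haveI : IsSimpleGroup ↥(alternatingGroup (Fin 6)) := alternatingGroup.isSimpleGroup (by simp)
  rcases hR.eq_bot_or_eq_top with h | h
  · exact h
  · exfalso
    haveI : Fact (Nat.Prime 2) := ⟨Nat.prime_two⟩
    obtain ⟨n, hn⟩ := IsPGroup.iff_card.1 hp
    rw [h, Subgroup.card_top, card_alt_six] at hn
    have h3 : 3 ∣ 2 ^ n := hn ▸ by norm_num
    exact absurd (Nat.prime_three.dvd_of_dvd_pow h3) (by norm_num)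

/-- The vector with ones on the support `{0, 1}`. -/
def vTwo : Pt := fun i => if i.val < 2 then some 0 else none

/-- A vector of weight six and exponent sum `d`. -/
def vSix (d : ZMod 3) : Pt := fun i => if i.val = 0 then some d else some 0

theorem wt_vTwo : wt vTwo = 2 := by decide

theorem wt_vSix : ∀ d, wt (vSix d) = 6 := by decide

theorem total_vSix : ∀ d, total (vSix d) = d := by decide

theorem perm_fix : ∀ σ : Equiv.Perm (Fin 6), Equiv.Perm.sign σ = 1 →
    σ 2 = 2 → σ 3 = 3 → σ 4 = 4 → σ 5 = 5 → σ = 1 := by decide +kernel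

theorem separating : ∀ k j : Fin 6, 2 ≤ k.val → j ≠ k →
    ∃ a : Fin 6 → ZMod 3, a 0 = 0 ∧ a 1 = 0 ∧ ∑ i, a i = 0 ∧ a j ≠ a k := by decide +kernel

namespace Coords

variable {G : Type*} [Group G] [Finite G] {z : G}
  {Q : Subgroup ↥(Subgroup.centralizer ({z} : Set G))} [Q.Normal] (C : Coords z Q)

/-- `γ` permutes the lines by `σ` after the translation by `a`. -/
def Mono (γ : ↥(Subgroup.centralizer ({z} : Set G)) ⧸ Q) (σ : Equiv.Perm (Fin 6))
    (a : Fin 6 → ZMod 3) : Prop :=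
  ∀ (v : Pt) (i : Fin 6), C.act γ v (σ i) = (v i).map (· + a i)

variable {C}

theorem Mono.supp_eq {γ : ↥(Subgroup.centralizer ({z} : Set G)) ⧸ Q} {σ : Equiv.Perm (Fin 6)}
    {a : Fin 6 → ZMod 3} (h : C.Mono γ σ a) (v : Pt) :
    supp (C.act γ v) = (supp v).image σ := by
  ext j
  obtain ⟨i, rfl⟩ := σ.surjective j
  rw [mem_supp, h v i, σ.injective.mem_finset_image, mem_supp]
  rcases v i with _ | e <;> simp

theorem Mono.wt_eq {γ : ↥(Subgroup.centralizer ({z} : Set G)) ⧸ Q} {σ : Equiv.Perm (Fin 6)}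
    {a : Fin 6 → ZMod 3} (h : C.Mono γ σ a) (v : Pt) : wt (C.act γ v) = wt v := by
  rw [wt, h.supp_eq, Finset.card_image_of_injective _ σ.injective, ← wt]

theorem Mono.total_eq {γ : ↥(Subgroup.centralizer ({z} : Set G)) ⧸ Q} {σ : Equiv.Perm (Fin 6)}
    {a : Fin 6 → ZMod 3} (h : C.Mono γ σ a) {v : Pt} (hv : wt v = 6) :
    total (C.act γ v) = total v + ∑ i, a i := by
  rw [total, ← Equiv.sum_comp σ, total, ← Finset.sum_add_distrib]
  refine Finset.sum_congr rfl fun i _ => ?_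
  have hi : v i ≠ none := mem_supp.1 (by rw [supp_eq_univ hv]; exact Finset.mem_univ i)
  obtain ⟨e, he⟩ := Option.ne_none_iff_exists'.1 hi
  simp [h v i, he]

theorem Mono.perm_unique {γ : ↥(Subgroup.centralizer ({z} : Set G)) ⧸ Q}
    {σ τ : Equiv.Perm (Fin 6)} {a b : Fin 6 → ZMod 3} (h : C.Mono γ σ a) (h' : C.Mono γ τ b) :
    σ = τ := by
  ext i
  have e := (h.supp_eq (Function.update zeroPt i (some 0))).symm.trans (h'.supp_eq _)
  have hs : supp (Function.update zeroPt i (some 0)) = {i} := by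
    ext j
    rw [mem_supp, Finset.mem_singleton]
    by_cases hj : j = i <;> simp [Function.update, hj, zeroPt]
  rw [hs, Finset.image_singleton, Finset.image_singleton, Finset.singleton_inj] at e
  rw [e]

theorem Mono.mul {γ δ : ↥(Subgroup.centralizer ({z} : Set G)) ⧸ Q}
    {σ τ : Equiv.Perm (Fin 6)} {a b : Fin 6 → ZMod 3} (h : C.Mono γ σ a) (h' : C.Mono δ τ b) :
    C.Mono (γ * δ) (σ * τ) (fun i => b i + a (τ i)) := by
  intro v i
  rw [C.act_mul_apply, Equiv.Perm.mul_apply, h (C.act δ v) (τ i), h' v i, Option.map_map]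
  congr 1
  funext e
  exact add_assoc e (b i) (a (τ i))

theorem Mono.act_eq_shift {γ : ↥(Subgroup.centralizer ({z} : Set G)) ⧸ Q}
    {a : Fin 6 → ZMod 3} (h : C.Mono γ 1 a) (v : Pt) : C.act γ v = shift a v := by
  funext i
  exact h v i

theorem eq_one_of_act_shift_zero {γ : ↥(Subgroup.centralizer ({z} : Set G)) ⧸ Q}
    (h : ∀ v, C.act γ v = shift 0 v) : γ = 1 := by
  refine C.act_injective ?_
  rw [map_one]
  exact Equiv.ext fun v => by rw [h v, shift_zero]; rfl

theorem P_sum {c : ZMod 3} (hc : C.ClassData c) {γ : ↥(Subgroup.centralizer ({z} : Set G)) ⧸ Q}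
    {σ : Equiv.Perm (Fin 6)} {a : Fin 6 → ZMod 3} (h : C.Mono γ σ a) : ∑ i, a i = 0 := by
  have h1 := h.total_eq (wt_vSix c)
  have h2 := hc.two_act γ _ (Or.inr ⟨wt_vSix c, total_vSix c⟩)
  rcases h2 with e | ⟨-, e⟩
  · rw [h.wt_eq, wt_vSix] at e
    exact absurd e (by decide)
  · rw [total_vSix, e] at h1
    exact left_eq_add.1 h1

theorem exists_P_eq {c : ZMod 3} (hc : C.ClassData c) {v w : Pt} (hwt : wt v = wt w)
    (h2 : 2 ≤ wt v) (h6 : wt v ≠ 6 ∨ total v = total w) : ∃ γ ∈ C.P, C.act γ v = w := by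
  obtain ⟨σ, hσ, hσS⟩ := exists_even_perm hwt h2
  obtain ⟨γ, hγ, hγs⟩ := C.P_perm σ hσ
  obtain ⟨τ, -, a, ha⟩ := C.P_mono γ hγ
  have hsupp : supp (C.act γ v) = supp w := (hγs v).trans hσS
  have hor : wt (C.act γ v) ≠ 6 ∨ total (C.act γ v) = total w := by
    by_cases h : wt v = 6
    · refine Or.inr ?_
      rw [Mono.total_eq ha h, P_sum hc ha, add_zero]
      exact h6.resolve_left (not_not.2 h)
    · exact Or.inl (by rw [Mono.wt_eq ha]; exact h)
  obtain ⟨b, hb, hbw⟩ := exists_shift_eq_zero hsupp hor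
  obtain ⟨δ, hδ, hδs⟩ := C.P_diag b hb
  exact ⟨δ * γ, C.P.mul_mem hδ hγ, by rw [C.act_mul_apply, hδs, hbw]⟩

/-- The monomial stabiliser of a weight two vector has order 648. -/
theorem card_two {c : ZMod 3} (hc : C.ClassData c) :
    Nat.card ↥(C.stab vTwo ⊓ C.P) = 648 := by
  classical
  have h := C.card_stab_inf_P vTwo 135 (Finset.univ.filter fun w => wt w = 2)
    (by rw [card_wt]; decide) (fun w => by
      rw [Finset.mem_filter]
      constructor
      · rintro ⟨γ, hγ, rfl⟩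
        obtain ⟨τ, -, a, ha⟩ := C.P_mono γ hγ
        exact ⟨Finset.mem_univ _, by rw [Mono.wt_eq ha, wt_vTwo]⟩
      · rintro ⟨-, hw⟩
        exact exists_P_eq hc (wt_vTwo.trans hw.symm) (by rw [wt_vTwo])
          (Or.inl (by rw [wt_vTwo]; norm_num)))
  omega

theorem noTwoCore_two : NoTwoCore ↥(C.stab vTwo ⊓ C.P) := by
  intro R hR hp
  rw [eq_bot_iff]
  intro r hr
  rw [Subgroup.mem_bot]
  obtain ⟨hrs, hrP⟩ := r.2
  obtain ⟨σ, hσ, a, ha⟩ := C.P_mono r.1 hrP
  obtain ⟨k, hk⟩ := hp ⟨r, hr⟩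
  have hk' : r ^ (2 ^ k) = 1 := by simpa using congrArg Subtype.val hk
  have cube : ∀ (δ : ↥(C.stab vTwo ⊓ C.P)) (b : Fin 6 → ZMod 3),
      (∀ v, C.act δ.1 v = shift b v) → δ ^ 3 = 1 := by
    intro δ b hb
    refine Subtype.ext (eq_one_of_act_shift_zero (C := C) fun v => ?_)
    rw [SubmonoidClass.coe_pow, pow_succ, pow_two, C.act_mul_apply, C.act_mul_apply, hb, hb, hb]
    funext i
    have h3 : ∀ x e : ZMod 3, e + x + x + x = e := by decide
    rcases hv : v i with _ | e <;> simp [shift, hv, h3]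
  have finish : ∀ δ : ↥(C.stab vTwo ⊓ C.P), δ ∈ R → δ ^ 3 = 1 → δ = 1 := by
    intro δ hδ h3
    obtain ⟨m, hm⟩ := hp ⟨δ, hδ⟩
    have hm' : δ ^ (2 ^ m) = 1 := by simpa using congrArg Subtype.val hm
    have h1 := pow_gcd_eq_one.2 ⟨h3, hm'⟩
    rwa [Nat.Coprime.pow_right m (by norm_num : Nat.Coprime 3 2), pow_one] at h1
  -- `r` commutes with the translations fixing `vTwo`
  have hfix : ∀ b : Fin 6 → ZMod 3, b 0 = 0 → b 1 = 0 → ∑ i, b i = 0 →
      ∀ i, b (σ i) = b i := by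
    intro b h0 h1 hb
    obtain ⟨d, hd, hds⟩ := C.P_diag b hb
    have hdv : C.act d vTwo = vTwo := by
      rw [hds]
      funext i
      fin_cases i <;> simp [shift, vTwo, h0, h1]
    let δ : ↥(C.stab vTwo ⊓ C.P) := ⟨d, hdv, hd⟩
    have hd1 : C.Mono d 1 b := fun v i => by rw [hds]; rfl
    have hmem : r * δ * r⁻¹ * δ⁻¹ ∈ R := by
      have h' := R.mul_mem hr (hR.conj_mem _ (R.inv_mem hr) δ)
      convert h' using 1
      group
    have hshift : ∃ b' : Fin 6 → ZMod 3, ∀ v, C.act (r * δ * r⁻¹ * δ⁻¹).1 v = shift b' v := by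
      obtain ⟨τ, -, a', ha'⟩ := C.P_mono (r * δ * r⁻¹ * δ⁻¹).1 (r * δ * r⁻¹ * δ⁻¹).2.2
      refine ⟨a', Mono.act_eq_shift (?_ : C.Mono _ 1 a')⟩
      have e : (r * δ * r⁻¹ * δ⁻¹).1 * (d * r.1) = r.1 * d := by
        show (r.1 * d * r.1⁻¹ * d⁻¹) * (d * r.1) = r.1 * d
        group
      have l1 := Mono.mul ha' (Mono.mul hd1 ha)
      rw [e] at l1
      have := l1.perm_unique (Mono.mul ha hd1)
      rw [one_mul, mul_one, mul_eq_right] at this
      rwa [this] at ha'
    obtain ⟨b', hb'⟩ := hshift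
    have hcomm := finish _ hmem (cube _ b' hb')
    have e : r.1 * d = d * r.1 := by
      have h' : r * δ = δ * r := by
        rw [mul_inv_eq_one, mul_inv_eq_iff_eq_mul] at hcomm
        exact hcomm
      exact congrArg Subtype.val h'
    intro i
    have h' := congrArg (fun g => C.act g (Function.update zeroPt i (some 0)) (σ i)) e
    simp only [C.act_mul_apply] at h'
    rw [hds, hds, show ∀ w : Pt, shift b w (σ i) = (w (σ i)).map (· + b (σ i)) from fun w => rfl,
      ha, ha] at h'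
    simp [shift, Function.update] at h'
    exact add_left_cancel (h'.symm.trans (add_comm (b i) _))
  have hσ1 : σ = 1 := by
    refine perm_fix σ (Equiv.Perm.mem_alternatingGroup.1 hσ) ?_ ?_ ?_ ?_ <;>
    · by_contra hne
      obtain ⟨b, h0, h1, hb, hne'⟩ := separating _ _ (by decide) hne
      exact hne' (hfix b h0 h1 hb _)
  subst hσ1
  exact finish r hr (cube r a fun v => Mono.act_eq_shift ha v)

/-- The monomial stabiliser of a weight six vector of the longer class is alternating. -/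
theorem equiv_six {c d : ZMod 3} (hc : C.ClassData c) :
    Nonempty (↥(C.stab (vSix d) ⊓ C.P) ≃* ↥(alternatingGroup (Fin 6))) := by
  classical
  have h := C.card_stab_inf_P (vSix d) 243 (Finset.univ.filter fun w => wt w = 6 ∧ total w = d)
    (card_total d) (fun w => by
      rw [Finset.mem_filter]
      constructor
      · rintro ⟨γ, hγ, rfl⟩
        obtain ⟨τ, -, a, ha⟩ := C.P_mono γ hγ
        exact ⟨Finset.mem_univ _, by rw [Mono.wt_eq ha, wt_vSix],
          by rw [Mono.total_eq ha (wt_vSix d), P_sum hc ha, add_zero, total_vSix]⟩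
      · rintro ⟨-, hw, hwt⟩
        exact exists_P_eq hc ((wt_vSix d).trans hw.symm) (by rw [wt_vSix]; norm_num)
          (Or.inr ((total_vSix d).trans hwt.symm)))
  have hcard : Nat.card ↥(C.stab (vSix d) ⊓ C.P) = 360 := by omega
  choose σ hσA a ha using fun γ : ↥(C.stab (vSix d) ⊓ C.P) => C.P_mono γ.1 γ.2.2
  let f : ↥(C.stab (vSix d) ⊓ C.P) →* ↥(alternatingGroup (Fin 6)) :=
    MonoidHom.mk' (fun γ => ⟨σ γ, hσA γ⟩) (fun γ δ => Subtype.ext
      (Mono.perm_unique (ha (γ * δ)) (Mono.mul (C := C) (ha γ) (ha δ))))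
  have hf : Function.Injective f := by
    refine (injective_iff_map_eq_one f).2 fun γ hγ => ?_
    have hs1 : σ γ = 1 := congrArg Subtype.val hγ
    have hm : C.Mono γ.1 1 (a γ) := hs1 ▸ ha γ
    have ha0 : a γ = 0 := by
      funext i
      have h1 : C.act γ.1 (vSix d) = vSix d := γ.2.1
      rw [hm.act_eq_shift] at h1
      have h2 := congrFun h1 i
      simp only [shift, vSix] at h2
      split_ifs at h2 <;> simpa using h2
    refine Subtype.ext (eq_one_of_act_shift_zero (C := C) fun v => ?_)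
    rw [hm.act_eq_shift, ha0]
  exact ⟨MulEquiv.ofBijective f ((Nat.bijective_iff_injective_and_card f).2
    ⟨hf, hcard.trans card_alt_six.symm⟩)⟩

theorem exists_conjugate_sub {v w : Pt} {γ : ↥(Subgroup.centralizer ({z} : Set G)) ⧸ Q}
    (hγ : C.act γ v = w) (K : Subgroup (↥(Subgroup.centralizer ({z} : Set G)) ⧸ Q))
    (hK : K ≤ C.stab v) :
    ∃ K' : Subgroup (↥(Subgroup.centralizer ({z} : Set G)) ⧸ Q), K' ≤ C.stab w ∧
      Nonempty (K ≃* K') := by
  refine ⟨K.map (MulAut.conj γ).toMonoidHom, ?_, ⟨K.equivMapOfInjective _ (MulAut.conj γ).injective⟩⟩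
  rintro _ ⟨k, hk, rfl⟩
  rw [C.mem_stab]
  have hk' : C.act k v = v := hK hk
  have hs : (C.act γ).symm w = v := by rw [Equiv.symm_apply_eq, hγ]
  simp [MulAut.conj_apply, hs, hk', hγ]

/-- In the shorter class a normal 2-subgroup of the stabiliser has order at most 16. -/
theorem card_le_sixteen {c : ZMod 3} (hc : C.ClassData c) {v : Pt} (hv : InTwo c v)
    (E : Subgroup (↥(Subgroup.centralizer ({z} : Set G)) ⧸ Q)) (hE : E ≤ C.stab v)
    (hn : ∀ s ∈ C.stab v, ∀ e ∈ E, s * e * s⁻¹ ∈ E) (hp : IsPGroup 2 E) :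
    Nat.card E ≤ 16 := by
  obtain ⟨γ, hγ⟩ := hc.two_trans vTwo v (Or.inl wt_vTwo) hv
  obtain ⟨K, hK, ⟨e⟩⟩ := exists_conjugate_sub hγ (C.stab vTwo ⊓ C.P) inf_le_left
  have h := card_mul_dvd _ E K hE hK hn
    (NoTwoCore.inf_eq_bot hK hn hp (noTwoCore_two.congr e))
  rw [← Nat.card_congr e.toEquiv, card_two hc, hc.two_card v hv] at h
  have h80 : Nat.card E ∣ 80 := Nat.dvd_of_mul_dvd_mul_right (by norm_num : 0 < 648) h
  haveI : Fact (Nat.Prime 2) := ⟨Nat.prime_two⟩
  obtain ⟨n, hn'⟩ := IsPGroup.iff_card.1 hp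
  rw [hn'] at h80 ⊢
  have h80' : 2 ^ n ∣ 2 ^ 4 * 5 := h80
  exact Nat.le_of_dvd (by norm_num)
    ((Nat.Coprime.dvd_mul_right (Nat.Coprime.pow_left n (by norm_num))).1 h80')

/-- In the longer class a normal 2-subgroup of the stabiliser has order at most 32, and one of
order 32 has alternating quotient of degree six. -/
theorem card_le_thirty_two {c : ZMod 3} (hc : C.ClassData c) {v : Pt} (hv : InFour c v)
    (E : Subgroup (↥(Subgroup.centralizer ({z} : Set G)) ⧸ Q)) (hE : E ≤ C.stab v)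
    (hn : ∀ s ∈ C.stab v, ∀ e ∈ E, s * e * s⁻¹ ∈ E) (hp : IsPGroup 2 E) :
    Nat.card E ≤ 32 ∧ (Nat.card E = 32 → ∀ [(E.subgroupOf (C.stab v)).Normal],
      Nonempty (↥(C.stab v) ⧸ E.subgroupOf (C.stab v) ≃* ↥(alternatingGroup (Fin 6)))) := by
  have hd : InFour c (vSix (c + 1)) := Or.inr ⟨wt_vSix _, by
    rw [total_vSix]; intro e; exact absurd (left_eq_add.1 e.symm) (by decide)⟩
  obtain ⟨γ, hγ⟩ := hc.four_trans _ v hd hv
  obtain ⟨e0⟩ := equiv_six (d := c + 1) hc
  obtain ⟨K, hK, ⟨e1⟩⟩ := exists_conjugate_sub hγ (C.stab (vSix (c + 1)) ⊓ C.P) inf_le_left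
  have e : ↥(alternatingGroup (Fin 6)) ≃* K := e0.symm.trans e1
  have hbot := NoTwoCore.inf_eq_bot hK hn hp (noTwoCore_alt.congr e)
  have h := card_mul_dvd _ E K hE hK hn hbot
  have hKc : Nat.card K = 360 := (Nat.card_congr e.toEquiv).symm.trans card_alt_six
  rw [hKc, hc.four_card v hv] at h
  refine ⟨Nat.le_of_dvd (by norm_num)
    (Nat.dvd_of_mul_dvd_mul_right (by norm_num : 0 < 360) (h : _ ∣ 32 * 360)), fun h32 inst => ?_⟩
  let f := (QuotientGroup.mk' (E.subgroupOf (C.stab v))).comp (Subgroup.inclusion hK)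
  have hf : Function.Injective f := by
    refine (injective_iff_map_eq_one f).2 fun k hk => ?_
    have h1 : (k : ↥(Subgroup.centralizer ({z} : Set G)) ⧸ Q) ∈ E :=
      (QuotientGroup.eq_one_iff (Subgroup.inclusion hK k)).1 hk
    have h2 : (k : ↥(Subgroup.centralizer ({z} : Set G)) ⧸ Q) ∈ E ⊓ K := ⟨h1, k.2⟩
    rw [hbot, Subgroup.mem_bot] at h2
    exact Subtype.ext h2
  have hq : Nat.card (↥(C.stab v) ⧸ E.subgroupOf (C.stab v)) = 360 := by
    have h' := Subgroup.card_eq_card_quotient_mul_card_subgroup (E.subgroupOf (C.stab v))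
    rw [hc.four_card v hv, Nat.card_congr (Subgroup.subgroupOfEquivOfLe hE).toEquiv, h32] at h'
    omega
  exact ⟨((MulEquiv.ofBijective f ((Nat.bijective_iff_injective_and_card f).2
    ⟨hf, hKc.trans hq.symm⟩)).symm.trans e.symm)⟩

end Coords

end CfsgLib.LargeFischer
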