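import Cfsg.Agent.Lib.LargeFischer.EvenSpan
import Cfsg.Agent.Lib.LargeFischer.Stabiliser
import Mathlib.GroupTheory.SpecificGroups.Alternating

/-!
Large Fischer type: monomial elements of `H / Q` inducing every even permutation and fixing a
given vector of weight six.
-/

set_option autoImplicit false
set_option linter.unusedSectionVars false

namespace CfsgLib.LargeFischer

open Orbits
open scoped commutatorElement

variable {G : Type*} [Group G] [Finite G] {z : G}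
  {Q : Subgroup ↥(Subgroup.centralizer ({z} : Set G))} [Q.Normal]

/-- Every three-cycle of degree six is a commutator of even permutations. -/
theorem exists_commutator_of_threeCycle {σ : Equiv.Perm (Fin 6)} (h : σ.IsThreeCycle) :
    ∃ α ∈ alternatingGroup (Fin 6), ∃ β ∈ alternatingGroup (Fin 6), σ = ⁅α, β⁆ := by
  obtain ⟨α, β, hα, hβ, hc⟩ : ∃ α β : Equiv.Perm (Fin 6), α ∈ alternatingGroup (Fin 6) ∧
      β ∈ alternatingGroup (Fin 6) ∧ ⁅α, β⁆.IsThreeCycle := by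
    refine ⟨Equiv.swap 0 1 * Equiv.swap 1 2, Equiv.swap 0 3 * Equiv.swap 3 4, ?_, ?_, ?_⟩
    · simp [Equiv.Perm.mem_alternatingGroup]
    · simp [Equiv.Perm.mem_alternatingGroup]
    · rw [← card_support_eq_three_iff]; decide +kernel
  obtain ⟨π, hπ⟩ := isConj_iff.1 (Equiv.Perm.isConj_iff_cycleType_eq.2 (hc.trans h.symm))
  refine ⟨π * α * π⁻¹, ?_, π * β * π⁻¹, ?_, ?_⟩
  · exact Subgroup.Normal.conj_mem inferInstance α hα π
  · exact Subgroup.Normal.conj_mem inferInstance β hβ π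
  · rw [← hπ, ← conjugate_commutatorElement]

namespace Coords

variable (F : Coords z Q)

variable {F}
variable {γ δ : ↥(Subgroup.centralizer ({z} : Set G)) ⧸ Q} {σ π : Equiv.Perm (Fin 6)}
  {a b : Fin 6 → ZMod 3}

theorem Mono.one : F.Mono 1 1 0 := by
  intro v i
  rcases hv : v i with _ | e <;> simp [hv]

theorem Mono.inv (h : F.Mono γ σ a) : F.Mono γ⁻¹ σ⁻¹ (fun i => - a (σ⁻¹ i)) := by
  intro v i
  have e := h (F.act γ⁻¹ v) (σ⁻¹ i)
  rw [show F.act γ (F.act γ⁻¹ v) = v by simp, show σ (σ⁻¹ i) = i by simp] at e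
  rw [e]
  rcases F.act γ⁻¹ v (σ⁻¹ i) with _ | t <;> simp

theorem mono_diag {γ : ↥(Subgroup.centralizer ({z} : Set G)) ⧸ Q}
    (h : ∀ v, F.act γ v = shift a v) : F.Mono γ 1 a := by
  intro v i; rw [h]; rfl

variable (F)

/-- The sum of the scalars is additive. -/
theorem sum_comp (π : Equiv.Perm (Fin 6)) (a b : Fin 6 → ZMod 3) :
    ∑ i, (b i + a (π i)) = ∑ i, b i + ∑ i, a i := by
  rw [Finset.sum_add_distrib, Equiv.sum_comp π a]

theorem exists_mono {σ : Equiv.Perm (Fin 6)} (hσ : σ ∈ alternatingGroup (Fin 6)) :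
    ∃ γ ∈ F.P, ∃ a, F.Mono γ σ a := by
  obtain ⟨γ, hγ, hs⟩ := F.P_perm σ hσ
  obtain ⟨σ', -, a, ha⟩ := F.P_mono γ hγ
  refine ⟨γ, hγ, a, ?_⟩
  have e : σ' = σ := by
    refine Equiv.ext fun i => ?_
    let v : Pt := Function.update zeroPt i (some 0)
    have h1 : σ' i ∈ supp (F.act γ v) := by rw [mem_supp, ha]; simp [v]
    rw [hs] at h1
    obtain ⟨j, hj, hji⟩ := Finset.mem_image.1 h1
    rw [mem_supp] at hj
    by_cases hc : j = i
    · rw [← hji, hc]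
    · simp [v, Function.update_of_ne hc, zeroPt] at hj
  exact e ▸ ha

/-- The even permutations induced with scalars of product one. -/
def zeroPerms : Subgroup (Equiv.Perm (Fin 6)) where
  carrier := {σ | ∃ γ ∈ F.P, ∃ a, F.Mono γ σ a ∧ ∑ i, a i = 0}
  one_mem' := ⟨1, F.P.one_mem, 0, Mono.one, by simp⟩
  mul_mem' := by
    rintro σ π ⟨γ, hγ, a, ha, ha0⟩ ⟨δ, hδ, b, hb, hb0⟩
    exact ⟨_, F.P.mul_mem hγ hδ, _, ha.mul hb, by rw [sum_comp, ha0, hb0, add_zero]⟩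
  inv_mem' := by
    rintro σ ⟨γ, hγ, a, ha, ha0⟩
    refine ⟨_, F.P.inv_mem hγ, _, ha.inv, ?_⟩
    rw [Finset.sum_neg_distrib, Equiv.sum_comp σ⁻¹ a, ha0, neg_zero]

theorem mem_zeroPerms {σ : Equiv.Perm (Fin 6)} (hσ : σ ∈ alternatingGroup (Fin 6)) :
    σ ∈ F.zeroPerms := by
  revert σ
  show alternatingGroup (Fin 6) ≤ F.zeroPerms
  rw [← Equiv.Perm.closure_three_cycles_eq_alternating, Subgroup.closure_le]
  intro σ hσ
  obtain ⟨α, hα, β, hβ, rfl⟩ := exists_commutator_of_threeCycle hσ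
  obtain ⟨γ, hγ, a, ha⟩ := F.exists_mono hα
  obtain ⟨δ, hδ, b, hb⟩ := F.exists_mono hβ
  refine ⟨⁅γ, δ⁆, ?_, _, ((ha.mul hb).mul ha.inv).mul hb.inv, ?_⟩
  · exact F.P.mul_mem (F.P.mul_mem (F.P.mul_mem hγ hδ) (F.P.inv_mem hγ)) (F.P.inv_mem hδ)
  · simp only [Finset.sum_add_distrib, Finset.sum_neg_distrib]
    have h1 : ∀ (π : Equiv.Perm (Fin 6)) (c : Fin 6 → ZMod 3), ∑ i, c (π i) = ∑ i, c i :=
      fun π c => Equiv.sum_comp π c
    rw [h1 β⁻¹ b, h1 β⁻¹ (fun i => a (α⁻¹ i)), h1 β⁻¹ (fun i => b (α⁻¹ i)),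
      h1 β⁻¹ (fun i => a (β (α⁻¹ i))), h1 α⁻¹ a, h1 α⁻¹ b, h1 α⁻¹ (fun i => a (β i)), h1 β a]
    abel

/-- Every even permutation is induced by a monomial element fixing a given vector of weight
six. -/
theorem exists_stab (e : Fin 6 → ZMod 3) {σ : Equiv.Perm (Fin 6)}
    (hσ : σ ∈ alternatingGroup (Fin 6)) :
    ∃ γ ∈ F.P, ∃ a, F.Mono γ σ a ∧ F.act γ (fun i => some (e i)) = fun i => some (e i) := by
  obtain ⟨γ, hγ, a, ha, ha0⟩ := F.mem_zeroPerms hσ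
  set d : Fin 6 → ZMod 3 := fun k => e k - (e (σ⁻¹ k) + a (σ⁻¹ k)) with hd
  have hd0 : ∑ k, d k = 0 := by
    simp only [hd, Finset.sum_sub_distrib]
    rw [Finset.sum_add_distrib, Equiv.sum_comp σ⁻¹ e, Equiv.sum_comp σ⁻¹ a, ha0, add_zero, sub_self]
  obtain ⟨δ, hδ, hδv⟩ := F.P_diag d hd0
  have hm := (mono_diag hδv).mul ha
  rw [one_mul] at hm
  refine ⟨δ * γ, F.P.mul_mem hδ hγ, _, hm, ?_⟩
  funext k
  obtain ⟨i, rfl⟩ := σ.surjective k
  rw [hm]
  simp only [Option.map_some, Option.some.injEq, hd]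
  simp
  ring

/-- The scalar element is a product of commutators of monomial elements. -/
theorem mk_x_mem : (QuotientGroup.mk F.x : ↥(Subgroup.centralizer ({z} : Set G)) ⧸ Q) ∈ ⁅F.P, F.P⁆ := by
  have key : ∀ (σ : Equiv.Perm (Fin 6)), σ ∈ alternatingGroup (Fin 6) → ∀ b : Fin 6 → ZMod 3,
      ∑ i, b i = 0 → ∃ γ ∈ ⁅F.P, F.P⁆, ∀ v, F.act γ v = shift (fun k => b (σ⁻¹ k) - b k) v := by
    intro σ hσ b hb
    obtain ⟨γ, hγ, a, ha⟩ := F.exists_mono hσ
    obtain ⟨δ, hδ, hδv⟩ := F.P_diag b hb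
    refine ⟨⁅γ, δ⁆, Subgroup.commutator_mem_commutator hγ hδ, fun v => ?_⟩
    have hm : F.Mono ⁅γ, δ⁆ _ _ :=
      ((ha.mul (mono_diag hδv)).mul ha.inv).mul (mono_diag hδv).inv
    funext k
    have h := hm v k
    simp only [inv_one, mul_one, mul_inv_cancel, Equiv.Perm.one_apply] at h
    rw [h]
    rcases hv : v k with _ | t <;> simp [shift, hv]
    ring
  obtain ⟨γ₁, h₁, e₁⟩ := key (Equiv.swap 0 1 * Equiv.swap 1 2)
    (by simp [Equiv.Perm.mem_alternatingGroup]) ![1, 2, 0, 0, 0, 0] (by decide)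
  obtain ⟨γ₂, h₂, e₂⟩ := key (Equiv.swap 3 4 * Equiv.swap 4 5)
    (by simp [Equiv.Perm.mem_alternatingGroup]) ![0, 0, 0, 1, 2, 0] (by decide)
  have hmem := Subgroup.mul_mem _ h₁ h₂
  have e : (QuotientGroup.mk F.x : ↥(Subgroup.centralizer ({z} : Set G)) ⧸ Q) = γ₁ * γ₂ * (γ₁ * γ₂) := by
    refine F.act_injective (Equiv.ext fun v => ?_)
    rw [F.act_x, map_mul, map_mul, Equiv.Perm.mul_apply, Equiv.Perm.mul_apply, Equiv.Perm.mul_apply,
      e₂, e₁, e₂, e₁, shift_shift, shift_shift, shift_shift]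
    congr 1
    funext k
    revert k
    decide
  rw [e]
  exact Subgroup.mul_mem _ hmem hmem

end Coords

end CfsgLib.LargeFischer
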