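import Cfsg.Agent.Lib.LargeFischer.PSUModule

/-!
A non-trivial module of order at most `2^12` of a central extension of `PSU₄(3)` of exponent three: it has
order exactly `2^12`, the kernel has order three and is fixed-point-free, and the preimage of `3^4` acts as
all diagonal elements of product one on six lines, permuted as `A₆`.
-/

set_option autoImplicit false
set_option linter.unusedSectionVars false
set_option linter.style.haveILetI false
set_option maxRecDepth 4000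

namespace CfsgLib.LargeFischer.PSUModule

open CfsgLib.SchurMult CfsgLib.SchurMult.U43 CfsgLib.SchurMult.U43.Three
open CfsgLib.LargeFischer.Weights
open scoped commutatorElement

theorem fix_of_pow_five : ∀ g : Equiv.Perm (Fin 6), g ^ 5 = 1 → ∃ i, g i = i := by decide +kernel

/-- The five-cycle fixing `5`. -/
def five : A6 :=
  ⟨Equiv.swap 0 1 * Equiv.swap 1 2 * Equiv.swap 2 3 * Equiv.swap 3 4,
    Equiv.Perm.mem_alternatingGroup.2 (by decide +kernel)⟩

theorem five_facts : five ^ 5 = 1 ∧ five.1 0 = 1 ∧ five.1 1 = 2 ∧ five.1 2 = 3 ∧ five.1 3 = 4 ∧ five.1 4 = 0 ∧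
    five.1 5 = 5 := by
  decide +kernel

theorem exists_step : ∀ a b : Fin 5, a ≠ b → ∀ j : Fin 5, ∀ (R : Fin 6 → Fin 6 → Prop),
    (∀ x y, R x y → R y x) → (∀ x y w, R x y → R y w → R x w) → (∀ x y, R x y → R (five.1 x) (five.1 y)) →
    R a.castSucc b.castSucc → R 0 j.castSucc := by
  intro a b hab j R hs ht hi hR
  have hpow : ∀ (n : ℕ) x y, R x y → R ((five ^ n).1 x) ((five ^ n).1 y) := by
    intro n
    induction n with
    | zero => intro x y h; exact h
    | succ n ih =>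
      intro x y h
      rw [pow_succ', Subgroup.coe_mul, Equiv.Perm.mul_apply, Equiv.Perm.mul_apply]
      exact hi _ _ (ih x y h)
  have key : ∀ a b : Fin 5, a ≠ b → ∀ k : Fin 5, ∃ n m : Fin 5,
      (five ^ n.val).1 a.castSucc = k.castSucc ∧ (five ^ n.val).1 b.castSucc = (k + (b - a)).castSucc ∧
      (5 : ℕ) ∣ 5 ∧ m = m := by decide +kernel
  have hstep : ∀ k : Fin 5, R k.castSucc (k + (b - a)).castSucc := fun k => by
    obtain ⟨n, -, h1, h2, -⟩ := key a b hab k
    have := hpow n.val _ _ hR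
    rwa [h1, h2] at this
  have hrefl : R 0 0 := ht _ _ _ (hstep 0) (hs _ _ (hstep 0))
  have hall : ∀ n : ℕ, R 0 ((n • (b - a) : Fin 5)).castSucc := by
    intro n
    induction n with
    | zero => simpa using hrefl
    | succ n ih => rw [succ_nsmul]; exact ht _ _ _ ih (hstep _)
  obtain ⟨n, hn⟩ := (by decide +kernel : ∀ d j : Fin 5, d ≠ 0 → ∃ n : Fin 5, n.val • d = j) (b - a) j
    (sub_ne_zero.2 hab.symm)
  exact hn ▸ hall n.val

/-- The weights. -/
abbrev Wt {Γ : Type} [Group Γ] [Finite Γ] (σ : Γ →* G0) {V : Type*} [AddCommGroup V] (ρ : Γ →* AddMonoid.End V) : Type :=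
  {H : Subgroup Γ // IsWeight ρ (lift4 σ) H}

variable {Γ : Type} [Group Γ] [Finite Γ] {σ : Γ →* G0} (hσ : Ext σ)
variable {V : Type*} [AddCommGroup V] [Finite V] (hV : ∀ v : V, v + v = 0) (ρ : Γ →* AddMonoid.End V)

include hσ

theorem Ext.conj_weight {π : A6} {T : Γ} (hT : σ T = aa π) {H : Subgroup Γ} (hH : IsWeight ρ (lift4 σ) H) :
    IsWeight ρ (lift4 σ) (H.map (MulAut.conj T).toMonoidHom) := by
  have hT' : σ T⁻¹ = aa π⁻¹ := by rw [map_inv, map_inv, hT]
  have hM : ∀ m, m ∈ lift4 σ → T⁻¹ * m * T ∈ lift4 σ := fun m hm => by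
    simpa using hσ.conj_lift4 hT' hm
  refine ⟨?_, ?_, ?_, ?_⟩
  · rintro _ ⟨h, hh, rfl⟩; exact hσ.conj_lift4 hT (hH.1 hh)
  · intro e
    refine hH.2.1 (le_antisymm hH.1 fun m hm => ?_)
    have : T * m * T⁻¹ ∈ H.map (MulAut.conj T).toMonoidHom := by rw [e]; exact hσ.conj_lift4 hT hm
    obtain ⟨h, hh, he⟩ := this
    have : h = m := (MulAut.conj T).injective (by simpa using he)
    exact this ▸ hh
  · intro a ha haH m hm
    have hb : T⁻¹ * a * T ∉ H := fun h => haH ⟨_, h, by simp [mul_assoc]⟩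
    have := Subgroup.mem_map_of_mem (MulAut.conj T).toMonoidHom (hH.2.2.1 _ (hM a ha) hb (hM m hm))
    rw [Subgroup.map_sup, MonoidHom.map_zpowers] at this
    simpa [mul_assoc] using this
  · intro e
    refine hH.2.2.2 ?_
    have hMi : (lift4 σ).map (MulAut.conj T).toMonoidHom = lift4 σ := by
      refine le_antisymm ?_ fun m hm => ⟨_, hM m hm, by simp [mul_assoc]⟩
      rintro _ ⟨m, hm, rfl⟩; exact hσ.conj_lift4 hT hm
    have h1 : ρ T * proj ρ (lift4 σ) H = 0 := by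
      rw [proj, mul_add, map_conj_avg, map_conj_avg, hMi, ← add_mul, ← proj, e, zero_mul]
    calc proj ρ (lift4 σ) H = ρ T⁻¹ * (ρ T * proj ρ (lift4 σ) H) := by
          rw [← mul_assoc, ← map_mul, inv_mul_cancel, map_one, one_mul]
      _ = 0 := by rw [h1, mul_zero]

theorem Ext.map_proj {π : A6} {T : Γ} (hT : σ T = aa π) (H : Subgroup Γ) :
    ρ T * proj ρ (lift4 σ) H = proj ρ (lift4 σ) (H.map (MulAut.conj T).toMonoidHom) * ρ T := by
  have hT' : σ T⁻¹ = aa π⁻¹ := by rw [map_inv, map_inv, hT]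
  have hMi : (lift4 σ).map (MulAut.conj T).toMonoidHom = lift4 σ := by
    refine le_antisymm ?_ fun m hm => ⟨T⁻¹ * m * T, ?_, by simp [mul_assoc]⟩
    · rintro _ ⟨m, hm, rfl⟩; exact hσ.conj_lift4 hT hm
    · simpa using hσ.conj_lift4 hT' hm
  rw [proj, proj, mul_add, map_conj_avg, map_conj_avg, hMi, ← add_mul]

/-- The action on the weights. -/
noncomputable def Ext.actFun (π : A6) : Wt σ ρ → Wt σ ρ := fun H =>
  ⟨H.1.map (MulAut.conj (hσ.surj (aa π)).choose).toMonoidHom,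
    hσ.conj_weight ρ (hσ.surj (aa π)).choose_spec H.2⟩

theorem Ext.map_conj_eq {T T' : Γ} (h : σ T = σ T') (H : Subgroup Γ) :
    H.map (MulAut.conj T).toMonoidHom = H.map (MulAut.conj T').toMonoidHom :=
  SetLike.coe_injective (Set.image_congr fun y _ => by simpa using hσ.conj_eq h y)

theorem Ext.actFun_val {π : A6} {T : Γ} (hT : σ T = aa π) (H : Wt σ ρ) :
    (hσ.actFun ρ π H).1 = H.1.map (MulAut.conj T).toMonoidHom :=
  hσ.map_conj_eq ((hσ.surj (aa π)).choose_spec.trans hT.symm) _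

theorem Ext.actFun_one (H : Wt σ ρ) : hσ.actFun ρ 1 H = H := by
  refine Subtype.ext ((hσ.actFun_val ρ (T := 1) (by simp) H).trans ?_)
  ext y; simp

theorem Ext.actFun_mul (π π' : A6) (H : Wt σ ρ) :
    hσ.actFun ρ (π * π') H = hσ.actFun ρ π (hσ.actFun ρ π' H) := by
  obtain ⟨T, hT⟩ := hσ.surj (aa π)
  obtain ⟨T', hT'⟩ := hσ.surj (aa π')
  refine Subtype.ext ?_
  rw [hσ.actFun_val ρ (T := T * T') (by rw [map_mul, map_mul, hT, hT']), hσ.actFun_val ρ hT,
    hσ.actFun_val ρ hT', Subgroup.map_map]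
  congr 1
  ext y
  simp [mul_assoc]

/-- The permutation representation on the weights. -/
noncomputable def Ext.act : A6 →* Equiv.Perm (Wt σ ρ) :=
  MonoidHom.mk' (fun π =>
    { toFun := hσ.actFun ρ π
      invFun := hσ.actFun ρ π⁻¹
      left_inv := fun H => by rw [← hσ.actFun_mul, inv_mul_cancel, hσ.actFun_one]
      right_inv := fun H => by rw [← hσ.actFun_mul, mul_inv_cancel, hσ.actFun_one] })
    fun π π' => Equiv.ext fun H => hσ.actFun_mul ρ π π' H

theorem Ext.act_val {π : A6} {T : Γ} (hT : σ T = aa π) (H : Wt σ ρ) :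
    (hσ.act ρ π H).1 = H.1.map (MulAut.conj T).toMonoidHom :=
  hσ.actFun_val ρ hT H

/-- Representations not killing the commutator subgroup are injective modulo the kernel of `σ`. -/
theorem Ext.ker_le (hρ : ∃ g ∈ commutator Γ, ρ g ≠ 1) : ρ.ker ≤ σ.ker := by
  haveI := isSimpleGroup_G0
  rcases (IsSimpleGroup.eq_bot_or_eq_top_of_normal (ρ.ker.map σ)
    (Subgroup.Normal.map (MonoidHom.normal_ker ρ) σ hσ.surj)) with h | h
  · exact (Subgroup.map_eq_bot_iff _).1 h
  exfalso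
  obtain ⟨g, hg, hg1⟩ := hρ
  refine hg1 (MonoidHom.mem_ker.1 ?_)
  have hdec : ∀ x : Γ, ∃ a ∈ ρ.ker, ∃ z ∈ σ.ker, x = a * z := fun x => by
    obtain ⟨a, ha, hax⟩ : σ x ∈ ρ.ker.map σ := h ▸ Subgroup.mem_top _
    exact ⟨a, ha, a⁻¹ * x, by rw [MonoidHom.mem_ker, map_mul, map_inv, hax, inv_mul_cancel],
      (mul_inv_cancel_left _ _).symm⟩
  refine (Subgroup.commutator_le.2 ?_ : ⁅(⊤ : Subgroup Γ), (⊤ : Subgroup Γ)⁆ ≤ ρ.ker) hg
  intro x _ y _
  obtain ⟨a, ha, z, hz, rfl⟩ := hdec x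
  obtain ⟨b, hb, w, hw, rfl⟩ := hdec y
  have e : ⁅a * z, b * w⁆ = ⁅a, b⁆ := comm_eq_of_map_eq hσ.central
    (by rw [map_mul, MonoidHom.mem_ker.1 hz, mul_one]) (by rw [map_mul, MonoidHom.mem_ker.1 hw, mul_one])
  rw [e, commutatorElement_def]
  exact mul_mem (mul_mem (mul_mem ha hb) (inv_mem ha)) (inv_mem hb)

include hV

theorem Ext.act_injective (hρ : ∃ g ∈ commutator Γ, ρ g ≠ 1) : Function.Injective (hσ.act ρ) := by
  haveI : IsSimpleGroup A6 := alternatingGroup.isSimpleGroup (by simp)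
  rw [← MonoidHom.ker_eq_bot_iff]
  refine ((inferInstance : (hσ.act ρ).ker.Normal).eq_bot_or_eq_top).resolve_right fun htop => ?_
  obtain ⟨R, hR⟩ := hσ.surj (aa rho)
  obtain ⟨x, hx, -⟩ := hσ.exists_base
  have hxM : x ∈ lift4 σ := Subgroup.subset_closure ⟨0, 1, hx⟩
  set c := R * x * R⁻¹ * x⁻¹ with hc
  have hcM : c ∈ lift4 σ := mul_mem (hσ.conj_lift4 hR hxM) (inv_mem hxM)
  have hcall : ∀ H, IsWeight ρ (lift4 σ) H → c ∈ H := by
    intro H hH
    have hinv : ∀ h ∈ H, R * h * R⁻¹ ∈ H := fun h hh => by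
      have e1 : hσ.act ρ rho = 1 := MonoidHom.mem_ker.1 (htop ▸ Subgroup.mem_top _)
      have e : H.map (MulAut.conj R).toMonoidHom = H :=
        (hσ.act_val ρ hR ⟨H, hH⟩).symm.trans
          (congrArg (fun p : Equiv.Perm (Wt σ ρ) => (p ⟨H, hH⟩).1) e1)
      exact e ▸ ⟨h, hh, by simp⟩
    by_cases hxH : x ∈ H
    · exact mul_mem (hinv x hxH) (inv_mem hxH)
    have hle : Subgroup.zpowers x ≤ Subgroup.normalizer (H : Set Γ) :=
      Subgroup.zpowers_le.2 (Subgroup.mem_normalizer_iff.2 fun y => ⟨fun hy => by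
        rw [hσ.lift4_comm x hxM y (hH.1 hy), mul_inv_cancel_right]; exact hy, fun hy => by
        have hy' : y ∈ lift4 σ := by
          have := mul_mem (mul_mem (inv_mem hxM) (hH.1 hy)) hxM
          rwa [show x⁻¹ * (x * y * x⁻¹) * x = y by group] at this
        rwa [hσ.lift4_comm x hxM y hy', mul_inv_cancel_right] at hy⟩)
    have hmem : R * x * R⁻¹ ∈ (↑(H ⊔ Subgroup.zpowers x) : Set Γ) :=
      hH.2.2.1 x hxM hxH (hσ.conj_lift4 hR hxM)
    rw [Subgroup.coe_mul_of_right_le_normalizer_left _ _ hle] at hmem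
    obtain ⟨h, hh, _, hp, he⟩ := hmem
    obtain ⟨n, rfl⟩ := (isOfFinOrder_of_finite x).mem_powers_iff_mem_zpowers.2 hp
    simp only at he
    have hx3 := hσ.lift4_cube x hxM
    obtain ⟨k, hk, hkn⟩ : ∃ k, k < 3 ∧ x ^ n = x ^ k :=
      ⟨n % 3, Nat.mod_lt _ (by norm_num), by
        conv_lhs => rw [← Nat.mod_add_div n 3, pow_add, pow_mul, hx3, one_pow, mul_one]⟩
    rw [hkn] at he
    interval_cases k
    · exfalso
      refine hxH ?_
      rw [pow_zero, mul_one] at he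
      have hRi : ∀ y ∈ H, R⁻¹ * y * R ∈ H := fun y hy => by
        have := hinv _ (hinv y hy)
        have e3 : σ (R * R) = σ R⁻¹ := by
          rw [map_mul, map_inv, hR, ← map_mul, ← map_inv, show rho * rho = rho⁻¹ by decide +kernel]
        rw [show R * (R * y * R⁻¹) * R⁻¹ = (R * R) * y * (R * R)⁻¹ by group, hσ.conj_eq e3, inv_inv] at this
        exact this
      have := hRi h hh
      rwa [he, show R⁻¹ * (R * x * R⁻¹) * R = x by group] at this
    · rw [pow_one] at he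
      rw [hc, ← he, mul_inv_cancel_right]
      exact hh
    · exfalso
      refine hxH ?_
      have e7 : (R ^ 3) * x * (R ^ 3)⁻¹ = x := by
        rw [hσ.conj_eq (T' := 1) (by rw [map_pow, hR, ← map_pow, show rho ^ 3 = 1 by decide +kernel, map_one, map_one])]
        group
      have step : ∀ (y : Γ) (m : ℕ), y ∈ H → R * (y * x ^ m) * R⁻¹ =
          (R * y * R⁻¹ * (R * x * R⁻¹) ^ m) := fun y m _ => by rw [conj_pow]; group
      have hH' : ∀ y ∈ H, ∀ g : Γ, g ∈ lift4 σ → g * y = y * g := fun y hy g hg =>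
        hσ.lift4_comm g hg y (hH.1 hy)
      have hexp : ∀ (y : Γ) (hy : y ∈ H) (m : ℕ), ∃ y' ∈ H, R * (y * x ^ m) * R⁻¹ = y' * x ^ (2 * m) := by
        intro y hy m
        refine ⟨R * y * R⁻¹ * h ^ m, mul_mem (hinv y hy) (pow_mem hh m), ?_⟩
        rw [step y m hy, ← he, (show Commute h (x ^ 2) from (hH' h hh _ (pow_mem hxM 2)).symm).mul_pow,
          ← pow_mul]
        simp only [mul_assoc]
      obtain ⟨y1, hy1, e1⟩ := hexp h hh 2
      obtain ⟨y2, hy2, e2⟩ := hexp y1 hy1 4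
      have : x = y2 * x ^ 8 := by
        rw [show (8 : ℕ) = 2 * 4 from rfl, ← e2, show (4 : ℕ) = 2 * 2 from rfl, ← e1, he]
        conv_lhs => rw [← e7]
        rw [pow_succ, pow_two]; group
      rw [show x ^ 8 = x⁻¹ by
        rw [show x⁻¹ = x⁻¹ * (x ^ 3) ^ 3 by rw [hx3, one_pow, mul_one]]; group] at this
      have hxx : x * x = y2 := by conv_lhs => arg 1; rw [this]; 
                                  rw [inv_mul_cancel_right]
      have : x = (x * x)⁻¹ := eq_inv_of_mul_eq_one_left (by rw [← mul_assoc, ← pow_two, ← pow_succ, hx3])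
      rw [this, hxx]
      exact inv_mem hy2
  have h1 : ρ c = 1 := (hσ.hyp hV).eq_one_of_mem_all hcM hcall
  have h2 := MonoidHom.mem_ker.1 (hσ.ker_le ρ hρ (MonoidHom.mem_ker.2 h1))
  rw [hc, map_mul, map_inv, map_mul, map_mul, map_inv, hR, hx, dd_conj,
    show rho.1 0 = 1 by decide, show rho.1 1 = 2 by decide] at h2
  exact dd_shift_ne h2

theorem Ext.card_weights (hρ : ∃ g ∈ commutator Γ, ρ g ≠ 1) (hcard : Nat.card V ≤ 4 ^ 6) :
    Nat.card (Wt σ ρ) = 6 := by
  classical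
  haveI : Fintype (Wt σ ρ) := Fintype.ofFinite _
  have hle : Nat.card (Wt σ ρ) ≤ 6 :=
    (Nat.pow_le_pow_iff_right (by norm_num)).1 ((hσ.pow_le hV ρ).trans hcard)
  have h := Nat.card_le_card_of_injective _ (hσ.act_injective hV ρ hρ)
  rw [nat_card_alternatingGroup, Nat.card_fin, Nat.card_perm] at h
  rcases Nat.lt_or_ge (Nat.card (Wt σ ρ)) 6 with h5 | h5
  · have := Nat.factorial_le (show Nat.card (Wt σ ρ) ≤ 5 by omega)
    simp [Nat.factorial] at h this
    omega
  · omega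

theorem Ext.not_ker_le (hρ : ∃ g ∈ commutator Γ, ρ g ≠ 1) (hcard : Nat.card V ≤ 4 ^ 6) (H : Wt σ ρ) :
    ¬ σ.ker ≤ H.1 := by
  classical
  intro hker
  -- every weight contains the kernel
  let e : Wt σ ρ ≃ Fin 6 := Finite.equivFinOfCardEq (hσ.card_weights hV ρ hρ hcard)
  let f : A6 →* Equiv.Perm (Fin 6) := e.permCongrHom.toMonoidHom.comp (hσ.act ρ)
  have hf : Function.Injective f := fun a b h =>
    hσ.act_injective hV ρ hρ (e.permCongrHom.injective h)
  have hidx : f.range.index = 2 := by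
    have := Subgroup.card_mul_index f.range
    rw [← Nat.card_congr (MonoidHom.ofInjective hf).toEquiv, nat_card_alternatingGroup, Nat.card_fin,
      Nat.card_perm, Nat.card_fin] at this
    simp [Nat.factorial] at this
    omega
  have halt := Equiv.Perm.eq_alternatingGroup_of_index_eq_two hidx
  have htrans : ∀ K : Wt σ ρ, σ.ker ≤ K.1 := by
    intro K
    obtain ⟨π, hπ⟩ : ∃ π : A6, f π (e H) = e K := by
      obtain ⟨p, hp, hp'⟩ := (by decide +kernel :
        ∀ i j : Fin 6, ∃ p : Equiv.Perm (Fin 6), Equiv.Perm.sign p = 1 ∧ p i = j) (e H) (e K)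
      obtain ⟨π, rfl⟩ : p ∈ f.range := halt ▸ Equiv.Perm.mem_alternatingGroup.2 hp
      exact ⟨π, hp'⟩
    have hK : hσ.act ρ π H = K := e.injective (by simpa [f] using hπ)
    obtain ⟨T, hT⟩ := hσ.surj (aa π)
    intro z hz
    rw [← hK, hσ.act_val ρ hT]
    exact ⟨z, hker hz, by simp [hσ.kc hz T]⟩
  -- a five-cycle fixes a weight
  obtain ⟨i, hi⟩ := fix_of_pow_five (f five) (by rw [← map_pow, five_facts.1, map_one])
  set K := e.symm i with hKdef
  have hfix : hσ.act ρ five K = K := e.injective (by simpa [f, K] using hi)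
  obtain ⟨T, hT⟩ := hσ.surj (aa five)
  have hinv : ∀ y ∈ K.1, T * y * T⁻¹ ∈ K.1 := fun y hy => by
    have e1 := hσ.act_val ρ hT K
    rw [hfix] at e1
    rw [e1]; exact ⟨y, hy, by simp⟩
  let R : Fin 6 → Fin 6 → Prop := fun p q => ∀ X, σ X = dd p q → X ∈ K.1
  have hmk : ∀ {X p q}, σ X = dd p q → X ∈ K.1 → R p q := fun {X p q} hX hXK Y hY => by
    have : X⁻¹ * Y ∈ σ.ker := by rw [MonoidHom.mem_ker, map_mul, map_inv, hX, hY, inv_mul_cancel]
    simpa using mul_mem hXK (htrans K this)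
  have hsymm : ∀ x y, R x y → R y x := fun x y h X hX => by
    have := inv_mem (h X⁻¹ (by rw [map_inv, hX, dd_inv]))
    rwa [inv_inv] at this
  have htr : ∀ x y w, R x y → R y w → R x w := fun x y w h1 h2 => by
    obtain ⟨X, hX⟩ := hσ.surj (dd x y)
    obtain ⟨Y, hY⟩ := hσ.surj (dd y w)
    exact hmk (by rw [map_mul, hX, hY, dd_mul]) (mul_mem (h1 X hX) (h2 Y hY))
  have hshift : ∀ x y, R x y → R (five.1 x) (five.1 y) := fun x y h => by
    obtain ⟨X, hX⟩ := hσ.surj (dd x y)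
    exact hmk (by rw [map_mul, map_mul, map_inv, hT, hX, dd_conj]) (hinv X (h X hX))
  obtain ⟨a, haM, haK⟩ := SetLike.exists_of_lt (lt_of_le_of_ne K.2.1 K.2.2.1)
  obtain ⟨p, q, hpq, hRpq⟩ : ∃ p q : Fin 5, p ≠ q ∧ R p.castSucc q.castSucc := by
    choose w hw using fun j : Fin 5 => hσ.surj (dd 0 j.castSucc)
    have hle : Subgroup.zpowers a ≤ Subgroup.normalizer (K.1 : Set Γ) :=
      Subgroup.zpowers_le.2 (Subgroup.mem_normalizer_iff.2 fun y => ⟨fun hy => by
        rw [hσ.lift4_comm a haM y (K.2.1 hy), mul_inv_cancel_right]; exact hy, fun hy => by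
        have hy' : y ∈ lift4 σ := by
          have := mul_mem (mul_mem (inv_mem haM) (K.2.1 hy)) haM
          rwa [show a⁻¹ * (a * y * a⁻¹) * a = y by group] at this
        rwa [hσ.lift4_comm a haM y hy', mul_inv_cancel_right] at hy⟩)
    have hd : ∀ j, ∃ n : Fin 3, w j * (a ^ n.val)⁻¹ ∈ K.1 := fun j => by
      have hm : w j ∈ (↑(K.1 ⊔ Subgroup.zpowers a) : Set Γ) :=
        K.2.2.2.1 a haM haK (Subgroup.subset_closure ⟨0, _, hw j⟩)
      rw [Subgroup.coe_mul_of_right_le_normalizer_left _ _ hle] at hm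
      obtain ⟨h, hh, _, hp, he⟩ := hm
      obtain ⟨n, rfl⟩ := (isOfFinOrder_of_finite a).mem_powers_iff_mem_zpowers.2 hp
      simp only at he
      refine ⟨⟨n % 3, Nat.mod_lt _ (by norm_num)⟩, ?_⟩
      have : a ^ n = a ^ (n % 3) := by
        conv_lhs => rw [← Nat.mod_add_div n 3, pow_add, pow_mul, hσ.lift4_cube a haM, one_pow, mul_one]
      rw [← he, this, mul_inv_cancel_right]; exact hh
    choose n hn using hd
    obtain ⟨p, q, hpq, e'⟩ := Fintype.exists_ne_map_eq_of_card_lt n (by simp)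
    refine ⟨p, q, hpq, hmk (X := (w p)⁻¹ * w q) ?_ ?_⟩
    · rw [map_mul, map_inv, hw, hw, dd_inv, dd_mul]
    · have hp : w p ∈ lift4 σ := Subgroup.subset_closure ⟨0, _, hw p⟩
      have hq : w q ∈ lift4 σ := Subgroup.subset_closure ⟨0, _, hw q⟩
      have := mul_mem (inv_mem (hn p)) (hn q)
      rw [e', mul_inv_rev, inv_inv, hσ.lift4_comm (w q) hq _ (inv_mem (pow_mem haM _))] at this
      rw [show a ^ (n q).val * (w p)⁻¹ * ((a ^ (n q).val)⁻¹ * w q) =
        a ^ (n q).val * ((w p)⁻¹ * (a ^ (n q).val)⁻¹) * w q by group,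
        hσ.lift4_comm (w p)⁻¹ (inv_mem hp) _ (inv_mem (pow_mem haM _)), ← mul_assoc,
        mul_inv_cancel, one_mul] at this
      exact this
  have h04 : ∀ j : Fin 5, R 0 j.castSucc := fun j => exists_step p q hpq j R hsymm htr hshift hRpq
  have h05 : R 0 5 := by
    intro X hX
    choose w hw using fun j : Fin 6 => hσ.surj (dd 0 j)
    refine hmk (X := (w 1 * w 2 * w 3 * w 4)⁻¹) ?_ (inv_mem (mul_mem (mul_mem (mul_mem
      (h04 1 _ (hw 1)) (h04 2 _ (hw 2))) (h04 3 _ (hw 3))) (h04 4 _ (hw 4)))) X hX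
    rw [map_inv, map_mul, map_mul, map_mul, hw, hw, hw, hw]
    exact inv_eq_of_mul_eq_one_right dd_cyc
  have hall : ∀ j : Fin 6, R 0 j := fun j => by
    rcases Fin.eq_castSucc_or_eq_last j with ⟨j', rfl⟩ | rfl
    · exact h04 j'
    · exact h05
  refine K.2.2.1 (le_antisymm K.2.1 ((Subgroup.closure_le _).2 ?_))
  rintro X ⟨x, y, hX⟩
  exact htr x 0 y (hsymm 0 x (hall x)) (hall y) X hX

end CfsgLib.LargeFischer.PSUModule
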