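import Cfsg.Agent.Lib.LargeFischer.Weights
import Cfsg.Agent.Lib.SchurMult.U43.ThreeGroup
import Cfsg.Agent.Lib.SchurMult.U43.Common

/-!
Modules of order at most `2^12` for a central extension of `PSU₄(3)` by a group of exponent three: the
`3^4 : A₆` subgroup permutes six weight spaces of order four, which span the module.
-/

set_option autoImplicit false
set_option linter.unusedSectionVars false

namespace CfsgLib.LargeFischer.PSUModule

open CfsgLib.SchurMult CfsgLib.SchurMult.U43 CfsgLib.SchurMult.U43.Three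
open CfsgLib.LargeFischer.Weights
open scoped commutatorElement

/-! ### Facts in the group -/

theorem dd_self (i : Fin 6) : dd i i = 1 := mul_eq_left.1 (dd_mul i i i)

theorem dd_inv (i j : Fin 6) : (dd i j)⁻¹ = dd j i :=
  inv_eq_of_mul_eq_one_right (by rw [dd_mul, dd_self])

theorem dd_one_ne : dd 0 1 ≠ 1 := by
  intro h
  have h0 : Eh (Multiplicative.ofAdd (Pi.single (0 : Fin 5) (1 : U43.K))) ∈ aa.range := by
    rw [← dd_zero, show ((0 : Fin 5).succ : Fin 6) = 1 from rfl, h]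
    exact one_mem _
  exact absurd (indep h0 0 1) (by decide)

theorem dd_shift_ne : dd 1 2 * (dd 0 1)⁻¹ ≠ 1 := by
  intro h
  rw [mul_inv_eq_one] at h
  have h2 : dd 0 2 = dd 0 1 ^ 2 := by rw [pow_two, ← dd_mul 0 1 2, h]
  have e := prod_eq ![1, 1, 0, 0, 0]
  simp only [Matrix.cons_val_zero, Matrix.cons_val_one, Matrix.cons_val, pow_one, pow_zero, mul_one] at e
  have h3 : dd 0 1 ^ 3 = 1 := by
    rw [show dd 0 1 = dd 0 (0 : Fin 5).succ from rfl, dd_zero, ← map_pow, ← map_one Eh]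
    exact congrArg Eh (Multiplicative.toAdd.injective (funext fun j => by
      rw [toAdd_pow, toAdd_one, toAdd_ofAdd, Pi.smul_apply, nsmul_eq_mul,
        show ((3 : ℕ) : U43.K) = 0 by decide, zero_mul]; rfl))
  have h4 : dd 0 1 * dd 0 2 = 1 := by rw [h2, ← pow_succ', h3]
  rw [h4] at e
  exact absurd (indep (e ▸ one_mem _) 0 2) (by decide)

variable {Γ : Type} [Group Γ] [Finite Γ] (σ : Γ →* G0)

/-- The lifted module. -/
def lift4 : Subgroup Γ := Subgroup.closure {X | ∃ i j, σ X = dd i j}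

/-- The hypotheses on the extension. -/
structure Ext : Prop where
  surj : Function.Surjective σ
  central : σ.ker ≤ Subgroup.center Γ
  cube : ∀ z ∈ σ.ker, z ^ 3 = 1

variable {σ} (hσ : Ext σ)

include hσ

theorem Ext.kc {z : Γ} (hz : z ∈ σ.ker) (g : Γ) : g * z = z * g := ker_comm hσ.central hz g

theorem Ext.conj_eq {T T' : Γ} (h : σ T = σ T') (y : Γ) : T * y * T⁻¹ = T' * y * T'⁻¹ := by
  have hz : T'⁻¹ * T ∈ σ.ker := by rw [MonoidHom.mem_ker, map_mul, map_inv, h, inv_mul_cancel]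
  conv_lhs => rw [show T = T' * (T'⁻¹ * T) from (mul_inv_cancel_left _ _).symm]
  rw [mul_inv_rev, mul_assoc T', ← hσ.kc hz y]
  group

theorem Ext.ker_sq {z : Γ} (hz : z ∈ σ.ker) (h : z * z = 1) : z = 1 := by
  have h3 := hσ.cube z hz
  rwa [pow_succ, pow_two, h, one_mul] at h3

theorem ker_le_lift4 : σ.ker ≤ lift4 σ := fun z hz =>
  Subgroup.subset_closure ⟨0, 0, by rw [MonoidHom.mem_ker.1 hz, dd_self]⟩

theorem Ext.exists_base : ∃ x : Γ, σ x = dd 0 1 ∧ x ^ 3 = 1 := by
  obtain ⟨T, hT⟩ := hσ.surj (aa tau)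
  obtain ⟨x, hx⟩ := hσ.surj (dd 0 1)
  have e0 : tau.1 0 = 1 := by decide
  have e1 : tau.1 1 = 0 := by decide
  have hz : x * (T * x * T⁻¹) ∈ σ.ker := by
    rw [MonoidHom.mem_ker, map_mul, map_mul, map_mul, map_inv, hT, hx, dd_conj, e0, e1, dd_mul, dd_self]
  set z := x * (T * x * T⁻¹) with hzd
  refine ⟨x * z, by rw [map_mul, MonoidHom.mem_ker.1 hz, mul_one, hx], ?_⟩
  have hk : (x * z) ^ 3 ∈ σ.ker := by
    rw [MonoidHom.mem_ker, map_pow, map_mul, MonoidHom.mem_ker.1 hz, mul_one, hx,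
      show dd 0 1 = dd 0 (0 : Fin 5).succ from rfl, dd_zero, ← map_pow, ← map_one Eh]
    exact congrArg Eh (Multiplicative.toAdd.injective (funext fun j => by
      rw [toAdd_pow, toAdd_one, toAdd_ofAdd, Pi.smul_apply, nsmul_eq_mul,
        show ((3 : ℕ) : U43.K) = 0 by decide, zero_mul]; rfl))
  refine hσ.ker_sq hk ?_
  have e : T * (x * z) * T⁻¹ = (x * z)⁻¹ := by
    have e1 : T * x * T⁻¹ = x⁻¹ * z := (inv_mul_cancel_left _ _).symm
    have e2 : z * z = z⁻¹ := eq_inv_of_mul_eq_one_left (by rw [← pow_two, ← pow_succ, hσ.cube z hz])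
    calc T * (x * z) * T⁻¹ = (T * x * T⁻¹) * (T * z * T⁻¹) := by group
      _ = x⁻¹ * (z * z) := by rw [hσ.kc hz T, mul_inv_cancel_right, e1, mul_assoc]
      _ = x⁻¹ * z⁻¹ := by rw [e2]
      _ = z⁻¹ * x⁻¹ := hσ.kc (inv_mem hz) x⁻¹
      _ = (x * z)⁻¹ := (mul_inv_rev x z).symm
  have e3 : T * (x * z) ^ 3 * T⁻¹ = ((x * z) ^ 3)⁻¹ := by rw [← conj_pow, e, inv_pow]
  rw [hσ.kc hk T, mul_inv_cancel_right] at e3
  nth_rewrite 1 [e3]
  rw [inv_mul_cancel]

theorem Ext.edges_commute : ∀ i j k l U V, σ U = dd i j → σ V = dd k l → Commute U V := by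
  obtain ⟨x, hx⟩ := hσ.surj (dd 0 1)
  obtain ⟨Y, hY⟩ := hσ.surj (dd 0 2)
  refine edge_comm hσ.surj hσ.central dd_conj dd_mul hx hY ?_
  obtain ⟨π, h0, h1, h2⟩ := exists_move₃ 0 2 1 (by decide) (by decide) (by decide)
  obtain ⟨U, hU⟩ := hσ.surj (aa π)
  have hcm : Commute (σ x) (σ Y) := by
    rw [hx, hY, show dd 0 1 = dd 0 (0 : Fin 5).succ from rfl, show dd 0 2 = dd 0 (1 : Fin 5).succ from rfl,
      dd_zero, dd_zero]
    exact (Commute.all _ _).map Eh
  have e := comm_conj_eq hσ.central (T := U) (X' := Y) (Y' := x) hcm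
    (by rw [map_mul, map_mul, map_inv, hU, hx, dd_conj, h0, h1, hY])
    (by rw [map_mul, map_mul, map_inv, hU, hY, dd_conj, h0, h2, hx])
  rw [← commutatorElement_eq_one_iff_commute]
  refine hσ.ker_sq (comm_mem_ker hcm) ?_
  nth_rewrite 1 [← e]
  rw [← commutatorElement_inv, inv_mul_cancel]

theorem Ext.lift4_comm : ∀ a ∈ lift4 σ, ∀ b ∈ lift4 σ, a * b = b * a := by
  have h : ∀ a ∈ lift4 σ, a ∈ Subgroup.centralizer {X | ∃ i j, σ X = dd i j} := by
    intro a ha
    refine (Subgroup.closure_le _).2 ?_ ha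
    rintro X ⟨i, j, hX⟩
    refine Subgroup.mem_centralizer_iff.2 ?_
    rintro Y ⟨k, l, hY⟩
    exact (hσ.edges_commute k l i j Y X hY hX).eq
  intro a ha b hb
  have hb' : b ∈ Subgroup.centralizer ({a} : Set Γ) := by
    refine (Subgroup.closure_le _).2 (fun X hX => ?_) hb
    refine Subgroup.mem_centralizer_iff.2 fun y hy => ?_
    rw [Set.mem_singleton_iff.1 hy]
    exact ((Subgroup.mem_centralizer_iff.1 (h a ha)) X hX).symm
  exact Subgroup.mem_centralizer_iff.1 hb' a rfl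

theorem Ext.lift4_cube : ∀ a ∈ lift4 σ, a ^ 3 = 1 := by
  obtain ⟨x, hx, hx3⟩ := hσ.exists_base
  intro a ha
  induction ha using Subgroup.closure_induction with
  | mem X hX =>
    obtain ⟨i, j, hX⟩ := hX
    by_cases h : i = j
    · exact hσ.cube X (by rw [MonoidHom.mem_ker, hX, h, dd_self])
    obtain ⟨π, h0, h1⟩ := exists_move i j h
    obtain ⟨T, hT⟩ := hσ.surj (aa π)
    have hy : σ (T * x * T⁻¹) = σ X := by rw [map_mul, map_mul, map_inv, hT, hx, dd_conj, h0, h1, hX]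
    have hz : (T * x * T⁻¹)⁻¹ * X ∈ σ.ker := by rw [MonoidHom.mem_ker, map_mul, map_inv, hy, inv_mul_cancel]
    rw [show X = (T * x * T⁻¹) * ((T * x * T⁻¹)⁻¹ * X) from (mul_inv_cancel_left _ _).symm,
      (show Commute (T * x * T⁻¹) _ from hσ.kc hz _).mul_pow, hσ.cube _ hz, conj_pow, hx3]
    simp
  | one => exact one_pow 3
  | mul u v hu hv ihu ihv =>
    rw [(show Commute u v from hσ.lift4_comm u hu v hv).mul_pow, ihu, ihv, one_mul]
  | inv u _ ihu => rw [inv_pow, ihu, inv_one]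

theorem Ext.conj_lift4 {π : A6} {T : Γ} (hT : σ T = aa π) {m : Γ} (hm : m ∈ lift4 σ) :
    T * m * T⁻¹ ∈ lift4 σ := by
  induction hm using Subgroup.closure_induction with
  | mem X hX =>
    obtain ⟨i, j, hX⟩ := hX
    exact Subgroup.subset_closure ⟨π.1 i, π.1 j, by rw [map_mul, map_mul, map_inv, hT, hX, dd_conj]⟩
  | one => simp
  | mul u v _ _ hu hv =>
    rw [show T * (u * v) * T⁻¹ = (T * u * T⁻¹) * (T * v * T⁻¹) by group]; exact mul_mem hu hv
  | inv u _ hu => rw [show T * u⁻¹ * T⁻¹ = (T * u * T⁻¹)⁻¹ by group]; exact inv_mem hu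

variable {V : Type*} [AddCommGroup V] [Finite V] (hV : ∀ v : V, v + v = 0)
  (ρ : Γ →* AddMonoid.End V)

include hV

theorem Ext.hyp : Hyp (R := AddMonoid.End V) (lift4 σ) :=
  ⟨AddMonoidHom.ext fun v => by
    show ((2 : ℕ) : AddMonoid.End V) v = 0
    rw [AddMonoid.End.natCast_apply, two_nsmul, hV], hσ.lift4_comm, hσ.lift4_cube⟩

theorem Ext.avg_fixed {H : Subgroup Γ} (hH : H ≤ lift4 σ) {v : V} (h : ∀ k ∈ H, ρ k v = v) :
    avg ρ H v = v := by
  have e := (hσ.hyp hV).avg_mul (ρ := ρ) hH (X := avg ρ H) fun k hk => map_mul_avg ρ hk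
  have hsum : (∑ k ∈ (H : Set Γ).toFinite.toFinset, ρ k : AddMonoid.End V) v =
      ∑ k ∈ (H : Set Γ).toFinite.toFinset, ρ k v := AddMonoidHom.finsetSum_apply _ _ _
  rw [avg, hsum, Finset.sum_congr rfl fun k hk => h k (by simpa using hk),
    Finset.sum_const, show ((H : Set Γ).toFinite.toFinset).card = Nat.card H from
      ((Nat.card_coe_set_eq _).trans (Set.ncard_eq_toFinset_card _ _)).symm]
  obtain ⟨n, hn⟩ := (hσ.hyp hV).odd hH
  rw [hn, succ_nsmul, mul_nsmul, two_nsmul, hV, smul_zero, zero_add]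

/-- The range of the projection on a weight space. -/
noncomputable def space (ρ : Γ →* AddMonoid.End V) (M H : Subgroup Γ) : AddSubgroup V :=
  AddMonoidHom.range (G := V) (N := V) (proj (R := AddMonoid.End V) ρ M H)

theorem Ext.four_le {H : Subgroup Γ} (hH : IsWeight ρ (lift4 σ) H) : 4 ≤ Nat.card (space ρ (lift4 σ) H) := by
  obtain ⟨hle, hne, hcov, hP⟩ := hH
  set P := proj ρ (lift4 σ) H with hPdef
  obtain ⟨w, hw⟩ : ∃ w, P w ≠ 0 := by
    by_contra h
    push Not at h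
    exact hP (AddMonoidHom.ext h)
  obtain ⟨a, haM, haH⟩ := SetLike.exists_of_lt (lt_of_le_of_ne hle hne)
  have hav : ρ a (P w) ≠ P w := by
    intro e
    refine hw ?_
    have hfix : ∀ k ∈ lift4 σ, ρ k (P w) = P w := by
      let S : Subgroup Γ :=
        { carrier := {k | ρ k (P w) = P w}
          one_mem' := by show ρ 1 (P w) = P w; rw [map_one]; rfl
          mul_mem' := fun {u v} (hu : ρ u (P w) = P w) (hv : ρ v (P w) = P w) => by
            show ρ (u * v) (P w) = P w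
            rw [map_mul]; show ρ u (ρ v (P w)) = P w; rw [hv, hu]
          inv_mem' := fun {u} (hu : ρ u (P w) = P w) => by
            show ρ u⁻¹ (P w) = P w
            conv_lhs => rw [← hu]
            show (ρ u⁻¹ * ρ u) (P w) = P w
            rw [← map_mul, inv_mul_cancel, map_one]; rfl }
      exact fun k hk => (sup_le (fun u hu => DFunLike.congr_fun ((hσ.hyp hV).map_mul_proj (ρ := ρ) hle hu) w :
        H ≤ S) (Subgroup.zpowers_le.2 (show a ∈ S from e))) (hcov a haM haH hk)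
    rw [← hσ.avg_fixed hV ρ le_rfl hfix]
    exact DFunLike.congr_fun ((hσ.hyp hV).avg_self_mul_proj (ρ := ρ) hle) w
  have hcomm : ρ a * P = P * ρ a :=
    ((hσ.hyp hV).commute_avg hle haM).add_right ((hσ.hyp hV).commute_avg le_rfl haM) |>.eq
  set v := P w
  set u := ρ a v
  have hinj : u ≠ 0 := by
    intro e
    refine hw ?_
    have : (ρ a⁻¹ * ρ a) v = 0 := by show ρ a⁻¹ u = 0; rw [e, map_zero]
    rwa [← map_mul, inv_mul_cancel, map_one] at this
  have hmem : ∀ x : Fin 4, (![0, v, u, v + u] x) ∈ space ρ (lift4 σ) H := by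
    have hv : v ∈ space ρ (lift4 σ) H := ⟨w, rfl⟩
    have hu : u ∈ space ρ (lift4 σ) H := ⟨ρ a w, (DFunLike.congr_fun hcomm w).symm⟩
    intro x; fin_cases x
    · exact zero_mem _
    · exact hv
    · exact hu
    · exact add_mem hv hu
  refine le_trans (le_of_eq (Nat.card_fin 4).symm)
    (Nat.card_le_card_of_injective (fun x => (⟨_, hmem x⟩ : space ρ (lift4 σ) H)) fun x y h => ?_)
  have h' : ![0, v, u, v + u] x = ![0, v, u, v + u] y := congrArg Subtype.val h
  have f1 : v + u ≠ 0 := fun e => hav (by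
    calc u = (v + v) + u := by rw [hV, zero_add]
      _ = v := by rw [add_assoc, e, add_zero])
  fin_cases x <;> fin_cases y <;> simp at h' ⊢ <;>
    first
      | exact hw h' | exact hw h'.symm | exact hinj h' | exact hinj h'.symm | exact f1 h' | exact f1 h'.symm
      | exact hav h' | exact hav h'.symm | exact hw (by simpa using h') | exact hinj (by simpa using h')

omit hσ hV in
theorem finite_weights : Finite {H : Subgroup Γ // IsWeight ρ (lift4 σ) H} := inferInstance

theorem Ext.sum_space [Fintype {H : Subgroup Γ // IsWeight ρ (lift4 σ) H}]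
    (x : ∀ H : {H : Subgroup Γ // IsWeight ρ (lift4 σ) H}, space ρ (lift4 σ) H.1) (K) :
    proj ρ (lift4 σ) K.1 (∑ H, (x H : V)) = x K := by
  classical
  rw [map_sum, Finset.sum_eq_single K]
  · obtain ⟨w, hw⟩ := (x K).2
    rw [← hw]
    exact DFunLike.congr_fun ((hσ.hyp hV).proj_mul_self (ρ := ρ) K.2.1) w
  · intro H _ hne
    obtain ⟨w, hw⟩ := (x H).2
    rw [← hw]
    exact DFunLike.congr_fun ((hσ.hyp hV).proj_mul_proj (ρ := ρ) K.2 H.2
      fun e => hne (Subtype.ext e.symm)) w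
  · simp

theorem Ext.sum_injective [Fintype {H : Subgroup Γ // IsWeight ρ (lift4 σ) H}] :
    Function.Injective fun x : ∀ H : {H : Subgroup Γ // IsWeight ρ (lift4 σ) H}, space ρ (lift4 σ) H.1 =>
      ∑ H, (x H : V) := by
  intro x y h
  funext K
  exact Subtype.ext ((hσ.sum_space hV ρ x K).symm.trans ((congrArg _ h).trans (hσ.sum_space hV ρ y K)))

theorem Ext.pow_le [Fintype {H : Subgroup Γ // IsWeight ρ (lift4 σ) H}] :
    4 ^ Nat.card {H : Subgroup Γ // IsWeight ρ (lift4 σ) H} ≤ Nat.card V := by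
  refine le_trans ?_ (Nat.card_le_card_of_injective _ (hσ.sum_injective hV ρ))
  rw [Nat.card_pi, Nat.card_eq_fintype_card, ← Finset.card_univ, ← Finset.prod_const]
  exact Finset.prod_le_prod' fun H _ => hσ.four_le hV ρ H.2

end CfsgLib.LargeFischer.PSUModule
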