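import Cfsg.Agent.Lib.LargeFischer.PSUFrame

/-!
The consequences: modules smaller than `2^12` are trivial on the commutator subgroup; a non-trivial module
of order at most `2^12` consists of six lines with the monomial action of `3^5 : A₆`.
-/

set_option autoImplicit false
set_option linter.unusedSectionVars false
set_option linter.style.haveILetI false
set_option maxRecDepth 4000

namespace CfsgLib.LargeFischer.PSUModule

open CfsgLib.SchurMult CfsgLib.SchurMult.U43 CfsgLib.SchurMult.U43.Three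
open CfsgLib.LargeFischer.Weights
open scoped commutatorElement

/-- Six lines of order four with the monomial action. -/
structure SixFrame {Γ : Type} [Group Γ] (σ : Γ →* G0) {V : Type*} [AddCommGroup V]
    (ρ : Γ →* AddMonoid.End V) (P : Fin 6 → AddMonoid.End V) : Prop where
  card : Nat.card V = 4 ^ 6
  kerCard : Nat.card σ.ker = 3
  fpf : ∀ z ∈ σ.ker, z ≠ 1 → ∀ v : V, ρ z v = v → v = 0
  orth : ∀ i j, i ≠ j → P i * P j = 0
  idem : ∀ i, P i * P i = P i
  total : ∀ v : V, ∑ i, P i v = v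
  line : ∀ i, Nat.card (Set.range (P i : V → V)) = 4
  kerRange : ρ.ker = ⊥
  perm : ∀ π : A6, ∃ T : Γ, σ T ∈ aa.range ∧ ∀ i, ρ T * P i = P (π.1 i) * ρ T
  diag : ∀ z ∈ σ.ker, z ≠ 1 → ∀ c : Fin 6 → ZMod 3, ∑ i, c i = 0 →
    ∃ m ∈ lift4 σ, ∀ i, ρ m * P i = ρ (z ^ (c i).val) * P i

theorem exists_others : ∀ i j : Fin 6, i ≠ j → ∃ k l m n : Fin 6, ∃ p q : A6,
    p.1 i = j ∧ p.1 j = i ∧ p.1 k = l ∧ p.1 l = k ∧ p.1 m = m ∧ p.1 n = n ∧
    q.1 i = i ∧ q.1 j = j ∧ q.1 k = l ∧ q.1 l = k ∧ q.1 m = n ∧ q.1 n = m ∧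
    ∀ x, x = i ∨ x = j ∨ x = k ∨ x = l ∨ x = m ∨ x = n := by
  intro i j h
  obtain ⟨π, rfl, rfl⟩ := exists_move i j h
  refine ⟨π.1 2, π.1 3, π.1 4, π.1 5, π * tau * π⁻¹,
    π * ⟨Equiv.swap 2 3 * Equiv.swap 4 5, Equiv.Perm.mem_alternatingGroup.2 (by decide)⟩ * π⁻¹, ?_⟩
  have hT : tau.1 0 = 1 ∧ tau.1 1 = 0 ∧ tau.1 2 = 3 ∧ tau.1 3 = 2 ∧ tau.1 4 = 4 ∧ tau.1 5 = 5 := by decide
  simp [Subgroup.coe_mul, Subgroup.coe_inv, Equiv.Perm.mul_apply, hT]
  refine ⟨by decide, by decide, by decide, by decide, by decide, by decide, fun x => ?_⟩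
  obtain ⟨y, rfl⟩ := π.1.surjective x
  simp only [π.1.injective.eq_iff]
  revert y; decide

/-- An alternating-invariant set of vectors closed under addition, with a non-constant member, contains every
vector of sum zero. -/
theorem sum_zero_mem {C : AddSubgroup (Fin 6 → ZMod 3)} (hinv : ∀ π : A6, ∀ c ∈ C, (fun i => c (π.1 i)) ∈ C)
    {c : Fin 6 → ZMod 3} (hc : c ∈ C) {i j : Fin 6} (hij : c i ≠ c j) (d : Fin 6 → ZMod 3)
    (hd : ∑ i, d i = 0) : d ∈ C := by
  have hne : i ≠ j := fun h => hij (by rw [h])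
  obtain ⟨k, l, m, n, p, q, pi', pj, pk, pl, pm, pn, qi, qj, qk, ql, qm, qn, hall⟩ := exists_others i j hne
  have hu : (fun x => c x - c (p.1 x)) ∈ C := sub_mem hc (hinv p c hc)
  have hw : (fun x => (c x - c (p.1 x)) + (c (q.1 x) - c (p.1 (q.1 x)))) ∈ C := add_mem hu (hinv q _ hu)
  have e : (fun x => (c x - c (p.1 x)) + (c (q.1 x) - c (p.1 (q.1 x)))) =
      (2 * (c i - c j)) • (Pi.single i 1 - Pi.single j 1 : Fin 6 → ZMod 3) := by
    funext x
    simp only [Pi.smul_apply, Pi.sub_apply, smul_eq_mul]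
    have hki : k ≠ i := fun e => by subst e; exact hne ((qi.symm.trans qk).trans (pk.symm.trans pi'))
    rcases hall x with rfl | rfl | rfl | rfl | rfl | rfl
    · rw [qi, pi', Pi.single_eq_same, Pi.single_eq_of_ne hne]; ring
    · rw [qj, pj, Pi.single_eq_same, Pi.single_eq_of_ne hne.symm]; ring
    · rw [qk, pk, pl, Pi.single_eq_of_ne (by rintro rfl; exact hki rfl),
        Pi.single_eq_of_ne (by rintro rfl; rw [pj] at pk; rw [← pk, qi] at ql; exact hne ql)]
      ring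
    · rw [ql, pk, pl, Pi.single_eq_of_ne (by rintro rfl; rw [qi] at ql; exact hki ql.symm),
        Pi.single_eq_of_ne (by rintro rfl; rw [qj] at ql; rw [← ql, pj] at pk; exact hne pk)]
      ring
    · rw [qm, pm, pn, Pi.single_eq_of_ne (by rintro rfl; rw [pi'] at pm; exact hne pm.symm),
        Pi.single_eq_of_ne (by rintro rfl; rw [pj] at pm; exact hne pm)]
      ring
    · rw [qn, pm, pn, Pi.single_eq_of_ne (by rintro rfl; rw [pi'] at pn; exact hne pn.symm),
        Pi.single_eq_of_ne (by rintro rfl; rw [pj] at pn; exact hne pn)]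
      ring
  have hbase : (Pi.single i 1 - Pi.single j 1 : Fin 6 → ZMod 3) ∈ C := by
    rw [e] at hw
    have hr : (2 * (c i - c j)) ≠ 0 := mul_ne_zero (by decide) (sub_ne_zero.2 hij)
    rcases (by decide : ∀ r : ZMod 3, r ≠ 0 → r = 1 ∨ r = -1) _ hr with h | h <;> rw [h] at hw
    · simpa using hw
    · have := neg_mem hw; simpa using this
  have hpair : ∀ a b : Fin 6, (Pi.single a 1 - Pi.single b 1 : Fin 6 → ZMod 3) ∈ C := by
    intro a b
    by_cases hab : a = b
    · rw [hab, sub_self]; exact zero_mem _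
    obtain ⟨π, h0, h1⟩ := exists_move a b hab
    obtain ⟨π', h0', h1'⟩ := exists_move i j hne
    have := hinv (π' * π⁻¹) _ hbase
    have e2 : (fun x => (Pi.single i 1 - Pi.single j 1 : Fin 6 → ZMod 3) ((π' * π⁻¹).1 x)) =
        Pi.single a 1 - Pi.single b 1 := by
      funext x
      obtain ⟨y, rfl⟩ := π.1.surjective x
      rw [Subgroup.coe_mul, Equiv.Perm.mul_apply, Subgroup.coe_inv]
      simp only [Pi.sub_apply, ← h0, ← h1, ← h0', ← h1', Pi.single_apply, EmbeddingLike.apply_eq_iff_eq]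
      simp
    rwa [e2] at this
  have hdsum : d = ∑ x, (d x).val • (Pi.single x 1 - Pi.single 0 1 : Fin 6 → ZMod 3) := by
    funext y
    rw [Finset.sum_apply]
    simp only [Pi.smul_apply, Pi.sub_apply, nsmul_eq_mul, ZMod.natCast_val, ZMod.cast_id', id_eq, mul_sub,
      Finset.sum_sub_distrib, ← Finset.sum_mul, hd, zero_mul, sub_zero]
    simp [Pi.single_apply]
  rw [hdsum]
  exact sum_mem fun x _ => nsmul_mem (hpair x 0) _

variable {Γ : Type} [Group Γ] [Finite Γ] {σ : Γ →* G0} (hσ : Ext σ)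
variable {V : Type*} [AddCommGroup V] [Finite V] (hV : ∀ v : V, v + v = 0) (ρ : Γ →* AddMonoid.End V)

include hσ hV

/-- The structure of a module of order at most `2^12`. -/
theorem Ext.exists_six_frame (hker : Nat.card σ.ker ≤ 3) (hρ : ∃ g ∈ commutator Γ, ρ g ≠ 1)
    (hcard : Nat.card V ≤ 4 ^ 6) :
    ∃ P : Fin 6 → AddMonoid.End V, SixFrame σ ρ P := by
  classical
  haveI : Fintype (Wt σ ρ) := Fintype.ofFinite _
  have hM := hσ.hyp hV
  have hk6 := hσ.card_weights hV ρ hρ hcard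
  let e : Wt σ ρ ≃ Fin 6 := Finite.equivFinOfCardEq hk6
  let f : A6 →* Equiv.Perm (Fin 6) := e.permCongrHom.toMonoidHom.comp (hσ.act ρ)
  have hf : Function.Injective f := fun a b h => hσ.act_injective hV ρ hρ (e.permCongrHom.injective h)
  have hidx : f.range.index = 2 := by
    have := Subgroup.card_mul_index f.range
    rw [← Nat.card_congr (MonoidHom.ofInjective hf).toEquiv, nat_card_alternatingGroup, Nat.card_fin,
      Nat.card_perm, Nat.card_fin] at this
    simp [Nat.factorial] at this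
    omega
  have halt := Equiv.Perm.eq_alternatingGroup_of_index_eq_two hidx
  have hmove : ∀ π : A6, ∃ (π' : A6) (T : Γ), σ T = aa π' ∧
      ∀ i, (e.symm i).1.map (MulAut.conj T).toMonoidHom = (e.symm (π.1 i)).1 := by
    intro π
    obtain ⟨π', hπ'⟩ : π.1 ∈ f.range := halt ▸ π.2
    obtain ⟨T, hT⟩ := hσ.surj (aa π')
    refine ⟨π', T, hT, fun i => ?_⟩
    rw [← hσ.act_val ρ hT (e.symm i)]
    congr 1
    apply e.injective
    rw [← hπ']
    simp [f]
  -- the sum map is bijective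
  let Φ := fun x : ∀ H : Wt σ ρ, space ρ (lift4 σ) H.1 => ∑ H, (x H : V)
  have hΦ : Function.Injective Φ := hσ.sum_injective hV ρ
  have hprod : Nat.card (∀ H : Wt σ ρ, space ρ (lift4 σ) H.1) = ∏ H : Wt σ ρ, Nat.card (space ρ (lift4 σ) H.1) :=
    Nat.card_pi
  have hlow : 4 ^ 6 = ∏ _H : Wt σ ρ, 4 := by
    rw [Finset.prod_const, Finset.card_univ, ← Nat.card_eq_fintype_card, hk6]
  have hle : ∏ H : Wt σ ρ, Nat.card (space ρ (lift4 σ) H.1) ≤ Nat.card V :=
    hprod ▸ Nat.card_le_card_of_injective Φ hΦ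
  have hge : 4 ^ 6 ≤ ∏ H : Wt σ ρ, Nat.card (space ρ (lift4 σ) H.1) :=
    hlow ▸ Finset.prod_le_prod' fun H _ => hσ.four_le hV ρ H.2
  have hV6 : Nat.card V = 4 ^ 6 := by omega
  have hbij : Function.Bijective Φ := hΦ.bijective_of_nat_card_le (by rw [hprod]; omega)
  have hfour : ∀ H : Wt σ ρ, Nat.card (space ρ (lift4 σ) H.1) = 4 := by
    intro H
    refine le_antisymm ?_ (hσ.four_le hV ρ H.2)
    by_contra h
    have h1 : ∏ _H : Wt σ ρ, 4 < ∏ H : Wt σ ρ, Nat.card (space ρ (lift4 σ) H.1) :=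
      Finset.prod_lt_prod (fun _ _ => by norm_num) (fun K _ => hσ.four_le hV ρ K.2)
        ⟨H, Finset.mem_univ _, by omega⟩
    omega
  let P : Fin 6 → AddMonoid.End V := fun i => proj ρ (lift4 σ) (e.symm i).1
  have htot : ∀ v : V, ∑ i, P i v = v := by
    intro v
    obtain ⟨x, hx⟩ := hbij.2 v
    rw [Fintype.sum_equiv e.symm (fun i => P i v) (fun H => proj ρ (lift4 σ) H.1 v) (fun i => rfl), ← hx]
    exact Finset.sum_congr rfl fun H _ => hσ.sum_space hV ρ x H
  have hz_out : ∀ (H : Wt σ ρ), ∀ z ∈ σ.ker, z ∈ H.1 → z = 1 := by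
    intro H z hz hzH
    by_contra hz1
    refine hσ.not_ker_le hV ρ hρ hcard H fun w hw => ?_
    have h1 : orderOf z = 3 := orderOf_eq_prime (hσ.cube z hz) hz1
    have h2 : Subgroup.zpowers z = σ.ker :=
      Subgroup.eq_of_le_of_card_ge (Subgroup.zpowers_le.2 hz) (by rw [Nat.card_zpowers, h1]; exact hker)
    exact (Subgroup.zpowers_le.2 hzH) (h2.symm ▸ hw)
  obtain ⟨z₀, hz₀, hz₀1⟩ : ∃ z ∈ σ.ker, z ≠ 1 := by
    by_contra h
    push Not at h
    exact hσ.not_ker_le hV ρ hρ hcard (e.symm 0) fun w hw => by rw [h w hw]; exact one_mem _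
  have hPe : ∀ H : Wt σ ρ, P (e H) = proj ρ (lift4 σ) H.1 := fun H => by simp [P]
  have hPH : ∀ (i : Fin 6) {h : Γ}, h ∈ (e.symm i).1 → ρ h * P i = P i := fun i h hh =>
    hM.map_mul_proj (e.symm i).2.1 hh
  -- exponents
  have hexp : ∀ z ∈ σ.ker, z ≠ 1 → ∀ m ∈ lift4 σ, ∀ H : Wt σ ρ,
      ∃ c : ZMod 3, m * (z ^ c.val)⁻¹ ∈ H.1 := by
    intro z hz hz1 m hm H
    have hzH : z ∉ H.1 := fun h => hz1 (hz_out H z hz h)
    have hle : Subgroup.zpowers z ≤ Subgroup.normalizer (H.1 : Set Γ) :=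
      Subgroup.zpowers_le.2 (Subgroup.mem_normalizer_iff.2 fun y => by
        rw [← hσ.kc hz y, mul_inv_cancel_right])
    have hm' : m ∈ (↑(H.1 ⊔ Subgroup.zpowers z) : Set Γ) := H.2.2.2.1 z (ker_le_lift4 hσ hz) hzH hm
    rw [Subgroup.coe_mul_of_right_le_normalizer_left _ _ hle] at hm'
    obtain ⟨h, hh, _, hp, he⟩ := hm'
    obtain ⟨n, rfl⟩ := (isOfFinOrder_of_finite z).mem_powers_iff_mem_zpowers.2 hp
    simp only at he
    refine ⟨n, ?_⟩
    have h3 : z ^ ((n : ZMod 3)).val = z ^ n := by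
      rw [ZMod.val_natCast]
      conv_rhs => rw [← Nat.mod_add_div n 3, pow_add, pow_mul, hσ.cube z hz, one_pow, mul_one]
    rw [← he, h3, mul_inv_cancel_right]
    exact hh
  have hpow : ∀ z ∈ σ.ker, ∀ a b : ZMod 3, z ^ (a + b).val = z ^ a.val * z ^ b.val := by
    intro z hz a b
    rw [ZMod.val_add, ← pow_add]
    conv_rhs => rw [← Nat.mod_add_div (a.val + b.val) 3, pow_add, pow_mul, hσ.cube z hz, one_pow, mul_one]
  refine ⟨P, ⟨hV6, ?_, ?_, ?_, fun i => hM.proj_mul_self (e.symm i).2.1, htot, fun i => hfour _, ?_, ?_, ?_⟩⟩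
  · refine le_antisymm hker ?_
    have := Subgroup.card_le_of_le (Subgroup.zpowers_le.2 hz₀)
    rwa [Nat.card_zpowers, orderOf_eq_prime (hσ.cube z₀ hz₀) hz₀1] at this
  · intro z hz hz1 v hv
    rw [← htot v]
    refine Finset.sum_eq_zero fun i _ => ?_
    have hcom : ρ z (P i v) = P i v := by
      have h1 : ρ z * P i = P i * ρ z :=
        ((hM.commute_avg (e.symm i).2.1 (ker_le_lift4 hσ hz)).add_right
          (hM.commute_avg le_rfl (ker_le_lift4 hσ hz))).eq
      exact (DFunLike.congr_fun h1 v).trans (congrArg (P i) hv)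
    have hfix : ∀ m ∈ lift4 σ, ρ m (P i v) = P i v := by
      intro m hm
      obtain ⟨c, hc⟩ := hexp z hz hz1 m hm (e.symm i)
      have hz' : ∀ n : ℕ, ρ (z ^ n) (P i v) = P i v := fun n => by
        induction n with
        | zero => rw [pow_zero, map_one]; rfl
        | succ n ih => rw [pow_succ, map_mul]; show ρ (z ^ n) (ρ z (P i v)) = P i v; rw [hcom, ih]
      rw [← inv_mul_cancel_right m (z ^ c.val), map_mul]
      show ρ (m * (z ^ c.val)⁻¹) (ρ (z ^ c.val) (P i v)) = P i v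
      rw [hz']
      exact DFunLike.congr_fun (hPH i hc) v
    rw [← hσ.avg_fixed hV ρ le_rfl hfix]
    exact DFunLike.congr_fun (hM.avg_self_mul_proj (ρ := ρ) (e.symm i).2.1) v
  · intro i j hij
    exact hM.proj_mul_proj (e.symm i).2 (e.symm j).2 fun h => hij (e.symm.injective (Subtype.ext h))
  · refine (Subgroup.eq_bot_iff_forall _).2 fun g hg => ?_
    have hgk := hσ.ker_le ρ hρ hg
    by_contra hg1
    obtain ⟨v, hv⟩ : ∃ v : V, v ≠ 0 := by
      by_contra h
      push Not at h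
      haveI : Subsingleton V := ⟨fun a b => by rw [h a, h b]⟩
      rw [Nat.card_of_subsingleton (0 : V)] at hV6
      norm_num at hV6
    obtain ⟨i, hi⟩ : ∃ i, P i v ≠ 0 := by
      by_contra h
      push Not at h
      exact hv ((htot v).symm.trans (Finset.sum_eq_zero fun i _ => h i))
    refine hi ?_
    have hfix : ∀ m ∈ lift4 σ, ρ m (P i v) = P i v := by
      intro m hm
      obtain ⟨c, hc⟩ := hexp g hgk hg1 m hm (e.symm i)
      rw [← inv_mul_cancel_right m (g ^ c.val), map_mul]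
      show ρ (m * (g ^ c.val)⁻¹) (ρ (g ^ c.val) (P i v)) = P i v
      rw [map_pow, MonoidHom.mem_ker.1 hg, one_pow]
      exact DFunLike.congr_fun (hPH i hc) v
    rw [← hσ.avg_fixed hV ρ le_rfl hfix]
    exact DFunLike.congr_fun (hM.avg_self_mul_proj (ρ := ρ) (e.symm i).2.1) v
  · intro π
    obtain ⟨π', T, hT, hmap⟩ := hmove π
    exact ⟨T, ⟨π', hT.symm⟩, fun i => by rw [hσ.map_proj ρ hT, hmap]⟩
  · intro z hz hz1 c hc
    let C : AddSubgroup (Fin 6 → ZMod 3) :=
      { carrier := {c | ∃ m ∈ lift4 σ, ∀ i, m * (z ^ (c i).val)⁻¹ ∈ (e.symm i).1}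
        zero_mem' := ⟨1, one_mem _, fun i => by simp⟩
        add_mem' := fun {a b} ⟨m, hm, hma⟩ ⟨m', hm', hmb⟩ => ⟨m * m', mul_mem hm hm', fun i => by
          rw [Pi.add_apply, hpow z hz, mul_inv_rev,
            show m * m' * ((z ^ (b i).val)⁻¹ * (z ^ (a i).val)⁻¹) =
              m * ((m' * (z ^ (b i).val)⁻¹) * (z ^ (a i).val)⁻¹) by group,
            hσ.kc (inv_mem (pow_mem hz _)) (m' * (z ^ (b i).val)⁻¹), ← mul_assoc]
          exact mul_mem (hma i) (hmb i)⟩
        neg_mem' := fun {a} ⟨m, hm, hma⟩ => ⟨m⁻¹, inv_mem hm, fun i => by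
          have h1 : z ^ ((-a) i).val = (z ^ (a i).val)⁻¹ := eq_inv_of_mul_eq_one_left (by
            rw [← hpow z hz, Pi.neg_apply, neg_add_cancel, ZMod.val_zero, pow_zero])
          rw [h1, inv_inv]
          have := inv_mem (hma i)
          rwa [mul_inv_rev, inv_inv, ← hσ.kc (pow_mem hz _) m⁻¹] at this⟩ }
    have hinv : ∀ π : A6, ∀ c ∈ C, (fun i => c (π.1 i)) ∈ C := by
      rintro π c ⟨m, hm, hmc⟩
      obtain ⟨π', T, hT, hmap⟩ := hmove π
      refine ⟨T⁻¹ * m * T, ?_, fun i => ?_⟩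
      · simpa using hσ.conj_lift4 (T := T⁻¹) (π := π'⁻¹) (by rw [map_inv, map_inv, hT]) hm
      obtain ⟨h, hh, he⟩ : m * (z ^ (c (π.1 i)).val)⁻¹ ∈ (e.symm i).1.map (MulAut.conj T).toMonoidHom := by
        rw [hmap]; exact hmc (π.1 i)
      have : T⁻¹ * m * T * (z ^ (c (π.1 i)).val)⁻¹ = h := by
        rw [mul_assoc _ T, hσ.kc (inv_mem (pow_mem hz _)) T, ← mul_assoc, mul_assoc T⁻¹ m, ← he]
        simp [mul_assoc]
      rw [this]; exact hh
    obtain ⟨x, hx, -⟩ := hσ.exists_base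
    have hxM : x ∈ lift4 σ := Subgroup.subset_closure ⟨0, 1, hx⟩
    choose d hd using fun i => hexp z hz hz1 x hxM (e.symm i)
    obtain ⟨i, j, hij⟩ : ∃ i j, d i ≠ d j := by
      by_contra h
      push Not at h
      have h1 : ρ (x * (z ^ (d 0).val)⁻¹) = 1 := hM.eq_one_of_mem_all
        (mul_mem hxM (inv_mem (pow_mem (ker_le_lift4 hσ hz) _))) fun H hH => by
          have := hd (e ⟨H, hH⟩)
          rw [Equiv.symm_apply_apply, h (e ⟨H, hH⟩) 0] at this
          exact this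
      have h2 := MonoidHom.mem_ker.1 (hσ.ker_le ρ hρ (MonoidHom.mem_ker.2 h1))
      rw [map_mul, map_inv, map_pow, MonoidHom.mem_ker.1 hz, one_pow, inv_one, mul_one, hx] at h2
      exact dd_one_ne h2
    obtain ⟨m, hm, hmc⟩ := sum_zero_mem hinv (show d ∈ C from ⟨x, hxM, hd⟩) hij c hc
    refine ⟨m, hm, fun i => ?_⟩
    conv_lhs => rw [show m = z ^ (c i).val * (m * (z ^ (c i).val)⁻¹) by
      rw [← hσ.kc (pow_mem hz _), inv_mul_cancel_right], map_mul, mul_assoc, hPH i (hmc i)]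

/-- Smaller modules are trivial on the commutator subgroup. -/
theorem Ext.trivial_of_card_lt (hcard : Nat.card V < 4 ^ 6) : ∀ g ∈ commutator Γ, ρ g = 1 := by
  intro g hg
  by_contra h
  haveI : Fintype (Wt σ ρ) := Fintype.ofFinite _
  have := hσ.card_weights hV ρ ⟨g, hg, h⟩ hcard.le
  have h2 := hσ.pow_le hV ρ
  rw [this] at h2
  omega

/-- Modules of order at most `2^12` are trivial on the commutator subgroup when the kernel is trivial. -/
theorem Ext.trivial_of_ker_bot (hk : σ.ker = ⊥) (hcard : Nat.card V ≤ 4 ^ 6) :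
    ∀ g ∈ commutator Γ, ρ g = 1 := by
  intro g hg
  by_contra h
  have h6 := hσ.card_weights hV ρ ⟨g, hg, h⟩ hcard
  obtain ⟨H⟩ : Nonempty (Wt σ ρ) := (Nat.card_pos_iff.1 (by omega)).1
  exact hσ.not_ker_le hV ρ ⟨g, hg, h⟩ hcard H (by rw [hk]; exact bot_le)

end CfsgLib.LargeFischer.PSUModule
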