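import Cfsg.Agent.Lib.LargeFischer.Calc
import Cfsg.Agent.Lib.LargeFischer.Mono
import Cfsg.Agent.Lib.LargeSubgroups.ExtraspecialPlus

/-!
Large Fischer type: the meet `I = Q ∩ Q^g` for a conjugate `s` of `z` in `Q` whose vector has
weight six, in coordinates.
-/

set_option autoImplicit false
set_option linter.unusedSectionVars false
set_option linter.style.haveILetI false

namespace CfsgLib.LargeFischer

open Orbits Cfsg CfsgLib.ExtraspecialLarge

variable {G : Type*} [Group G] [Finite G] {z : G}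
  {Q : Subgroup ↥(Subgroup.centralizer ({z} : Set G))} [Q.Normal]

/-- The conjugate of `Q` attached to `t`, inside `G`. -/
def conjQG (Q : Subgroup ↥(Subgroup.centralizer ({z} : Set G))) (t : G) : Subgroup G :=
  (Q.map (Subgroup.centralizer ({z} : Set G)).subtype).map (MulAut.conj t).toMonoidHom

omit [Finite G] [Q.Normal] in
theorem mem_conjQG {t y : G} : y ∈ conjQG Q t ↔ ∃ q ∈ Q, t * (q : G) * t⁻¹ = y := by
  constructor
  · rintro ⟨_, ⟨q, hq, rfl⟩, rfl⟩; exact ⟨q, hq, rfl⟩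
  · rintro ⟨q, hq, rfl⟩; exact ⟨_, ⟨q, hq, rfl⟩, rfl⟩

omit [Finite G] in
theorem conjQG_le {a b : G} (h : a * z * a⁻¹ = b * z * b⁻¹) : conjQG Q a ≤ conjQG Q b := by
  intro y hy
  obtain ⟨q, hq, rfl⟩ := mem_conjQG.1 hy
  have hc : b⁻¹ * a ∈ Subgroup.centralizer ({z} : Set G) := by
    rw [Subgroup.mem_centralizer_singleton_iff]
    calc b⁻¹ * a * z = b⁻¹ * (a * z * a⁻¹) * a := by group
      _ = z * (b⁻¹ * a) := by rw [h]; group
  refine mem_conjQG.2 ⟨⟨_, hc⟩ * q * ⟨_, hc⟩⁻¹, Subgroup.Normal.conj_mem inferInstance q hq _, ?_⟩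
  simp only [Subgroup.coe_mul, Subgroup.coe_inv]
  group

omit [Finite G] in
theorem conjQG_eq {a b : G} (h : a * z * a⁻¹ = b * z * b⁻¹) : conjQG Q a = conjQG Q b :=
  le_antisymm (conjQG_le h) (conjQG_le h.symm)

omit [Q.Normal] in
theorem good_mapQ {w : ℕ} [Q.Normal] (hs : IsExtraspecialCentralizerSetting z Q w) :
    Good (Q.map (Subgroup.centralizer ({z} : Set G)).subtype) z where
  mem := ⟨zH z, zH_mem hs, rfl⟩
  ne_one h := zH_ne_one hs (Subtype.ext h)
  sq_u := congrArg Subtype.val (zH_sq hs)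
  comm := by
    rintro _ ⟨q, -, rfl⟩
    exact congrArg Subtype.val (zH_comm q)
  cases_conj := by
    rintro _ ⟨q, hq, rfl⟩ _ ⟨r, hr, rfl⟩
    rcases conj_cases hs hr hq with h | h
    · exact Or.inl (congrArg Subtype.val h)
    · exact Or.inr (congrArg Subtype.val h)
  center := by
    rintro _ ⟨r, hr, rfl⟩ h
    rcases center_cases hs hr fun y hy => Subtype.ext (h _ ⟨y, hy, rfl⟩).symm with e | e
    · exact Or.inl (congrArg Subtype.val e)
    · exact Or.inr (congrArg Subtype.val e)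
  sq := by
    rintro _ ⟨r, hr, rfl⟩
    rcases sq_cases hs hr with e | e
    · exact Or.inl (congrArg Subtype.val e)
    · exact Or.inr (congrArg Subtype.val e)
  cen a ha := by
    have hz : a ∈ Subgroup.centralizer ({z} : Set G) :=
      Subgroup.mem_centralizer_singleton_iff.2 (ha z ⟨zH z, zH_mem hs, rfl⟩)
    exact ⟨⟨a, hz⟩, mem_Q_of_centralizes hs fun y hy => Subtype.ext (ha _ ⟨y, hy, rfl⟩), rfl⟩
  norm := by
    rintro a ha _ ⟨q, hq, rfl⟩
    exact ⟨⟨a, Subgroup.mem_centralizer_singleton_iff.2 ha⟩ * q *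
      ⟨a, Subgroup.mem_centralizer_singleton_iff.2 ha⟩⁻¹,
      Subgroup.Normal.conj_mem inferInstance q hq _, rfl⟩

/-- The data: coordinates, an element `x₀` inducing the scalar, and a conjugate `s` of `z` in `Q`
whose vector has weight six, with the meet of `Q` and its conjugate of order `2 ^ 7`; the classes
of the vectors of weight two and four. -/
structure SplitData (z : G) (Q : Subgroup ↥(Subgroup.centralizer ({z} : Set G))) [Q.Normal] where
  F : Coords z Q
  setting : IsExtraspecialCentralizerSetting z Q 6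
  x₀ : ↥(Subgroup.centralizer ({z} : Set G))
  hx : QuotientGroup.mk x₀ = (QuotientGroup.mk F.x : ↥(Subgroup.centralizer ({z} : Set G)) ⧸ Q)
  two : ∀ q ∈ Q, wt (F.co q) = 2 → ¬ IsConj z (q : G)
  four : ∀ q ∈ Q, wt (F.co q) = 4 → IsConj z (q : G)
  g : G
  sH : ↥(Subgroup.centralizer ({z} : Set G))
  sH_mem : sH ∈ Q
  conj_g : g * z * g⁻¹ = (sH : G)
  e : Fin 6 → ZMod 3
  co_s : F.co sH = fun i => some (e i)
  card_meet : Nat.card ↥((Q.map (Subgroup.centralizer ({z} : Set G)).subtype) ⊓ conjQG Q g) = 2 ^ 7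

namespace SplitData

variable (D : SplitData z Q)

/-- The meet of `Q` and the conjugate attached to `s`. -/
def I : Subgroup ↥(Subgroup.centralizer ({z} : Set G)) :=
  Q ⊓ (conjQG Q D.g).comap (Subgroup.centralizer ({z} : Set G)).subtype

theorem mem_I {i : ↥(Subgroup.centralizer ({z} : Set G))} :
    i ∈ D.I ↔ i ∈ Q ∧ (i : G) ∈ conjQG Q D.g := Iff.rfl

theorem good_S : Good (conjQG Q D.g) (D.sH : G) := by
  rw [← D.conj_g]; exact (good_mapQ D.setting).conjugate D.g

theorem s_ne_one : D.sH ≠ 1 := fun h => D.good_S.ne_one (congrArg Subtype.val h)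

theorem s_sq : D.sH * D.sH = 1 := Subtype.ext D.good_S.sq_u

theorem ePt_ne_zero : (fun i => some (D.e i)) ≠ zeroPt := fun h => by simpa [zeroPt] using congrFun h 0

theorem s_ne_z : D.sH ≠ zH z := fun h => D.ePt_ne_zero (by
  rw [← D.co_s, h]; exact D.F.co_zC D.setting)

theorem z_mem_S : z ∈ conjQG Q D.g := by
  refine (good_mapQ D.setting).symm D.good_S ⟨D.sH, D.sH_mem, rfl⟩ ?_
  rintro t ht _ ⟨q, hq, rfl⟩
  rw [conjQG_eq (Q := Q) (D.conj_g.trans ht.symm)]
  exact mem_conjQG.2 ⟨q, hq, rfl⟩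

theorem zH_mem_I : zH z ∈ D.I := ⟨zH_mem D.setting, D.z_mem_S⟩

theorem sH_mem_I : D.sH ∈ D.I := ⟨D.sH_mem, D.good_S.mem⟩

/-- An element fixing `s` normalises the meet. -/
theorem conj_mem_I {h i : ↥(Subgroup.centralizer ({z} : Set G))} (hh : h * D.sH = D.sH * h)
    (hi : i ∈ D.I) : h * i * h⁻¹ ∈ D.I :=
  ⟨Subgroup.Normal.conj_mem inferInstance i hi.1 h,
    D.good_S.norm (h : G) (congrArg Subtype.val hh) _ hi.2⟩

theorem comm_S {e : ↥(Subgroup.centralizer ({z} : Set G))} (he : (e : G) ∈ conjQG Q D.g) :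
    e * D.sH = D.sH * e := Subtype.ext (D.good_S.comm _ he)

theorem conj_cases_S {e i : ↥(Subgroup.centralizer ({z} : Set G))} (he : (e : G) ∈ conjQG Q D.g)
    (hi : i ∈ D.I) : e * i * e⁻¹ = i ∨ e * i * e⁻¹ = D.sH * i := by
  rcases D.good_S.cases_conj _ he _ hi.2 with h | h
  · exact Or.inl (Subtype.ext h)
  · exact Or.inr (Subtype.ext h)

theorem comm_I {a b : ↥(Subgroup.centralizer ({z} : Set G))} (ha : a ∈ D.I) (hb : b ∈ D.I) :
    a * b = b * a := by
  rcases conj_cases D.setting hb.1 ha.1 with h | h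
  · exact mul_inv_eq_iff_eq_mul.1 h
  rcases D.conj_cases_S ha.2 hb with h' | h'
  · exact mul_inv_eq_iff_eq_mul.1 h'
  exact absurd (mul_right_cancel (h'.symm.trans h)) D.s_ne_z

theorem sq_I {a : ↥(Subgroup.centralizer ({z} : Set G))} (ha : a ∈ D.I) : a * a = 1 := by
  rcases sq_cases D.setting ha.1 with h | h
  · exact h
  rcases D.good_S.sq _ ha.2 with h' | h'
  · exact Subtype.ext h'
  exact absurd ((show a * a = D.sH from Subtype.ext h').symm.trans h) D.s_ne_z

theorem map_I : D.I.map (Subgroup.centralizer ({z} : Set G)).subtype =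
    (Q.map (Subgroup.centralizer ({z} : Set G)).subtype) ⊓ conjQG Q D.g := by
  ext y
  constructor
  · rintro ⟨i, hi, rfl⟩; exact ⟨⟨i, hi.1, rfl⟩, hi.2⟩
  · rintro ⟨⟨i, hi, rfl⟩, h⟩; exact ⟨i, ⟨hi, h⟩, rfl⟩

theorem card_I : Nat.card D.I = 2 ^ 7 := by
  rw [← D.card_meet, ← D.map_I,
    Subgroup.card_map_of_injective (Subgroup.centralizer ({z} : Set G)).subtype_injective]

/-- The meet is self-centralising in `Q`. -/
theorem mem_I_of_centralizes {q : ↥(Subgroup.centralizer ({z} : Set G))} (hq : q ∈ Q)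
    (h : ∀ i ∈ D.I, q * i = i * q) : q ∈ D.I := by
  obtain ⟨u, hu, -⟩ := CfsgLib.LargeSubgroups.exists_good_top (E := Q) D.setting.2.2.1
  haveI : IsMulCommutative (D.I.subgroupOf Q) :=
    ⟨⟨fun a b => Subtype.ext (Subtype.ext (D.comm_I a.2 b.2))⟩⟩
  have hc : Nat.card (D.I.subgroupOf Q) = 2 ^ (6 + 1) :=
    (Nat.card_congr (Subgroup.subgroupOfEquivOfLe (inf_le_left : D.I ≤ Q)).toEquiv).trans D.card_I
  have e := CfsgLib.LargeSubgroups.centralizer_eq_of_card hu D.setting.2.2.2.1 hc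
  have : (⟨q, hq⟩ : Q) ∈ D.I.subgroupOf Q := by
    rw [← e]
    exact Subgroup.mem_centralizer_iff.2 fun a ha => Subtype.ext (h a.1 ha).symm
  exact this

/-- Outside `⟨z, s⟩` the meet is moved by the conjugate of `Q`. -/
theorem exists_flip {i : ↥(Subgroup.centralizer ({z} : Set G))} (hi : i ∈ D.I)
    (h0 : D.F.co i ≠ zeroPt) (h1 : D.F.co i ≠ fun k => some (D.e k)) :
    ∃ e : ↥(Subgroup.centralizer ({z} : Set G)), (e : G) ∈ conjQG Q D.g ∧ e * i * e⁻¹ = D.sH * i := by
  have hcl : (i : G) ∉ Subgroup.zpowers z ⊔ Subgroup.zpowers (D.sH : G) := by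
    intro hmem
    have hle : Subgroup.zpowers z ⊔ Subgroup.zpowers (D.sH : G) ≤
        (Subgroup.closure {zH z, D.sH}).map (Subgroup.centralizer ({z} : Set G)).subtype := by
      refine sup_le (Subgroup.zpowers_le.2 ⟨zH z, Subgroup.subset_closure (Or.inl rfl), rfl⟩)
        (Subgroup.zpowers_le.2 ⟨D.sH, Subgroup.subset_closure (Or.inr rfl), rfl⟩)
    obtain ⟨j, hj, hji⟩ := hle hmem
    rw [(Subgroup.centralizer ({z} : Set G)).subtype_injective hji] at hj
    have : i ∈ Q ∧ (D.F.co i = zeroPt ∨ D.F.co i = fun k => some (D.e k)) := by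
      clear h0 h1 hi hji hmem
      induction hj using Subgroup.closure_induction with
      | mem a ha =>
        rcases ha with rfl | rfl
        · exact ⟨zH_mem D.setting, Or.inl (D.F.co_zC D.setting)⟩
        · exact ⟨D.sH_mem, Or.inr D.co_s⟩
      | one => exact ⟨Q.one_mem, Or.inl (D.F.co_one D.setting)⟩
      | mul a b _ _ ha hb =>
        refine ⟨Q.mul_mem ha.1 hb.1, ?_⟩
        rw [D.F.co_mul D.setting ha.1 hb.1]
        rcases ha.2 with e | e <;> rcases hb.2 with e' | e' <;> rw [e, e']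
        · exact Or.inl (addPt_self _)
        · exact Or.inr (zero_addPt _)
        · exact Or.inr (addPt_zero _)
        · exact Or.inl (addPt_self _)
      | inv a _ ha =>
        refine ⟨Q.inv_mem ha.1, ?_⟩
        have h := D.F.co_mul D.setting (Q.inv_mem ha.1) ha.1
        rw [inv_mul_cancel, D.F.co_one D.setting] at h
        rcases ha.2 with e | e <;> rw [e] at h
        · rw [addPt_zero] at h; exact Or.inl h.symm
        · refine Or.inr ?_
          have h' := congrArg (addPt · (fun k => some (D.e k))) h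
          simp only [addPt_assoc, addPt_self, addPt_zero, zero_addPt] at h'
          exact h'.symm
    rcases this.2 with e | e
    exacts [h0 e, h1 e]
  obtain ⟨y, hy, hyc, hyi⟩ := D.good_S.exists_flip
    (U := Subgroup.zpowers z ⊔ Subgroup.zpowers (D.sH : G))
    (sup_le (Subgroup.zpowers_le.2 D.z_mem_S) (Subgroup.zpowers_le.2 D.good_S.mem))
    (Subgroup.mem_sup_right (Subgroup.mem_zpowers _)) hi.2 hcl
  refine ⟨⟨y, Subgroup.mem_centralizer_singleton_iff.2
    (hyc z (Subgroup.mem_sup_left (Subgroup.mem_zpowers _)))⟩, hy, Subtype.ext hyi⟩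

/-- No element of the meet has a vector of weight two moved to weight four by `s`. -/
theorem no_pair {i : ↥(Subgroup.centralizer ({z} : Set G))} (hi : i ∈ D.I)
    (h2 : wt (D.F.co i) = 2) (h4 : wt (addPt (D.F.co i) (fun k => some (D.e k))) = 4) : False := by
  have h0 : D.F.co i ≠ zeroPt := fun e => by rw [e, wt_zeroPt] at h2; omega
  have h1 : D.F.co i ≠ fun k => some (D.e k) := fun e => by
    rw [e, show (fun k => some (D.e k)) = shift D.e (constPt 0) from funext fun k => by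
      simp [shift, constPt], wt_shift, wt_constPt] at h2
    omega
  obtain ⟨y, hy, hyi⟩ := D.exists_flip hi h0 h1
  refine D.two i hi.1 h2 ?_
  have h4' := D.four (D.sH * i) (Q.mul_mem D.sH_mem hi.1) (by
    rw [D.F.co_mul D.setting D.sH_mem hi.1, D.co_s, addPt_comm]; exact h4)
  refine h4'.trans (isConj_comm.1 (isConj_iff.2 ⟨(y : G), ?_⟩))
  exact congrArg Subtype.val hyi

theorem act_comm_S {h : ↥(Subgroup.centralizer ({z} : Set G))} (hh : h * D.sH = D.sH * h) :
    D.F.act (QuotientGroup.mk h) (fun k => some (D.e k)) = fun k => some (D.e k) := by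
  rw [← D.co_s, ← D.F.co_conj D.setting h D.sH_mem, hh, mul_inv_cancel_right]

/-- Elements of `H` fixing the vector of `s` can be corrected by `Q` to fix `s`. -/
theorem exists_fix (γ : ↥(Subgroup.centralizer ({z} : Set G)) ⧸ Q)
    (hγ : D.F.act γ (fun k => some (D.e k)) = fun k => some (D.e k)) :
    ∃ h, QuotientGroup.mk h = γ ∧ h * D.sH = D.sH * h := by
  obtain ⟨h, rfl⟩ := QuotientGroup.mk_surjective γ
  have hc : D.F.co (h * D.sH * h⁻¹) = D.F.co D.sH := by
    rw [D.F.co_conj D.setting h D.sH_mem, D.co_s, hγ]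
  rcases D.F.eq_or_of_co D.setting (Subgroup.Normal.conj_mem inferInstance _ D.sH_mem h) D.sH_mem hc
    with e | e
  · exact ⟨h, rfl, mul_inv_eq_iff_eq_mul.1 e⟩
  obtain ⟨q, hq, hqs⟩ := exists_conj D.setting D.sH_mem D.s_ne_one D.s_ne_z
  refine ⟨q * h, ?_, mul_inv_eq_iff_eq_mul.1 ?_⟩
  · rw [QuotientGroup.mk_mul, (QuotientGroup.eq_one_iff q).2 hq, one_mul]
  · calc q * h * D.sH * (q * h)⁻¹ = q * (h * D.sH * h⁻¹) * q⁻¹ := by group
      _ = q * (zH z * D.sH) * q⁻¹ := by rw [e, zH_comm]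
      _ = zH z * (q * D.sH * q⁻¹) := conj_zH_mul q D.sH
      _ = D.sH := by rw [hqs, zH_cancel D.setting]

/-- The meet contains the scalar multiples of `s`. -/
theorem const_mem (c : ZMod 3) : ∃ i ∈ D.I, D.F.co i = fun k => some (D.e k + c) := by
  classical
  set S : Set Pt := {v | ∃ i ∈ D.I, D.F.co i = v} with hS
  have hadd : ∀ v ∈ S, ∀ u ∈ S, addPt v u ∈ S := by
    rintro _ ⟨a, ha, rfl⟩ _ ⟨b, hb, rfl⟩
    exact ⟨a * b, D.I.mul_mem ha hb, D.F.co_mul D.setting ha.1 hb.1⟩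
  have heven : ∀ v ∈ S, Even (wt v) := by
    rintro _ ⟨a, ha, rfl⟩
    exact (D.F.sq_one_iff D.setting ha.1).1 (D.sq_I ha)
  have hne : ∃ v ∈ S, v ≠ zeroPt ∧ ∀ c, v ≠ fun k => some (D.e k + c) := by
    by_contra hcon
    push Not at hcon
    let f : Option (ZMod 3) × Bool → ↥(Subgroup.centralizer ({z} : Set G)) := fun p =>
      D.F.lift (p.1.elim zeroPt fun c k => some (D.e k + c)) * (if p.2 then zH z else 1)
    have hsub : (D.I : Set _) ⊆ Set.range f := by
      intro i hi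
      have hco : ∃ o : Option (ZMod 3), D.F.co i = o.elim zeroPt fun c k => some (D.e k + c) := by
        by_cases h : D.F.co i = zeroPt
        · exact ⟨none, h⟩
        · obtain ⟨c, hc⟩ := hcon _ ⟨i, hi, rfl⟩ h
          exact ⟨some c, hc⟩
      obtain ⟨o, ho⟩ := hco
      rcases D.F.co_spec D.setting hi.1 with e | e
      · exact ⟨(o, false), by simp [f, ← ho, ← e]⟩
      · exact ⟨(o, true), by simp [f, ← ho, ← e]⟩
    have h := Set.ncard_le_ncard hsub (Set.finite_range f)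
    rw [← Nat.card_coe_set_eq, ← Nat.card_coe_set_eq] at h
    have h' : Nat.card D.I ≤ Nat.card (Option (ZMod 3) × Bool) := h.trans (Finite.card_range_le f)
    rw [D.card_I, Nat.card_eq_fintype_card] at h'
    simp at h'
  have hperm : ∀ σ ∈ alternatingGroup (Fin 6), ∃ f : Pt → Pt, (∀ v ∈ S, f v ∈ S) ∧
      f (fun k => some (D.e k)) = (fun k => some (D.e k)) ∧
      ∃ a : Fin 6 → ZMod 3, ∀ (v : Pt) (i : Fin 6), f v (σ i) = (v i).map (· + a i) := by
    intro σ hσ
    obtain ⟨γ, -, a, ha, hγ⟩ := D.F.exists_stab D.e hσ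
    obtain ⟨h, rfl, hh⟩ := D.exists_fix γ hγ
    refine ⟨D.F.act (QuotientGroup.mk h), ?_, hγ, a, ha⟩
    rintro _ ⟨i, hi, rfl⟩
    exact ⟨_, D.conj_mem_I hh hi, D.F.co_conj D.setting h hi.1⟩
  rcases span_cases_shift D.e S hadd heven ⟨D.sH, D.sH_mem_I, D.co_s⟩ hperm hne with
    ⟨v, ⟨i, hi, rfl⟩, h2, h4⟩ | h
  · exact (D.no_pair hi h2 h4).elim
  · exact h c

/-- Membership in the meet depends only on the vector. -/
theorem mem_I_of_co {a b : ↥(Subgroup.centralizer ({z} : Set G))} (ha : a ∈ Q) (hb : b ∈ D.I)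
    (h : D.F.co a = D.F.co b) : a ∈ D.I := by
  rcases D.F.eq_or_of_co D.setting ha hb.1 h with rfl | rfl
  · exact hb
  · exact D.I.mul_mem hb D.zH_mem_I

theorem co_x_s : D.F.co (D.x₀ * D.sH * D.x₀⁻¹) = fun k => some (D.e k + 1) := by
  rw [D.F.co_conj_x D.setting D.hx D.sH_mem, D.co_s]; rfl

theorem x_s_mem_I : D.x₀ * D.sH * D.x₀⁻¹ ∈ D.I := by
  obtain ⟨i, hi, hc⟩ := D.const_mem 1
  exact D.mem_I_of_co (Subgroup.Normal.conj_mem inferInstance _ D.sH_mem _) hi (D.co_x_s.trans hc.symm)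

theorem xx_s_mem_I : D.x₀ * (D.x₀ * D.sH * D.x₀⁻¹) * D.x₀⁻¹ ∈ D.I := by
  obtain ⟨i, hi, hc⟩ := D.const_mem 2
  refine D.mem_I_of_co (Subgroup.Normal.conj_mem inferInstance _ D.x_s_mem_I.1 _) hi ?_
  rw [D.F.co_conj_x D.setting D.hx D.x_s_mem_I.1, D.co_x_s, hc]
  funext k
  simp only [shift, Option.map_some, Option.some.injEq]
  rw [add_assoc]; rfl

/-- Some element of the conjugate of `Q` inverts the scalar. -/
theorem exists_inverter : ∃ y : ↥(Subgroup.centralizer ({z} : Set G)), (y : G) ∈ conjQG Q D.g ∧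
    y * (D.x₀ * D.sH * D.x₀⁻¹) * y⁻¹ = D.sH * (D.x₀ * D.sH * D.x₀⁻¹) ∧
    (QuotientGroup.mk y : ↥(Subgroup.centralizer ({z} : Set G)) ⧸ Q) * QuotientGroup.mk D.F.x ≠
      QuotientGroup.mk D.F.x * QuotientGroup.mk y := by
  have h0 : D.F.co (D.x₀ * D.sH * D.x₀⁻¹) ≠ zeroPt := by
    rw [D.co_x_s]; intro h; simpa [zeroPt] using congrFun h 0
  have h1 : D.F.co (D.x₀ * D.sH * D.x₀⁻¹) ≠ fun k => some (D.e k) := by
    rw [D.co_x_s]; intro h; simpa using congrFun h 0
  obtain ⟨y, hy, hyi⟩ := D.exists_flip D.x_s_mem_I h0 h1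
  refine ⟨y, hy, hyi, fun hc => ?_⟩
  have h := D.F.co_conj D.setting y D.x_s_mem_I.1
  rw [hyi, D.F.co_mul D.setting D.sH_mem D.x_s_mem_I.1, D.co_s, D.co_x_s] at h
  have e := D.F.act_shift hc 1 (fun k => some (D.e k))
  rw [D.act_comm_S (D.comm_S hy)] at e
  rw [show (fun k => some (D.e k + 1)) = shift (fun _ => (1 : ZMod 3)) (fun k => some (D.e k)) from rfl,
    e] at h
  have := congrFun h 0
  simp [addPt, addCoord, shift] at this
  revert this
  generalize D.e 0 = t
  revert t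
  decide

end SplitData

end CfsgLib.LargeFischer
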