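import Cfsg.Agent.Lib.LargeFischer.Conjugates

/-!
Large Fischer type: some element of `H` inverts the scalars, also in the stabiliser of a vector of
the shorter class.
-/

set_option autoImplicit false
set_option linter.unusedSectionVars false
set_option linter.style.haveILetI false

namespace CfsgLib.LargeFischer

open Orbits CfsgLib.ExtraspecialLarge

variable {G : Type*} [Group G] [Finite G] {z : G}
  {Q : Subgroup ↥(Subgroup.centralizer ({z} : Set G))} [Q.Normal]

theorem wt_addPt_shift (v : Pt) : wt (addPt v (shift (fun _ => 1) v)) = wt v := by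
  have h : ∀ e : ZMod 3, addCoord (some e) (some (e + 1)) ≠ none := by decide
  unfold wt supp
  congr 1
  refine Finset.filter_congr fun i _ => ?_
  rcases hv : v i with _ | e
  · simp [addPt, shift, hv, addCoord]
  · simpa [addPt, shift, hv] using h e

theorem shift_ne {v : Pt} (h : v ≠ zeroPt) : shift (fun _ => 1) v ≠ v := by
  intro e
  refine h (funext fun i => ?_)
  have h1 : ∀ x : ZMod 3, x + 1 ≠ x := by decide
  have h2 := congrFun e i
  rcases hv : v i with _ | x
  · rfl
  · simp [shift, hv, h1] at h2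

theorem addPt_left_inj {u v : Pt} (h : addPt u v = u) : v = zeroPt := by
  funext i
  have h' : ∀ a b : Option (ZMod 3), addCoord a b = a → b = none := by decide
  exact h' _ _ (congrFun h i)

variable (hs : Cfsg.IsExtraspecialCentralizerSetting z Q 6) (C : Coords z Q)
include hs

theorem Coords.Rep.mul {u w : Pt} {q r : ↥(Subgroup.centralizer ({z} : Set G))}
    (hq : C.Rep u q) (hr : C.Rep w r) : C.Rep (addPt u w) (q * r) := by
  have h0 : C.Rep (addPt u w) (C.lift u * C.lift w) := C.lift_add u w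
  rcases hq with rfl | rfl <;> rcases hr with rfl | rfl
  · exact h0
  · rw [← mul_assoc]; exact h0.mul_z hs
  · rw [mul_assoc, ← zH_comm, ← mul_assoc]; exact h0.mul_z hs
  · rw [mul_assoc, ← mul_assoc (zH z), ← zH_comm, mul_assoc (C.lift w), zH_sq hs, mul_one]
    exact h0

/-- Some element of `H` does not commute with the scalars. -/
theorem exists_inverts :
    ∃ γ, ∀ v, C.act γ (shift (fun _ => 1) v) = shift (fun _ => -1) (C.act γ v) := by
  by_contra hno
  push Not at hno
  have hlin : ∀ γ v, C.act γ (shift (fun _ => 1) v) = shift (fun _ => 1) (C.act γ v) := by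
    intro γ
    rcases C.act_semilinear γ with h | h
    · exact h
    · obtain ⟨v, hv⟩ := hno γ
      exact absurd (h v) hv
  obtain ⟨c, hc⟩ := C.exists_classData hs
  obtain ⟨g, ⟨hgH, hgQ⟩, hne⟩ := hs.2.2.2.2
  set s : ↥(Subgroup.centralizer ({z} : Set G)) := ⟨g * z * g⁻¹, hgH⟩ with hsdef
  obtain ⟨v, hv⟩ := exists_meetData hs C hc g s hgQ rfl (fun e => hne (congrArg Subtype.val e))
  have hQ := good_QG hs
  have hX : Good (QG' Q g) s.1 := hQ.conjugate g
  have hv0 : v ≠ zeroPt := hv.inFour.singular.1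
  set y := C.x * s * C.x⁻¹ with hy
  have hyv : C.Rep (shift (fun _ => 1) v) y := C.act_x v ▸ hv.rep.conj hs C.x
  have hyQ : y ∈ Q := hyv.mem hs
  -- conjugation by elements of the conjugate of `Q`
  have hconj : ∀ (e : ↥(Subgroup.centralizer ({z} : Set G))) {u : Pt} {q r}, C.Rep u q →
      e * q * e⁻¹ = r → C.Rep (C.act (QuotientGroup.mk e) u) r :=
    fun e _ _ _ hq h => h ▸ hq.conj hs e
  have flip : ∀ (L : Subgroup G), L ≤ QG' Q g → s.1 ∈ L → z ∈ L → ∀ q : G, q ∈ QG' Q g → q ∉ L →
      ∃ e : ↥(Subgroup.centralizer ({z} : Set G)), e.1 ∈ QG' Q g ∧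
        (∀ a ∈ L, e.1 * a = a * e.1) ∧ e.1 * q * e.1⁻¹ = s.1 * q := by
    intro L hL hsL hzL q hq hqL
    obtain ⟨e, he, hec, hef⟩ := hX.exists_flip hL hsL hq hqL
    exact ⟨⟨e, Subgroup.mem_centralizer_singleton_iff.2 (hec z hzL)⟩, he, hec, hef⟩
  have hsX : s.1 ∈ QG' Q g := hX.mem
  have hzsX : Subgroup.closure {z, s.1} ≤ QG' Q g := (Subgroup.closure_le _).2 (by
    rintro a (rfl | rfl)
    · exact hv.z_mem
    · exact hsX)
  have hmem2 : ∀ q : ↥(Subgroup.centralizer ({z} : Set G)), ∀ u, C.Rep u q →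
      q.1 ∈ Subgroup.closure {z, s.1} → u = zeroPt ∨ u = v := by
    intro q u hu hq
    have hsub : Subgroup.closure ({z, s.1} : Set G) ≤
        ((Subgroup.closure ({zH z, s} : Set ↥(Subgroup.centralizer ({z} : Set G)))).map
          (Subgroup.centralizer ({z} : Set G)).subtype) := by
      rw [Subgroup.closure_le]
      rintro a (rfl | rfl)
      · exact ⟨zH _, Subgroup.subset_closure (Or.inl rfl), rfl⟩
      · exact ⟨s, Subgroup.subset_closure (Or.inr rfl), rfl⟩
    obtain ⟨q', hq', hqq⟩ := hsub hq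
    obtain rfl : q' = q := Subtype.ext hqq
    have hcl : ∀ a ∈ Subgroup.closure ({zH z, s} : Set ↥(Subgroup.centralizer ({z} : Set G))),
        C.Rep zeroPt a ∨ C.Rep v a := by
      intro a ha
      have hz0 : C.Rep zeroPt (zH z) := by simpa using (C.rep_one hs).mul_z hs
      induction ha using Subgroup.closure_induction with
      | mem a ha =>
        rcases ha with rfl | rfl
        · exact Or.inl hz0
        · exact Or.inr hv.rep
      | one => exact Or.inl (C.rep_one hs)
      | mul a b _ _ iha ihb =>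
        rcases iha with iha | iha <;> rcases ihb with ihb | ihb <;>
          have h := Coords.Rep.mul hs C iha ihb <;>
          simp only [addPt_self, addPt_zero, addPt_comm zeroPt v] at h
        · exact Or.inl h
        · exact Or.inr h
        · exact Or.inr h
        · exact Or.inl h
      | inv a _ iha =>
        have hinv : ∀ u, C.Rep u a → C.Rep u a⁻¹ := fun u hu => by
          rcases sq_cases hs (hu.mem hs) with h | h
          · rwa [inv_eq_of_mul_eq_one_right h]
          · rw [inv_eq_of_mul_eq_one_right (show a * (a * zH z) = 1 by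
              rw [← mul_assoc, h, zH_sq hs])]
            exact hu.mul_z hs
        exact iha.imp (hinv _) (hinv _)
    rcases hcl _ hq' with h | h
    · exact Or.inl (hu.unique hs h)
    · exact Or.inr (hu.unique hs h)
  -- `y` is outside the meet
  have hyX : y.1 ∉ QG' Q g := by
    intro hyX
    obtain ⟨e, heX, hec, hef⟩ := flip _ hzsX (Subgroup.subset_closure (Or.inr rfl))
      (Subgroup.subset_closure (Or.inl rfl)) y.1 hyX (fun h => by
        rcases hmem2 y _ hyv h with h' | h'
        · refine hv0 (funext fun i => ?_)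
          have h2 := congrFun h' i
          rcases hvi : v i with _ | w
          · rfl
          · simp [shift, hvi, zeroPt] at h2
        · exact shift_ne hv0 h')
    have h1 := hconj e hv.rep (Subtype.ext (mul_inv_eq_iff_eq_mul.2
      (hec s.1 (Subgroup.subset_closure (Or.inr rfl)))) : e * s * e⁻¹ = s)
    have h2 := hconj e hyv (Subtype.ext hef : e * y * e⁻¹ = s * y)
    rw [hlin] at h2
    rw [← hv.rep.unique hs h1] at h2
    have h3 := h2.unique hs (Coords.Rep.mul hs C hv.rep hyv)
    rw [addPt_comm] at h3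
    exact hv0 (addPt_left_inj h3.symm)
  -- an element of the meet not commuting with `y`
  have hyQG : y.1 ∈ QG Q := ⟨y, hyQ, rfl⟩
  have hI := hv.elem_inf.1.is_comm.comm
  obtain ⟨u, ⟨huQ, huX⟩, huy⟩ : ∃ u ∈ QG Q ⊓ QG' Q g, u * y.1 * u⁻¹ = z * y.1 := by
    by_contra hno'
    push Not at hno'
    have hcomm : ∀ u ∈ QG Q ⊓ QG' Q g, u * y.1 = y.1 * u := fun u hu => by
      rcases hQ.cases_conj u hu.1 y.1 hyQG with e | e
      · exact mul_inv_eq_iff_eq_mul.1 e
      · exact absurd e (hno' u hu)
    have hgen : QG Q ⊓ QG' Q g ⊔ Subgroup.zpowers y.1 ≤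
        Subgroup.centralizer ((QG Q ⊓ QG' Q g : Subgroup G) : Set G) ⊓
          Subgroup.centralizer ({y.1} : Set G) := by
      refine sup_le (fun a ha => ⟨Subgroup.mem_centralizer_iff.2 fun b hb =>
        congrArg Subtype.val (hI ⟨b, hb⟩ ⟨a, ha⟩),
        Subgroup.mem_centralizer_singleton_iff.2 (hcomm a ha)⟩) (Subgroup.zpowers_le.2
        ⟨Subgroup.mem_centralizer_iff.2 fun b hb => hcomm b hb,
        Subgroup.mem_centralizer_singleton_iff.2 rfl⟩)
    have hD : QG Q ⊓ QG' Q g ⊔ Subgroup.zpowers y.1 ≤ QG Q :=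
      sup_le inf_le_left (Subgroup.zpowers_le.2 hyQG)
    have hab : ∀ a ∈ QG Q ⊓ QG' Q g ⊔ Subgroup.zpowers y.1,
        ∀ b ∈ QG Q ⊓ QG' Q g ⊔ Subgroup.zpowers y.1, a * b = b * a := by
      intro a ha b hb
      have hle : QG Q ⊓ QG' Q g ⊔ Subgroup.zpowers y.1 ≤ Subgroup.centralizer ({a} : Set G) :=
        sup_le (fun c' hc' => Subgroup.mem_centralizer_singleton_iff.2
          (Subgroup.mem_centralizer_iff.1 (hgen ha).1 c' hc'))
          (Subgroup.zpowers_le.2 (Subgroup.mem_centralizer_singleton_iff.2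
            (Subgroup.mem_centralizer_singleton_iff.1 (hgen ha).2).symm))
      exact (Subgroup.mem_centralizer_singleton_iff.1 (hle hb)).symm
    set D := QG Q ⊓ QG' Q g ⊔ Subgroup.zpowers y.1
    have hcard := CfsgLib.JFour.card_elem_extraspecial hs.2.2.1 hs.2.2.2.1
      ((D.comap (Subgroup.centralizer ({z} : Set G)).subtype).subgroupOf Q)
      (fun a ha b hb => Subtype.ext (Subtype.ext (hab a.1.1 ha b.1.1 hb)))
    have hDc : Nat.card ↥((D.comap (Subgroup.centralizer ({z} : Set G)).subtype).subgroupOf Q) =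
        Nat.card ↥D := by
      refine Nat.card_eq_of_bijective (fun a => ⟨a.1.1.1, a.2⟩) ⟨fun a b h => ?_, ?_⟩
      · exact Subtype.ext (Subtype.ext (Subtype.ext (congrArg Subtype.val h :)))
      · rintro ⟨w, hw⟩
        obtain ⟨q, hq, rfl⟩ := hD hw
        exact ⟨⟨⟨q, hq⟩, hw⟩, rfl⟩
    rw [hDc, ← hv.card_inf] at hcard
    have heq := Subgroup.eq_of_le_of_card_ge le_sup_left hcard
    exact hyX ((heq ▸ Subgroup.mem_sup_right (Subgroup.mem_zpowers y.1) :
      y.1 ∈ QG Q ⊓ QG' Q g).2)
  -- an element of the meet commuting with `y` outside `<z, s>`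
  have hsy : s * y = y * s := by
    have h1 := Coords.Rep.mul hs C hv.rep hyv
    have h2 : (s * y) * (s * y) = 1 := (h1.sq hs).2 (by
      rw [wt_addPt_shift]; exact hv.inFour.singular.2)
    have hs2 : s * s = 1 := Subtype.ext hX.sq_u
    have hy2 : y * y = 1 := by
      rw [hy]
      calc C.x * s * C.x⁻¹ * (C.x * s * C.x⁻¹) = C.x * (s * s) * C.x⁻¹ := by group
        _ = 1 := by rw [hs2]; group
    rw [← eq_inv_iff_mul_eq_one, mul_inv_rev, inv_eq_of_mul_eq_one_right hy2,
      inv_eq_of_mul_eq_one_right hs2] at h2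
    exact h2
  obtain ⟨w, ⟨hwQ, hwX⟩, hwy, hwL⟩ : ∃ w ∈ QG Q ⊓ QG' Q g, w * y.1 = y.1 * w ∧
      w ∉ Subgroup.closure {z, s.1} := by
    by_contra hno'
    push Not at hno'
    have hsub : ((QG Q ⊓ QG' Q g : Subgroup G) : Set G) ⊆
        (Subgroup.closure {z, s.1} : Set G) ∪ (fun a => u * a) '' (Subgroup.closure {z, s.1}) := by
      intro a ha
      rcases hQ.cases_conj a ha.1 y.1 hyQG with e | e
      · exact Or.inl (hno' a ha (mul_inv_eq_iff_eq_mul.1 e))
      · refine Or.inr ⟨u⁻¹ * a, hno' _ (Subgroup.mul_mem _ (Subgroup.inv_mem _ ⟨huQ, huX⟩) ha)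
          ?_, by group⟩
        refine mul_inv_eq_iff_eq_mul.1 ?_
        calc u⁻¹ * a * y.1 * (u⁻¹ * a)⁻¹ = u⁻¹ * (a * y.1 * a⁻¹) * u := by group
          _ = u⁻¹ * (u * y.1 * u⁻¹) * u := by rw [e, huy]
          _ = y.1 := by group
    have hcl : Set.ncard (Subgroup.closure {z, s.1} : Set G) ≤ 4 := by
      have hsub' : (Subgroup.closure {z, s.1} : Set G) ⊆ {1, z, s.1, z * s.1} := by
        have hzz : z * z = 1 := hQ.sq_u
        have hss : s.1 * s.1 = 1 := hX.sq_u
        have hsz : s.1 * z = z * s.1 := hQ.comm s.1 ⟨s, hgQ, rfl⟩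
        intro a ha
        induction ha using Subgroup.closure_induction with
        | mem a ha => rcases ha with rfl | rfl <;> simp
        | one => simp
        | mul a b _ _ iha ihb =>
          simp only [Set.mem_insert_iff, Set.mem_singleton_iff] at iha ihb ⊢
          have k1 : s.1 * (z * s.1) = z := by rw [← mul_assoc, hsz, mul_assoc, hss, mul_one]
          have k2 : z * (z * s.1) = s.1 := by rw [← mul_assoc, hzz, one_mul]
          have k3 : z * s.1 * z = s.1 := by rw [mul_assoc, hsz, k2]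
          have k4 : z * s.1 * s.1 = z := by rw [mul_assoc, hss, mul_one]
          have k5 : z * s.1 * (z * s.1) = 1 := by rw [← mul_assoc, k3, hss]
          rcases iha with rfl | rfl | rfl | rfl <;> rcases ihb with rfl | rfl | rfl | rfl <;>
            simp [hzz, hss, hsz, k1, k2, k3, k4, k5]
        | inv a _ iha =>
          simp only [Set.mem_insert_iff, Set.mem_singleton_iff] at iha ⊢
          rcases iha with rfl | rfl | rfl | rfl
          · simp
          · simp [inv_eq_of_mul_eq_one_right hzz]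
          · simp [inv_eq_of_mul_eq_one_right hss]
          · simp [inv_eq_of_mul_eq_one_right hzz, inv_eq_of_mul_eq_one_right hss, hsz]
      refine (Set.ncard_le_ncard hsub' (Set.toFinite _)).trans ?_
      exact (Set.ncard_insert_le _ _).trans (Nat.add_le_add_right ((Set.ncard_insert_le _ _).trans
        (Nat.add_le_add_right ((Set.ncard_insert_le _ _).trans (by rw [Set.ncard_singleton])) 1)) 1)
    have h := Set.ncard_le_ncard hsub (Set.toFinite _)
    rw [← Nat.card_coe_set_eq, SetLike.coe_sort_coe, hv.card_inf] at h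
    have h' := h.trans ((Set.ncard_union_le _ _).trans
      (Nat.add_le_add hcl ((Set.ncard_image_le (Set.toFinite _)).trans hcl)))
    norm_num at h'
  -- the transvection
  have hwu : w ∉ Subgroup.closure {z, s.1} ⊔ Subgroup.zpowers u := by
    intro hw
    have hcom : Subgroup.closure {z, s.1} ≤ Subgroup.centralizer ({y.1} : Set G) := by
      rw [Subgroup.closure_le]
      rintro a (rfl | rfl)
      · exact Subgroup.mem_centralizer_singleton_iff.2 (hQ.comm y.1 hyQG).symm
      · exact Subgroup.mem_centralizer_singleton_iff.2 (congrArg Subtype.val hsy)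
    have hLu : Subgroup.closure {z, s.1} ≤ Subgroup.normalizer (Subgroup.zpowers u : Set G) := by
      refine le_trans (fun a ha => ?_) (Subgroup.centralizer_le_normalizer _)
      have : ∀ b ∈ Subgroup.zpowers u, b * a = a * b := fun b hb => by
        have haI : a ∈ QG Q ⊓ QG' Q g := by
          refine (Subgroup.closure_le _).2 ?_ ha
          rintro a (rfl | rfl)
          · exact ⟨hQ.mem, hv.z_mem⟩
          · exact ⟨⟨s, hgQ, rfl⟩, hsX⟩
        have huI : u ∈ QG Q ⊓ QG' Q g := ⟨huQ, huX⟩
        have hbI : b ∈ QG Q ⊓ QG' Q g := Subgroup.zpowers_le.2 huI hb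
        exact congrArg Subtype.val (hI ⟨b, hbI⟩ ⟨a, haI⟩)
      exact Subgroup.mem_centralizer_iff.2 this
    rw [← SetLike.mem_coe, Subgroup.coe_mul_of_left_le_normalizer_right _ _ hLu] at hw
    obtain ⟨a, ha, b, hb, rfl⟩ := hw
    obtain ⟨n, rfl⟩ := hb
    have hu2 : u * u = 1 := by rw [← pow_two]; exact hv.elem_inf.2 u ⟨huQ, huX⟩
    rcases Int.even_or_odd n with ⟨k, rfl⟩ | ⟨k, rfl⟩
    · refine hwL (show a * u ^ (k + k) ∈ _ from ?_)
      rw [← two_mul, zpow_mul, zpow_two, hu2, one_zpow, mul_one]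
      exact ha
    · have he : a * u ^ (2 * k + 1) = a * u := by
        rw [zpow_add_one, zpow_mul, zpow_two, hu2, one_zpow, one_mul]
      change (a * u ^ (2 * k + 1)) * y.1 = y.1 * (a * u ^ (2 * k + 1)) at hwy
      rw [he, mul_assoc, mul_inv_eq_iff_eq_mul.1 huy, ← mul_assoc y.1,
        ← Subgroup.mem_centralizer_singleton_iff.1 (hcom ha)] at hwy
      rw [mul_assoc a y.1 u] at hwy
      exact hQ.ne_one (mul_eq_right.1 (mul_right_cancel (mul_left_cancel hwy)))
  obtain ⟨e, heX, hec, hef⟩ := flip (Subgroup.closure {z, s.1} ⊔ Subgroup.zpowers u)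
    (sup_le hzsX (Subgroup.zpowers_le.2 huX))
    (Subgroup.mem_sup_left (Subgroup.subset_closure (Or.inr rfl)))
    (Subgroup.mem_sup_left (Subgroup.subset_closure (Or.inl rfl))) w hwX hwu
  obtain ⟨w', hw'Q, rfl⟩ := hwQ
  obtain ⟨u', hu'Q, rfl⟩ := huQ
  obtain ⟨a, ha⟩ := Coords.exists_rep (C := C) hw'Q
  have hes : e * s * e⁻¹ = s := Subtype.ext (mul_inv_eq_iff_eq_mul.2
    (hec s.1 (Subgroup.mem_sup_left (Subgroup.subset_closure (Or.inr rfl)))))
  have heu : e * u' * e⁻¹ = u' := Subtype.ext (mul_inv_eq_iff_eq_mul.2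
    (hec _ (Subgroup.mem_sup_right (Subgroup.mem_zpowers _))))
  have hew : e * w' * e⁻¹ = s * w' := Subtype.ext hef
  set p := C.x * w' * C.x⁻¹ with hp
  have hpa : C.Rep (shift (fun _ => 1) a) p := C.act_x a ▸ ha.conj hs C.x
  have hev : C.act (QuotientGroup.mk e) v = v := (hes ▸ hv.rep.conj hs e).unique hs hv.rep
  have hea : C.act (QuotientGroup.mk e) a = addPt v a :=
    (hew ▸ ha.conj hs e).unique hs (Coords.Rep.mul hs C hv.rep ha)
  have h1 := hpa.conj hs e
  rw [hlin, hea] at h1
  have h2 : C.Rep (shift (fun _ => 1) (addPt v a)) (y * p) := by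
    have hsh : shift (fun _ => 1) (addPt v a) =
        addPt (shift (fun _ => 1) v) (shift (fun _ => 1) a) := by
      funext i
      have h' : ∀ b d : Option (ZMod 3), (addCoord b d).map (· + 1) =
          addCoord (b.map (· + 1)) (d.map (· + 1)) := by decide
      exact h' _ _
    rw [hsh]
    exact Coords.Rep.mul hs C hyv hpa
  have hpQ : p ∈ Q := hpa.mem hs
  have huy' : u' * y * u'⁻¹ = zH z * y := Subtype.ext huy
  have key : ∀ k, k = y * p ∨ k = y * p * zH z →
      (u' * k * u'⁻¹ = k ↔ ¬ (u' * p * u'⁻¹ = p)) := by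
    intro k hk
    have hc1 : u' * (y * p) * u'⁻¹ = zH z * y * (u' * p * u'⁻¹) := by rw [← huy']; group
    have hk' : u' * k * u'⁻¹ = k ↔ u' * (y * p) * u'⁻¹ = y * p := by
      rcases hk with rfl | rfl
      · exact Iff.rfl
      · rw [show u' * (y * p * zH z) * u'⁻¹ = u' * (y * p) * u'⁻¹ * (u' * zH z * u'⁻¹) by group,
          conj_zH, mul_left_inj]
    rw [hk', hc1]
    have hz1 : zH z * (y * p) ≠ y * p := fun e' => zH_ne_one hs (mul_eq_right.1 e')
    rcases conj_cases hs hpQ hu'Q with e' | e'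
    · exact ⟨fun h => absurd (by rwa [e', mul_assoc] at h) hz1, fun h => absurd e' h⟩
    · refine ⟨fun _ h => zH_ne_one hs (mul_eq_right.1 (e'.symm.trans h)), fun _ => ?_⟩
      rw [e', show zH z * y * (zH z * p) = zH z * (y * zH z) * p by group, zH_comm y,
        ← mul_assoc (zH z), zH_sq hs, one_mul]
  have hiff := key _ (h2.pair hs h1)
  have hinv : u' * (e * p * e⁻¹) * u'⁻¹ = e * p * e⁻¹ ↔ u' * p * u'⁻¹ = p := by
    rw [show u' * (e * p * e⁻¹) * u'⁻¹ = e * ((e⁻¹ * u' * e) * p * (e⁻¹ * u' * e)⁻¹) * e⁻¹ by group,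
      show e⁻¹ * u' * e = u' by
        conv_lhs => rw [← heu]
        group,
      mul_left_inj, mul_right_inj]
  tauto

omit hs in
theorem shift_neg_one (v : Pt) :
    shift (fun _ => (-1 : ZMod 3)) v = shift (fun _ => 1) (shift (fun _ => 1) v) := by
  have h : ∀ x : ZMod 3, x + -1 = x + 1 + 1 := by decide
  funext i
  rcases hw : v i with _ | x <;> simp [shift, hw, h]

omit hs in
theorem shift_neg_neg (v : Pt) :
    shift (fun _ => (-1 : ZMod 3)) (shift (fun _ => -1) v) = shift (fun _ => 1) v := by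
  have h : ∀ x : ZMod 3, x + -1 + -1 = x + 1 := by decide
  funext i
  rcases hw : v i with _ | x <;> simp [shift, hw, h]

omit hs in
theorem eq_zero_of_shift {v : Pt}
    (h : shift (fun _ => (1 : ZMod 3)) v = shift (fun _ => -1) v) : v = zeroPt := by
  have h' : ∀ x : ZMod 3, ¬ x + 1 = x + -1 := by decide
  funext i
  have h2 := congrFun h i
  rcases hw : v i with _ | x
  · rfl
  · exact absurd h2 (by simp [shift, hw, h'])

/-- The elements commuting with the scalars. -/
def Coords.linPart : Subgroup (↥(Subgroup.centralizer ({z} : Set G)) ⧸ Q) :=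
  (Subgroup.centralizer {C.act (QuotientGroup.mk C.x)}).comap C.act

omit hs in
theorem Coords.mem_linPart {γ : ↥(Subgroup.centralizer ({z} : Set G)) ⧸ Q} :
    γ ∈ C.linPart ↔
      ∀ v, C.act γ (shift (fun _ => 1) v) = shift (fun _ => 1) (C.act γ v) := by
  rw [Coords.linPart, Subgroup.mem_comap, Subgroup.mem_centralizer_singleton_iff, Equiv.ext_iff]
  simp [C.act_x]

omit hs in
theorem Coords.P_le_linPart : C.P ≤ C.linPart := by
  intro p hp
  obtain ⟨σ, -, a, ha⟩ := C.P_mono p hp
  rw [C.mem_linPart]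
  intro w
  funext j
  obtain ⟨i, rfl⟩ := σ.surjective j
  simp only [shift]
  rw [ha, ha]
  rcases hw : w i with _ | x <;> simp [shift, hw, add_right_comm]

theorem Coords.index_linPart : C.linPart.index = 2 := by
  obtain ⟨γ₀, hγ₀⟩ := exists_inverts hs C
  have v0 : Singular vTwo := InTwo.singular (c := 0) (Or.inl wt_vTwo)
  have hne : ∀ γ : ↥(Subgroup.centralizer ({z} : Set G)) ⧸ Q,
      (∀ v, C.act γ (shift (fun _ => 1) v) = shift (fun _ => -1) (C.act γ v)) →
      γ ∉ C.linPart := by
    intro γ hγ hlin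
    exact (Coords.singular_act hs γ v0).1
      (eq_zero_of_shift ((C.mem_linPart.1 hlin vTwo).symm.trans (hγ vTwo)))
  rw [Subgroup.index_eq_two_iff]
  refine ⟨γ₀, fun b => ?_⟩
  rcases C.act_semilinear b with hb | hb
  · refine Or.inr ⟨C.mem_linPart.2 hb, hne _ fun v => ?_⟩
    rw [C.act_mul_apply, C.act_mul_apply, hγ₀, shift_neg_one, hb, hb, ← shift_neg_one]
  · refine Or.inl ⟨C.mem_linPart.2 fun v => ?_, hne b hb⟩
    rw [C.act_mul_apply, C.act_mul_apply, hγ₀, shift_neg_one, hb, hb, shift_neg_neg]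

/-- The stabiliser of a vector of the shorter class contains an element inverting the scalars. -/
theorem exists_inverts_two {c : ZMod 3} (hc : C.ClassData c) {v : Pt} (hv : InTwo c v) :
    ∃ γ ∈ C.stab v, ∀ u, C.act γ (shift (fun _ => 1) u) = shift (fun _ => -1) (C.act γ u) := by
  classical
  obtain ⟨δ, hδ, hδn⟩ : ∃ δ ∈ C.stab v, δ ∉ C.linPart := by
    by_contra hno
    push Not at hno
    haveI := Subgroup.normal_of_index_eq_two (C.index_linPart hs)
    obtain ⟨γ, hγ⟩ := hc.two_trans vTwo v (Or.inl wt_vTwo) hv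
    have hT : C.stab vTwo ≤ C.linPart := by
      intro δ hδ
      have h1 : γ * δ * γ⁻¹ ∈ C.stab v := by
        rw [C.mem_stab]
        have hs' : (C.act γ).symm v = vTwo := by rw [Equiv.symm_apply_eq, hγ]
        have hδ' : C.act δ vTwo = vTwo := hδ
        simp [hs', hδ', hγ]
      have h2 := Subgroup.Normal.conj_mem (inferInstance : C.linPart.Normal) _ (hno _ h1) γ⁻¹
      simpa [mul_assoc] using h2
    have hcardL : Nat.card C.linPart = 9797760 := by
      have h := Subgroup.card_mul_index C.linPart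
      rw [C.index_linPart hs, C.card_quot] at h
      omega
    letI := MulAction.compHom Pt (C.act.comp C.linPart.subtype)
    have hS : MulAction.stabilizer C.linPart vTwo = (C.stab vTwo).subgroupOf C.linPart := rfl
    have h3 := Nat.card_congr (MulAction.orbitProdStabilizerEquivGroup C.linPart vTwo)
    rw [Nat.card_prod, hS, Nat.card_congr (Subgroup.subgroupOfEquivOfLe hT).toEquiv,
      hc.two_card _ (Or.inl wt_vTwo), hcardL] at h3
    have horb : Nat.card (MulAction.orbit C.linPart vTwo) = 189 := by omega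
    set O : Finset Pt := Finset.univ.filter fun w => w ∈ MulAction.orbit C.linPart vTwo with hO
    have hOc : O.card = 189 := by
      rw [← horb, Nat.card_eq_fintype_card, Fintype.card_subtype]
    have hsub : (Finset.univ.filter fun w : Pt => wt w = 2) ⊆ O := by
      intro w hw
      refine Finset.mem_filter.2 ⟨Finset.mem_univ _, ?_⟩
      obtain ⟨p, hp, hpw⟩ := Coords.exists_P_eq hc (wt_vTwo.trans (Finset.mem_filter.1 hw).2.symm)
        (by rw [wt_vTwo]) (Or.inl (by rw [wt_vTwo]; norm_num))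
      exact ⟨⟨p, C.P_le_linPart hp⟩, hpw⟩
    by_cases h6 : ∃ w, wt w = 6 ∧ w ∈ MulAction.orbit C.linPart vTwo
    · obtain ⟨w, hw6, hwO⟩ := h6
      have hsub6 : (Finset.univ.filter fun u : Pt => wt u = 6 ∧ total u = total w) ⊆ O := by
        intro u hu
        obtain ⟨-, hu6, hut⟩ := Finset.mem_filter.1 hu
        obtain ⟨p, hp, hpw⟩ := Coords.exists_P_eq hc (hw6.trans hu6.symm) (by omega)
          (Or.inr hut.symm)
        refine Finset.mem_filter.2 ⟨Finset.mem_univ _, ?_⟩
        rw [← MulAction.orbit_eq_iff.2 hwO]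
        exact ⟨⟨p, C.P_le_linPart hp⟩, hpw⟩
      have := Finset.card_le_card hsub6
      rw [card_total, hOc] at this
      omega
    · have hsub' : O ⊆ Finset.univ.filter fun w : Pt => wt w = 2 := by
        intro w hw
        refine Finset.mem_filter.2 ⟨Finset.mem_univ _, ?_⟩
        obtain ⟨l, hl⟩ := (Finset.mem_filter.1 hw).2
        rcases hc.two_act l.1 vTwo (Or.inl wt_vTwo) with e | ⟨e, -⟩
        · rw [← hl]; exact e
        · exact absurd ⟨w, hl ▸ e, (Finset.mem_filter.1 hw).2⟩ h6
      have h := congrArg Finset.card (Finset.Subset.antisymm hsub' hsub)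
      rw [hOc, card_wt] at h
      norm_num [Nat.choose] at h
  refine ⟨δ, hδ, ?_⟩
  rcases C.act_semilinear δ with h | h
  · exact absurd (C.mem_linPart.2 h) hδn
  · exact h

end CfsgLib.LargeFischer
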