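import Cfsg.Agent.Lib.LargeFischer.TwoOrbits
import Cfsg.Agent.Lib.Fischer2.FittingSetting
import Cfsg.Prelude.Def_MonsterType

/-!
The centraliser of an involution of large Fischer type acting on `Q` modulo its centre.
-/

set_option autoImplicit false
set_option linter.unusedSectionVars false
set_option linter.style.haveILetI false

namespace CfsgLib.LargeFischer.Six

open Cfsg CfsgLib.SchurMult.U43 CfsgLib.SchurMult.U43.Three
open scoped commutatorElement

section Form

variable {H : Type*} [Group H] [Finite H] (Q : Subgroup H) [Q.Normal]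

/-- `Q` modulo its commutator subgroup, written additively. -/
abbrev Vq : Type _ := Additive (Abelianization Q)

/-- The class of an element of `Q`. -/
def cl (x : Q) : Vq Q := Additive.ofMul (Abelianization.of x)

theorem cl_mul (x y : Q) : cl Q (x * y) = cl Q x + cl Q y := by simp [cl]

theorem cl_surjective : Function.Surjective (cl Q) := fun v => by
  obtain ⟨x, hx⟩ := QuotientGroup.mk_surjective (s := commutator Q) v.toMul
  exact ⟨x, congrArg Additive.ofMul hx⟩

theorem cl_eq_zero {x : Q} : cl Q x = 0 ↔ x ∈ commutator Q := by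
  rw [cl, ofMul_eq_zero]
  exact QuotientGroup.eq_one_iff x

/-- Conjugation on the classes. -/
noncomputable def conjV : H →* AddMonoid.End (Vq Q) where
  toFun h := MonoidHom.toAdditive (Abelianization.map (MulAut.conjNormal (H := Q) h).toMonoidHom)
  map_one' := AddMonoidHom.ext fun v => by
    obtain ⟨x, rfl⟩ := cl_surjective Q v
    show Additive.ofMul (Abelianization.map (MulAut.conjNormal (H := Q) (1 : H)).toMonoidHom (Abelianization.of x)) = cl Q x
    rw [Abelianization.map_of, map_one]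
    rfl
  map_mul' a b := AddMonoidHom.ext fun v => by
    obtain ⟨x, rfl⟩ := cl_surjective Q v
    show Additive.ofMul (Abelianization.map (MulAut.conjNormal (H := Q) (a * b)).toMonoidHom (Abelianization.of x)) =
      Additive.ofMul (Abelianization.map (MulAut.conjNormal (H := Q) a).toMonoidHom
        (Abelianization.map (MulAut.conjNormal (H := Q) b).toMonoidHom (Abelianization.of x)))
    rw [Abelianization.map_of, Abelianization.map_of, Abelianization.map_of, map_mul]
    rfl

theorem conjV_cl (h : H) (x : Q) : conjV Q h (cl Q x) = cl Q (MulAut.conjNormal h x) := by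
  show Additive.ofMul (Abelianization.map _ (Abelianization.of x)) = _
  rw [Abelianization.map_of]
  rfl

open Classical in
/-- The squaring form. -/
noncomputable def qf (v : Vq Q) : ZMod 2 := if ∃ x, cl Q x = v ∧ x * x = 1 then 0 else 1

/-- An extraspecial group of order `2^13` with central involution `zc`. -/
structure Extra (zc : Q) : Prop where
  comm : commutator Q = Subgroup.center Q
  center : ∀ w : Q, w ∈ Subgroup.center Q ↔ w = 1 ∨ w = zc
  zne : zc ≠ 1
  sq : ∀ x : Q, x * x ∈ Subgroup.center Q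
  card : Nat.card (Vq Q) = 4096
  self : Subgroup.centralizer (Q : Set H) ≤ Q

variable {Q}

namespace Extra

variable {zc : Q} (E : Extra Q zc)
include E

theorem zsq : zc * zc = 1 := by
  rcases (E.center _).1 (mul_mem ((E.center zc).2 (Or.inr rfl)) ((E.center zc).2 (Or.inr rfl))) with h | h
  · exact h
  · exact absurd (mul_eq_left.1 h) E.zne

theorem cl_zero {x : Q} : cl Q x = 0 ↔ x ∈ Subgroup.center Q := by rw [cl_eq_zero, E.comm]

theorem cl_eq {x y : Q} (h : cl Q x = cl Q y) : x = y ∨ x = zc * y := by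
  have h0 : cl Q (x * y⁻¹) = 0 := by
    have e := cl_mul Q (x * y⁻¹) y
    rw [inv_mul_cancel_right, h] at e
    exact add_eq_right.1 e.symm
  rcases (E.center _).1 (E.cl_zero.1 h0) with e | e
  · exact Or.inl (mul_inv_eq_one.1 e)
  · exact Or.inr (mul_inv_eq_iff_eq_mul.1 e)

theorem zc_comm (x : Q) : x * zc = zc * x := Subgroup.mem_center_iff.1 ((E.center zc).2 (Or.inr rfl)) x

omit E in
open Classical in
/-- The sign of a central element. -/
theorem sign_add {a b c : Q} (hab : a * b = c) (ha : a = 1 ∨ a = zc) (hb : b = 1 ∨ b = zc) (h : zc * zc = 1)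
    (hz : zc ≠ 1) : (if c = 1 then (0 : ZMod 2) else 1) = (if a = 1 then 0 else 1) + (if b = 1 then 0 else 1) := by
  subst hab
  rcases ha with rfl | rfl <;> rcases hb with rfl | rfl <;> simp [h, hz]
  decide

open Classical in
theorem qf_cl (x : Q) : qf Q (cl Q x) = if x * x = 1 then 0 else 1 := by
  rw [qf]
  refine if_congr ⟨?_, fun h => ⟨x, rfl, h⟩⟩ rfl rfl
  rintro ⟨y, hy, hy2⟩
  rcases E.cl_eq hy with rfl | rfl
  · exact hy2
  · rwa [mul_assoc, ← mul_assoc x, E.zc_comm, mul_assoc zc x, ← mul_assoc, ← mul_assoc, E.zsq, one_mul] at hy2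

theorem qf_eq_zero {x : Q} : qf Q (cl Q x) = 0 ↔ x * x = 1 := by
  classical
  rw [E.qf_cl]
  split_ifs with h <;> simp [h]

theorem commutator_mem (a b : Q) : a⁻¹ * b * a * b⁻¹ = 1 ∨ a⁻¹ * b * a * b⁻¹ = zc := by
  refine (E.center _).1 ?_
  rw [← E.comm, show a⁻¹ * b * a * b⁻¹ = ⁅a⁻¹, b⁆ by rw [commutatorElement_def, inv_inv], commutator_def]
  exact Subgroup.commutator_mem_commutator (Subgroup.mem_top _) (Subgroup.mem_top _)

open Classical in
theorem polar_cl (a b : Q) :
    polar2 (qf Q) (cl Q a) (cl Q b) = if a⁻¹ * b * a * b⁻¹ = 1 then 0 else 1 := by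
  have hs : ∀ x : Q, x * x = 1 ∨ x * x = zc := fun x => (E.center _).1 (E.sq x)
  rw [polar2, ← cl_mul, E.qf_cl, E.qf_cl, E.qf_cl]
  have e : a * b * (a * b) = (a * a) * (a⁻¹ * b * a * b⁻¹) * (b * b) := by group
  have h1 : a * a * (a⁻¹ * b * a * b⁻¹) = 1 ∨ a * a * (a⁻¹ * b * a * b⁻¹) = zc := by
    rcases hs a with u | u <;> rcases E.commutator_mem a b with w | w <;> simp [u, w, E.zsq]
  rw [sign_add e.symm h1 (hs b) E.zsq E.zne, sign_add rfl (hs a) (E.commutator_mem a b) E.zsq E.zne]
  generalize (if a * a = 1 then (0 : ZMod 2) else 1) = A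
  generalize (if b * b = 1 then (0 : ZMod 2) else 1) = B
  generalize (if a⁻¹ * b * a * b⁻¹ = 1 then (0 : ZMod 2) else 1) = C
  revert A B C
  decide

theorem badd (u v w : Vq Q) :
    polar2 (qf Q) (u + v) w = polar2 (qf Q) u w + polar2 (qf Q) v w := by
  classical
  obtain ⟨a, rfl⟩ := cl_surjective Q u
  obtain ⟨a', rfl⟩ := cl_surjective Q v
  obtain ⟨b, rfl⟩ := cl_surjective Q w
  rw [← cl_mul, E.polar_cl, E.polar_cl, E.polar_cl]
  refine sign_add ?_ (E.commutator_mem a b) (E.commutator_mem a' b) E.zsq E.zne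
  have hc := Subgroup.mem_center_iff.1 ((E.center _).2 (E.commutator_mem a b)) a'⁻¹
  calc a⁻¹ * b * a * b⁻¹ * (a'⁻¹ * b * a' * b⁻¹)
      = (a⁻¹ * b * a * b⁻¹ * a'⁻¹) * b * a' * b⁻¹ := by group
    _ = (a'⁻¹ * (a⁻¹ * b * a * b⁻¹)) * b * a' * b⁻¹ := by rw [hc]
    _ = _ := by group

theorem nondeg (v : Vq Q) (h : ∀ w, polar2 (qf Q) v w = 0) : v = 0 := by
  classical
  obtain ⟨a, rfl⟩ := cl_surjective Q v
  refine E.cl_zero.2 (Subgroup.mem_center_iff.2 fun b => ?_)
  have h' := h (cl Q b)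
  rw [E.polar_cl] at h'
  by_cases hc : a⁻¹ * b * a * b⁻¹ = 1
  · rw [mul_inv_eq_one, mul_assoc, inv_mul_eq_iff_eq_mul] at hc
    exact hc
  · rw [if_neg hc] at h'
    exact absurd h' one_ne_zero

theorem two (v : Vq Q) : v + v = 0 := by
  obtain ⟨x, rfl⟩ := cl_surjective Q v
  rw [← cl_mul, E.cl_zero]
  exact E.sq x

theorem qinv (h : H) (v : Vq Q) : qf Q (conjV Q h v) = qf Q v := by
  classical
  obtain ⟨x, rfl⟩ := cl_surjective Q v
  rw [conjV_cl, E.qf_cl, E.qf_cl, ← map_mul]
  simp only [EmbeddingLike.map_eq_one_iff]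

theorem conj_zc (h : H) : MulAut.conjNormal h zc = zc := by
  have hm : MulAut.conjNormal (H := Q) h zc ∈ Subgroup.center Q := by
    refine Subgroup.mem_center_iff.2 fun y => ?_
    obtain ⟨y, rfl⟩ := (MulAut.conjNormal (H := Q) h).surjective y
    rw [← map_mul, ← map_mul, E.zc_comm]
  refine ((E.center _).1 hm).resolve_left fun e => E.zne ?_
  exact (MulAut.conjNormal (H := Q) h).injective (e.trans (map_one _).symm)

/-- A non-central element is conjugate in `Q` to its product with the central involution. -/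
theorem exists_flip {y : Q} (hy : cl Q y ≠ 0) : ∃ b : Q, b * y * b⁻¹ = zc * y := by
  by_contra hcon
  push Not at hcon
  refine hy (E.cl_zero.2 (Subgroup.mem_center_iff.2 fun b => ?_))
  rcases E.commutator_mem b⁻¹ y with h | h
  · rw [inv_inv, mul_inv_eq_one, mul_inv_eq_iff_eq_mul] at h
    exact h
  · rw [inv_inv, mul_inv_eq_iff_eq_mul] at h
    exact absurd h (hcon b)

/-- Only `Q` acts trivially on the classes. -/
theorem mem_of_conjV_eq {h : H} (hh : ∀ v, conjV Q h v = v) : h ∈ Q := by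
  classical
  haveI : Fact (Nat.Prime 2) := ⟨Nat.prime_two⟩
  letI : Module (ZMod 2) (Vq Q) := AddCommGroup.zmodModule fun v => by rw [two_nsmul]; exact E.two v
  have hcl : ∀ x : Q, MulAut.conjNormal h x = x ∨ MulAut.conjNormal h x = zc * x := fun x =>
    E.cl_eq (by rw [← conjV_cl, hh])
  have hconst : ∀ x y : Q, cl Q x = cl Q y →
      (MulAut.conjNormal h x = x ↔ MulAut.conjNormal h y = y) := fun x y e => by
    rcases E.cl_eq e with rfl | rfl
    · exact Iff.rfl
    · rw [map_mul, E.conj_zc, mul_right_inj]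
  obtain ⟨f, hf⟩ : ∃ f : Vq Q → ZMod 2, ∀ x, f (cl Q x) = if MulAut.conjNormal h x = x then 0 else 1 := by
    refine ⟨fun v => if MulAut.conjNormal h (cl_surjective Q v).choose = (cl_surjective Q v).choose then 0 else 1,
      fun x => if_congr (hconst _ _ (cl_surjective Q (cl Q x)).choose_spec) rfl rfl⟩
  have hfadd : ∀ u v, f (u + v) = f u + f v := fun u v => by
    obtain ⟨a, rfl⟩ := cl_surjective Q u
    obtain ⟨b, rfl⟩ := cl_surjective Q v
    rw [← cl_mul, hf, hf, hf, map_mul]
    rcases hcl a with u | u <;> rcases hcl b with w | w <;> rw [u, w]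
    · simp
    · rw [← mul_assoc, E.zc_comm, mul_assoc, if_neg (by simp [E.zne]), if_pos rfl, if_neg (by simp [E.zne])]
      rfl
    · rw [mul_assoc, if_neg (by simp [E.zne]), if_neg (by simp [E.zne]), if_pos rfl]
      rfl
    · rw [show zc * a * (zc * b) = (zc * zc) * (a * b) by
        rw [mul_assoc, ← mul_assoc a, E.zc_comm, mul_assoc zc a, ← mul_assoc, ← mul_assoc, mul_assoc], E.zsq,
        one_mul, if_pos rfl, if_neg (by simp [E.zne]), if_neg (by simp [E.zne])]
      rfl
  obtain ⟨B, hB⟩ : ∃ B : Vq Q →ₗ[ZMod 2] Module.Dual (ZMod 2) (Vq Q), ∀ u v, B u v = polar2 (qf Q) u v := by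
    have hr : ∀ u v w, polar2 (qf Q) u (v + w) = polar2 (qf Q) u v + polar2 (qf Q) u w := fun u v w => by
      have hc : ∀ a b : Vq Q, polar2 (qf Q) a b = polar2 (qf Q) b a := fun a b => by
        rw [polar2, polar2, add_comm a b]; ring
      rw [hc, E.badd, hc v, hc w]
    exact ⟨(AddMonoidHom.mk' (fun u => (AddMonoidHom.mk' (polar2 (qf Q) u) (hr u)).toZModLinearMap 2)
      fun u v => LinearMap.ext fun w => E.badd u v w).toZModLinearMap 2, fun _ _ => rfl⟩
  have hBi : Function.Injective B := (injective_iff_map_eq_zero B).2 fun u hu =>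
    E.nondeg u fun w => by rw [← hB, hu]; rfl
  obtain ⟨u, hu⟩ := (LinearMap.injective_iff_surjective_of_finrank_eq_finrank
    Subspace.dual_finrank_eq.symm).1 hBi ((AddMonoidHom.mk' f hfadd).toZModLinearMap 2)
  obtain ⟨a, rfl⟩ := cl_surjective Q u
  have key : ∀ x : Q, MulAut.conjNormal h x = a⁻¹ * x * a := by
    intro x
    have e1 : (if a⁻¹ * x * a * x⁻¹ = 1 then (0 : ZMod 2) else 1) = if MulAut.conjNormal h x = x then 0 else 1 := by
      rw [← E.polar_cl, ← hB, hu, ← hf]
      rfl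
    rcases hcl x with v | v <;> rcases E.commutator_mem a x with w | w <;>
      rw [mul_inv_eq_iff_eq_mul] at w <;> rw [v, w] at e1 ⊢
    · rw [one_mul]
    · exfalso
      revert e1
      simp [E.zne]
    · exfalso
      revert e1
      simp [E.zne]
  have hc : (a : H) * h ∈ Subgroup.centralizer (Q : Set H) := by
    rw [Subgroup.mem_centralizer_iff]
    intro x hx
    have := congrArg Subtype.val (key ⟨x, hx⟩)
    simp only [MulAut.conjNormal_apply, Subgroup.coe_mul, InvMemClass.coe_inv] at this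
    calc x * ((a : H) * h) = (a : H) * ((a : H)⁻¹ * x * a) * h := by group
      _ = (a : H) * (h * x * h⁻¹) * h := by rw [this]
      _ = (a : H) * h * x := by group
  have := Q.mul_mem (Q.inv_mem a.2) (E.self hc)
  rwa [inv_mul_cancel_left] at this

end Extra

end Form

section Fischer

universe u

variable {G : Type u} [Group G] [Finite G] {z : G} {Q : Subgroup (Subgroup.centralizer ({z} : Set G))}
  [Q.Normal]

/-- The central involution as an element of `Q`. -/
theorem exists_extra (hF : IsOfLargeFischerTypeAt z Q) :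
    ∃ zc : Q, ((zc : Subgroup.centralizer ({z} : Set G)) : G) = z ∧ Extra Q zc := by
  obtain ⟨⟨hz, hFit, hQ, hcard, -⟩, -⟩ := hF
  have hcf := CfsgLib.Cores.centralizer_generalizedFittingSubgroup_le (G := Subgroup.centralizer ({z} : Set G))
  rw [hFit] at hcf
  have hzH : z ∈ Subgroup.centralizer ({z} : Set G) := Subgroup.mem_centralizer_singleton_iff.2 rfl
  have hzQ : (⟨z, hzH⟩ : Subgroup.centralizer ({z} : Set G)) ∈ Q := hcf (Subgroup.mem_centralizer_iff.2
    fun h _ => Subtype.ext (Subgroup.mem_centralizer_singleton_iff.1 h.2))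
  obtain ⟨zc, hzc⟩ : ∃ zc : Q, zc = ⟨_, hzQ⟩ := ⟨_, rfl⟩
  have hz1 : z ≠ 1 := by intro e; rw [e, orderOf_one] at hz; norm_num at hz
  have hne : zc ≠ 1 := fun e => hz1 (by rw [hzc] at e; exact congrArg (fun w : Q => ((w : Subgroup.centralizer ({z} : Set G)) : G)) e)
  have hzcen : zc ∈ Subgroup.center Q := Subgroup.mem_center_iff.2 fun y => by
    rw [hzc]; exact Subtype.ext (Subtype.ext (Subgroup.mem_centralizer_singleton_iff.1 y.1.2))
  have hcen : ∀ w : Q, w ∈ Subgroup.center Q ↔ w = 1 ∨ w = zc := by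
    refine fun w => ⟨fun hw => Fischer2.eq_one_or_eq_of_card_two hQ.2 hzcen hne hw, ?_⟩
    rintro (rfl | rfl)
    · exact one_mem _
    · exact hzcen
  refine ⟨zc, by rw [hzc], hQ.1.2.2, hcen, hne, fun x => ?_, ?_, hcf⟩
  · have := Fischer2.sq_mem_frattini hQ.1.1 x
    rwa [hQ.1.2.1, pow_two] at this
  · show Nat.card (Q ⧸ commutator Q) = 4096
    have h := Subgroup.card_eq_card_quotient_mul_card_subgroup (commutator Q)
    have hc2 : Nat.card (commutator Q) = 2 := by rw [hQ.1.2.2]; exact hQ.2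
    rw [hcard, hc2] at h
    omega

/-- **The module.** -/
theorem exists_mod (hF : IsOfLargeFischerTypeAt z Q) {zc : Q} (E : Extra Q zc) :
    ∃ (M : Subgroup (Subgroup.centralizer ({z} : Set G))) (_ : M.Normal) (Γ : Type u) (_ : Group Γ) (_ : Finite Γ)
      (_ : DistribMulAction Γ (Vq Q)) (p : M →* Γ) (σ : Γ →* G0) (x : Γ),
      M.index = 2 ∧ Q ≤ M ∧ Function.Surjective p ∧ (∀ a : M, p a = 1 ↔ (a : Subgroup.centralizer ({z} : Set G)) ∈ Q) ∧
      (∀ (a : M) (v : Vq Q), p a • v = conjV Q (a : Subgroup.centralizer ({z} : Set G)) v) ∧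
      Mod σ x (qf Q) := by
  obtain ⟨-, N, M, hNn, hMn, hQN, hNM, hN3, ⟨K, _, _, hK, ⟨e⟩⟩, hM2⟩ := hF
  obtain ⟨e0⟩ := nonempty_psu hK
  obtain ⟨f, hfs, hfk⟩ : ∃ f : M →* G0, Function.Surjective f ∧ f.ker = N.subgroupOf M := by
    refine ⟨(e.trans e0.symm).toMonoidHom.comp (QuotientGroup.mk' (N.subgroupOf M)),
      (e.trans e0.symm).surjective.comp (QuotientGroup.mk'_surjective _), ?_⟩
    rw [← MonoidHom.comap_ker, (MonoidHom.ker_eq_bot_iff _).2 (e.trans e0.symm).injective, MonoidHom.comap_bot,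
      QuotientGroup.ker_mk']
  obtain ⟨σ, hσ⟩ : ∃ σ : (M ⧸ Q.subgroupOf M) →* G0, ∀ a : M, σ a = f a :=
    ⟨QuotientGroup.lift _ f (by rw [hfk]; exact fun a ha => hQN ha), fun _ => rfl⟩
  have hcentralQ : Q.subgroupOf M ≤ ((conjV Q).comp M.subtype).ker := fun a ha => by
    rw [MonoidHom.mem_ker]
    refine AddMonoidHom.ext fun v => ?_
    obtain ⟨y, rfl⟩ := cl_surjective Q v
    show conjV Q (a : Subgroup.centralizer ({z} : Set G)) (cl Q y) = cl Q y
    rw [conjV_cl, show MulAut.conjNormal (a : Subgroup.centralizer ({z} : Set G)) y =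
      (⟨_, ha⟩ : Q) * y * (⟨_, ha⟩ : Q)⁻¹ from Subtype.ext rfl, cl_mul, cl_mul, add_right_comm, ← cl_mul,
      mul_inv_cancel, E.cl_zero.2 (one_mem _), zero_add]
  letI act : DistribMulAction (M ⧸ Q.subgroupOf M) (Vq Q) :=
    DistribMulAction.compHom (Vq Q) (QuotientGroup.lift (Q.subgroupOf M) ((conjV Q).comp M.subtype) hcentralQ)
  have hact : ∀ (a : M) (v : Vq Q), (a : M ⧸ Q.subgroupOf M) • v =
      conjV Q (a : Subgroup.centralizer ({z} : Set G)) v := fun _ _ => rfl
  have hcardk : Nat.card σ.ker = 3 := by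
    have h1 : σ.ker = (N.subgroupOf M).map (QuotientGroup.mk' (Q.subgroupOf M)) := by
      ext y
      obtain ⟨a, rfl⟩ := QuotientGroup.mk_surjective y
      rw [MonoidHom.mem_ker, hσ, ← MonoidHom.mem_ker, hfk]
      refine ⟨fun h => ⟨a, h, rfl⟩, fun ⟨b, hb, eb⟩ => ?_⟩
      have hd : b⁻¹ * a ∈ Q.subgroupOf M := QuotientGroup.eq.1 eb
      rw [show a = b * (b⁻¹ * a) from (mul_inv_cancel_left _ _).symm]
      exact mul_mem hb (Subgroup.comap_mono hQN hd)
    have h2 := Subgroup.card_mul_index ((QuotientGroup.mk' (Q.subgroupOf M)).subgroupMap (N.subgroupOf M)).ker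
    rw [Subgroup.index_ker, MonoidHom.range_eq_top.2 ((QuotientGroup.mk' (Q.subgroupOf M)).subgroupMap_surjective _),
      Subgroup.card_top, Nat.card_congr (Subgroup.subgroupOfEquivOfLe hNM).toEquiv, hN3] at h2
    have h3 : Nat.card ((QuotientGroup.mk' (Q.subgroupOf M)).subgroupMap (N.subgroupOf M)).ker = Nat.card Q := by
      refine Nat.card_congr
        { toFun := fun w => ⟨((w : N.subgroupOf M) : M).1, by
            have := congrArg Subtype.val (MonoidHom.mem_ker.1 w.2)
            simp at this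
            exact this⟩
          invFun := fun w => ⟨⟨⟨w.1, hNM (hQN w.2)⟩, hQN w.2⟩,
            Subtype.ext ((QuotientGroup.eq_one_iff _).2 w.2)⟩
          left_inv := fun _ => rfl
          right_inv := fun _ => rfl }
    rw [h3] at h2
    rw [h1]
    exact Nat.eq_of_mul_eq_mul_left Nat.card_pos (h2.trans (mul_comm _ _))
  haveI : Fact (Nat.Prime 3) := ⟨Nat.prime_three⟩
  obtain ⟨⟨x, hx⟩, hxo⟩ := exists_prime_orderOf_dvd_card' (G := σ.ker) 3 (by rw [hcardk])
  rw [Subgroup.orderOf_mk] at hxo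
  have hker : σ.ker = Subgroup.zpowers x := (Subgroup.eq_of_le_of_card_ge (Subgroup.zpowers_le.2 hx)
    (by rw [hcardk, Nat.card_zpowers, hxo])).symm
  have hx3 : x ^ 3 = 1 := by rw [← hxo]; exact pow_orderOf_eq_one x
  have hx1 : x ≠ 1 := fun e => by rw [e, orderOf_one] at hxo; norm_num at hxo
  have hsurj : Function.Surjective σ := fun g => by obtain ⟨a, ha⟩ := hfs g; exact ⟨_, (hσ a).trans ha⟩
  have hcentral : σ.ker ≤ Subgroup.center (M ⧸ Q.subgroupOf M) := by
    obtain ⟨C, hC⟩ : ∃ C : Subgroup (M ⧸ Q.subgroupOf M), C = Subgroup.centralizer ({x} : Set _) := ⟨_, rfl⟩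
    have hCn : C.Normal := by
      refine ⟨fun c hc g => ?_⟩
      rw [hC, Subgroup.mem_centralizer_singleton_iff] at hc ⊢
      have hgx : g⁻¹ * x * g ∈ σ.ker := by
        have := (inferInstance : σ.ker.Normal).conj_mem x hx g⁻¹
        rwa [inv_inv] at this
      rw [hker] at hgx
      obtain ⟨k, hk⟩ := hgx
      have hcc : c * (g⁻¹ * x * g) = g⁻¹ * x * g * c := by
        rw [← hk]; exact ((show Commute c x from hc).zpow_right k).eq
      calc g * c * g⁻¹ * x = g * (c * (g⁻¹ * x * g)) * g⁻¹ := by group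
        _ = g * (g⁻¹ * x * g * c) * g⁻¹ := by rw [hcc]
        _ = x * (g * c * g⁻¹) := by group
    haveI := isSimpleGroup_G0
    haveI : (C.map σ).Normal := hCn.map σ hsurj
    have hsq : ∀ g, g * g ∈ C := fun g => by
      rw [hC, Subgroup.mem_centralizer_singleton_iff]
      have hgx : g * x * g⁻¹ ∈ σ.ker := (inferInstance : σ.ker.Normal).conj_mem x hx g
      rw [hker] at hgx
      obtain ⟨n, hn⟩ : ∃ n : Fin 3, x ^ (n : ℕ) = g * x * g⁻¹ := by
        obtain ⟨k, hk⟩ := hgx
        refine ⟨⟨(k % 3).toNat, by omega⟩, ?_⟩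
        rw [← hk]
        show x ^ (k % 3).toNat = x ^ k
        rw [← zpow_natCast, Int.toNat_of_nonneg (Int.emod_nonneg _ (by norm_num)),
          show (3 : ℤ) = (orderOf x : ℤ) by rw [hxo]; rfl, zpow_mod_orderOf]
      have h2 : g * g * x * (g * g)⁻¹ = x := by
        rw [show g * g * x * (g * g)⁻¹ = g * (g * x * g⁻¹) * g⁻¹ by group, ← hn, ← conj_pow, ← hn, ← pow_mul]
        rcases (by decide : ∀ n : Fin 3, n.val = 0 ∨ n.val = 1 ∨ n.val = 2) n with h | h | h
        · exfalso
          rw [h, pow_zero] at hn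
          exact hx1 (conj_eq_one_iff.1 hn.symm)
        · rw [h, pow_one]
        · rw [h, show 2 * 2 = 3 + 1 from rfl, pow_succ, hx3, one_mul]
      exact mul_inv_eq_iff_eq_mul.1 h2
    rcases Subgroup.Normal.eq_bot_or_eq_top (H := C.map σ) inferInstance with hb | ht
    · exfalso
      refine dd_ne_one ?_
      obtain ⟨g, hg⟩ := hsurj (dd 0 1)
      have h2 : σ (g * g) = 1 := Subgroup.mem_bot.1 (hb ▸ Subgroup.mem_map_of_mem σ (hsq g))
      have h3 := cube_Eh (dd_range 0 1)
      rw [map_mul, hg] at h2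
      rwa [pow_succ, pow_two, h2, one_mul] at h3
    · rw [hker, Subgroup.zpowers_le]
      refine Subgroup.mem_center_iff.2 fun g => ?_
      obtain ⟨c, hc, hcg⟩ : σ g ∈ C.map σ := ht ▸ Subgroup.mem_top _
      have hd : c⁻¹ * g ∈ σ.ker := by rw [MonoidHom.mem_ker, map_mul, map_inv, hcg, inv_mul_cancel]
      rw [hker] at hd
      obtain ⟨k, hk⟩ := hd
      rw [hC, SetLike.mem_coe, Subgroup.mem_centralizer_singleton_iff] at hc
      have hk' : x ^ k = c⁻¹ * g := hk
      rw [show g = c * x ^ k by rw [hk', mul_inv_cancel_left]]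
      exact ((show Commute c x from hc).mul_left ((Commute.refl x).zpow_left k)).eq
  refine ⟨M, hMn, M ⧸ Q.subgroupOf M, inferInstance, inferInstance, act, QuotientGroup.mk' _, σ, x, hM2,
    hQN.trans hNM, QuotientGroup.mk'_surjective _, fun a => QuotientGroup.eq_one_iff a, hact,
    ⟨⟨hsurj, hcentral, hker, hx3, hx1⟩, ?_, E.two, E.card, ?_, E.badd, E.nondeg⟩⟩
  · intro γ hγ
    obtain ⟨a, rfl⟩ := QuotientGroup.mk_surjective γ
    exact (QuotientGroup.eq_one_iff a).2 (E.mem_of_conjV_eq fun v => (hact a v).symm.trans (hγ v))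
  · intro γ v
    obtain ⟨a, rfl⟩ := QuotientGroup.mk_surjective γ
    rw [hact]
    exact E.qinv _ v

end Fischer

end CfsgLib.LargeFischer.Six
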