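import Cfsg.Agent.Lib.LargeFischer.Bound
import Mathlib.GroupTheory.Perm.Cycle.Type

/-!
An element of order 7 of a group of large Fischer type fixes only the identity of `Q / ⟨z⟩`: count the
elements of square one modulo 3 and modulo 7.
-/

set_option autoImplicit false
set_option linter.unusedSectionVars false
set_option linter.style.haveILetI false

namespace CfsgLib.LargeFischer

open Cfsg

theorem modEq_of_eq {n a b : ℕ} (h : a = b) : a ≡ b [MOD n] := h ▸ Nat.ModEq.refl a

theorem natCard_fixed_modEq {α : Type*} [Finite α] {p : ℕ} [Fact p.Prime] (σ : Equiv.Perm α) (h : σ ^ p = 1) :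
    Nat.card {a : α // σ a = a} ≡ Nat.card α [MOD p] := by
  classical
  haveI := Fintype.ofFinite α
  have h' := Equiv.Perm.card_compl_support_modEq (p := p) (n := 1) (σ := σ) (by rwa [pow_one])
  rw [Nat.card_eq_fintype_card, Nat.card_eq_fintype_card]
  refine Nat.ModEq.trans ?_ h'
  rw [Fintype.card_subtype]
  refine modEq_of_eq (congrArg Finset.card (Finset.ext fun a => ?_))
  simp

variable {G : Type*} [Group G] [Finite G] {z : G}
  {Q : Subgroup ↥(Subgroup.centralizer ({z} : Set G))} [Q.Normal] {w : ℕ}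

section Count

variable (hs : IsExtraspecialCentralizerSetting z Q w)
include hs

/-- The squared Gauss sum of a non-degenerate subgroup of `Q`. -/
theorem sq_count (U : Subgroup ↥(Subgroup.centralizer ({z} : Set G))) (hUQ : U ≤ Q) (hzU : zH z ∈ U)
    (hnd : ∀ u ∈ U, (∀ y ∈ U, u * y = y * u) → u = 1 ∨ u = zH z) :
    (2 * (Nat.card {u : U // u * u = 1} : ℤ) - Nat.card U) ^ 2 = 2 * Nat.card U := by
  classical
  haveI := Fintype.ofFinite U
  set zu : U := ⟨zH z, hzU⟩
  have hzz : zu * zu = 1 := Subtype.ext (zH_sq hs)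
  have hz1 : zu ≠ 1 := fun h => zH_ne_one hs (congrArg Subtype.val h)
  have hzc : ∀ u : U, u * zu = zu * u := fun u => Subtype.ext (zH_comm _)
  have hzc' : ∀ a b : U, a * (zu * b) = zu * (a * b) := fun a b => by rw [← mul_assoc, hzc, mul_assoc]
  have sq : ∀ u : U, u * u = 1 ∨ u * u = zu := fun u => (sq_cases hs (hUQ u.2)).imp Subtype.ext Subtype.ext
  have cm : ∀ a b : U, b * a = a * b ∨ b * a = zu * (a * b) := fun a b => by
    rcases conj_cases hs (hUQ a.2) (hUQ b.2) with h | h
    · exact Or.inl (Subtype.ext (mul_inv_eq_iff_eq_mul.1 h))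
    · refine Or.inr (Subtype.ext ?_)
      show (b : ↥(Subgroup.centralizer ({z} : Set G))) * a = zH z * ((a : ↥(Subgroup.centralizer ({z} : Set G))) * b)
      rw [← mul_assoc]; exact mul_inv_eq_iff_eq_mul.1 h
  let f : U → ℤ := fun u => if u * u = 1 then 1 else -1
  let χ : U → U → ℤ := fun a b => if b * a = a * b then 1 else -1
  have hne : ∀ y : U, zu * y ≠ y := fun y h => hz1 (mul_eq_right.1 h)
  have hf : ∀ a b : U, f a * f b = f (a * b) * χ a b := by
    intro a b
    have e : (a * b) * (a * b) = a * (b * a) * b := by simp [mul_assoc]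
    rcases cm a b with hab | hab
    · have e1 : (a * b) * (a * b) = a * a * (b * b) := by rw [e, hab]; simp [mul_assoc]
      rcases sq a with ha | ha <;> rcases sq b with hb | hb <;> simp [f, χ, e1, hab, ha, hb, hzz, hz1]
    · have e1 : (a * b) * (a * b) = zu * (a * a * (b * b)) := by rw [e, hab, hzc']; simp [mul_assoc]
      rcases sq a with ha | ha <;> rcases sq b with hb | hb <;> simp [f, χ, e1, hab, ha, hb, hzz, hz1, hne]
  have hchi : ∀ t : U, ∑ u, χ u t = if t = 1 ∨ t = zu then (Nat.card U : ℤ) else 0 := by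
    intro t
    split_ifs with ht
    · rw [Finset.sum_congr rfl fun u _ => show χ u t = 1 by
        rcases ht with rfl | rfl <;> simp [χ, hzc u]]
      simp [Nat.card_eq_fintype_card]
    · have hcen : ∃ y : U, t * y ≠ y * t := by
        by_contra h
        push Not at h
        exact ht ((hnd t t.2 fun y hy => congrArg Subtype.val (h ⟨y, hy⟩)).imp Subtype.ext Subtype.ext)
      obtain ⟨y, hy⟩ := hcen
      have hy' : t * y = zu * (y * t) := (cm y t).resolve_left hy
      have hneg : ∀ u, χ (y * u) t = - χ u t := fun u => by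
        rcases cm u t with h | h
        · have e : t * (y * u) = zu * (y * u * t) := by
            rw [← mul_assoc, hy', mul_assoc, mul_assoc, h, mul_assoc]
          simp [χ, h, e, hne]
        · have e : t * (y * u) = y * u * t := by
            rw [← mul_assoc, hy', mul_assoc, mul_assoc, h, hzc', ← mul_assoc zu, hzz, one_mul, mul_assoc]
          simp [χ, h, e, hne]
      have := Fintype.sum_equiv (Equiv.mulLeft y) (fun u => χ (y * u) t) (fun u => χ u t) fun u => rfl
      simp only [hneg, Finset.sum_neg_distrib] at this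
      linarith
  have hT : (2 * (Nat.card {u : U // u * u = 1} : ℤ) - Nat.card U) = ∑ u, f u := by
    have : ∀ u, f u = 2 * (if u * u = 1 then (1 : ℤ) else 0) - 1 := fun u => by
      simp only [f]; split_ifs <;> norm_num
    simp only [this, Finset.sum_sub_distrib, ← Finset.mul_sum, Finset.sum_boole, Finset.sum_const,
      Finset.card_univ, Nat.card_eq_fintype_card, Fintype.card_subtype]
    simp
  rw [hT, pow_two, Finset.sum_mul]
  have hstep : ∀ u, f u * ∑ w, f w = ∑ t, f t * χ u t := by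
    intro u
    rw [Finset.mul_sum]
    refine Fintype.sum_equiv (Equiv.mulLeft u) _ _ fun w => ?_
    rw [hf]
    simp only [Equiv.coe_mulLeft]
    congr 1
    simp only [χ]
    refine if_congr ?_ rfl rfl
    rw [mul_assoc, mul_right_inj]
  simp only [hstep]
  rw [Finset.sum_comm]
  simp only [← Finset.mul_sum, hchi, mul_ite, mul_zero, Finset.sum_ite, Finset.sum_const_zero, add_zero]
  rw [show Finset.univ.filter (fun t : U => t = 1 ∨ t = zu) = {1, zu} by ext; simp,
    Finset.sum_pair hz1.symm]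
  simp [f, hzz, two_mul]

/-- An element of order three fixing only `⟨z⟩` leaves two modulo three elements of square one. -/
theorem count_mod_three (U : Subgroup ↥(Subgroup.centralizer ({z} : Set G))) (hUQ : U ≤ Q) (hzU : zH z ∈ U)
    {x : ↥(Subgroup.centralizer ({z} : Set G))} (hx : x ^ 3 = 1) (hxU : ∀ u ∈ U, x * u * x⁻¹ ∈ U)
    (hfix : ∀ q ∈ Q, x * q = q * x → q = 1 ∨ q = zH z) :
    Nat.card U ≡ 2 [MOD 3] ∧ Nat.card {u : U // u * u = 1} ≡ 2 [MOD 3] := by
  classical
  have hback : ∀ u ∈ U, x⁻¹ * u * x ∈ U := fun u hu => by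
    have := hxU _ (hxU u hu)
    rwa [show x⁻¹ = x * x by rw [inv_eq_iff_mul_eq_one, ← mul_assoc, ← pow_two, ← pow_succ, hx],
      show x * x * u * x = x * (x * u * x⁻¹) * x⁻¹ * (x ^ 3) by rw [pow_succ, pow_two]; group, hx, mul_one]
  let σ : Equiv.Perm U :=
    { toFun := fun u => ⟨x * u * x⁻¹, hxU u u.2⟩
      invFun := fun u => ⟨x⁻¹ * u * x, hback u u.2⟩
      left_inv := fun u => Subtype.ext (by simp [mul_assoc])
      right_inv := fun u => Subtype.ext (by simp [mul_assoc]) }
  have hpow : σ ^ 3 = 1 := Equiv.ext fun u => Subtype.ext (by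
    show x * (x * (x * (u : ↥(Subgroup.centralizer ({z} : Set G))) * x⁻¹) * x⁻¹) * x⁻¹ = u
    calc _ = x ^ 3 * (u : ↥(Subgroup.centralizer ({z} : Set G))) * (x ^ 3)⁻¹ := by rw [pow_succ, pow_two]; group
      _ = u := by rw [hx, one_mul, inv_one, mul_one])
  haveI : Fact (Nat.Prime 3) := ⟨Nat.prime_three⟩
  set zu : U := ⟨zH z, hzU⟩
  have hz1 : (1 : U) ≠ zu := fun h => zH_ne_one hs (congrArg Subtype.val h).symm
  have hfx : ∀ u : U, σ u = u ↔ u = 1 ∨ u = zu := fun u => by
    refine ⟨fun h => ?_, ?_⟩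
    · exact (hfix u (hUQ u.2) (mul_inv_eq_iff_eq_mul.1 (congrArg Subtype.val h))).imp Subtype.ext Subtype.ext
    · rintro (rfl | rfl)
      · exact Subtype.ext (by simp [σ])
      · exact Subtype.ext (conj_zH x)
  refine ⟨?_, ?_⟩
  · refine ((natCard_fixed_modEq σ hpow).symm.trans (modEq_of_eq ?_))
    haveI := Fintype.ofFinite U
    rw [Nat.card_eq_fintype_card, Fintype.card_subtype]
    rw [show Finset.univ.filter (fun u : U => σ u = u) = {1, zu} by ext; simp [hfx]]
    exact Finset.card_pair hz1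
  · have hinv : ∀ u : U, u * u = 1 ↔ σ u * σ u = 1 := fun u => by
      have e : ((σ u * σ u : U) : ↥(Subgroup.centralizer ({z} : Set G))) = x * ((u * u : U) : ↥(Subgroup.centralizer ({z} : Set G))) * x⁻¹ := by
        simp [σ, mul_assoc]
      rw [← OneMemClass.coe_eq_one (x := σ u * σ u), e, conj_eq_one_iff, OneMemClass.coe_eq_one]
    let τ : Equiv.Perm {u : U // u * u = 1} := σ.subtypePerm fun u => (hinv u).symm
    have hτ : τ ^ 3 = 1 := Equiv.ext fun u => Subtype.ext (congrFun (congrArg DFunLike.coe hpow) u.1)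
    refine ((natCard_fixed_modEq τ hτ).symm.trans (modEq_of_eq ?_))
    haveI := Fintype.ofFinite U
    rw [Nat.card_eq_fintype_card, Fintype.card_subtype]
    have hzz : zu * zu = 1 := Subtype.ext (zH_sq hs)
    rw [show Finset.univ.filter (fun u => τ u = u) = {⟨1, one_mul 1⟩, ⟨zu, hzz⟩} by
      ext u
      simp only [Finset.mem_filter, Finset.mem_univ, true_and, Finset.mem_insert, Finset.mem_singleton]
      exact (Subtype.ext_iff.trans (hfx u.1)).trans (or_congr Subtype.ext_iff.symm Subtype.ext_iff.symm)]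
    exact Finset.card_pair fun h => hz1 (congrArg Subtype.val h)

end Count

namespace Chain

variable {N M : Subgroup ↥(Subgroup.centralizer ({z} : Set G))} (c : Chain z Q N M)
include c

theorem no_fixed_of_commute {g x : ↥(Subgroup.centralizer ({z} : Set G))} (hg : g ^ 7 = 1) (hg1 : g ≠ 1)
    (hx : x ^ 3 = 1) (hgx : x * g = g * x) (hfix : ∀ q ∈ Q, x * q = q * x → q = 1 ∨ q = zH z)
    {q : ↥(Subgroup.centralizer ({z} : Set G))} (hq : q ∈ Q) (hgq : g * q = q * g) : q = 1 ∨ q = zH z := by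
  classical
  have hs := c.setting
  haveI : Fact (Nat.Prime 7) := ⟨by norm_num⟩
  set U := Q ⊓ Subgroup.centralizer ({g} : Set ↥(Subgroup.centralizer ({z} : Set G))) with hUdef
  have hzU : zH z ∈ U := ⟨zH_mem hs, Subgroup.mem_centralizer_singleton_iff.2 (zH_comm g).symm⟩
  have hqU : q ∈ U := ⟨hq, Subgroup.mem_centralizer_singleton_iff.2 hgq.symm⟩
  have hxU : ∀ u ∈ U, x * u * x⁻¹ ∈ U := fun u hu => ⟨(inferInstance : Q.Normal).conj_mem u hu.1 x,
    Subgroup.mem_centralizer_singleton_iff.2 (by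
      have h1 : u * g = g * u := Subgroup.mem_centralizer_singleton_iff.1 hu.2
      have h2 : x⁻¹ * g = g * x⁻¹ := (show Commute x g from hgx).inv_left.eq
      rw [mul_assoc (x * u), h2, ← mul_assoc, mul_assoc x, h1, ← mul_assoc x, hgx, mul_assoc g, ← mul_assoc]
      simp [mul_assoc])⟩
  -- non-degenerate
  have hnd : ∀ u ∈ U, (∀ y ∈ U, u * y = y * u) → u = 1 ∨ u = zH z := by
    intro u hu hc
    refine center_cases hs hu.1 fun y hy => ?_
    by_contra hne
    -- products of the seven conjugates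
    set y' := fun k : ℕ => g ^ k * y * (g ^ k)⁻¹
    have hy'Q : ∀ k, y' k ∈ Q := fun k => (inferInstance : Q.Normal).conj_mem y hy _
    have hgu : ∀ k : ℕ, g ^ k * u * (g ^ k)⁻¹ = u := fun k =>
      mul_inv_eq_iff_eq_mul.2 ((show Commute g u from (Subgroup.mem_centralizer_singleton_iff.1 hu.2).symm).pow_left k).eq
    have hm : ∀ k, u * y' k = zH z * (y' k * u) := by
      intro k
      rcases conj_cases hs hy hu.1 with h | h
      · exact absurd (mul_inv_eq_iff_eq_mul.1 h) hne
      · have h1 : u * y' k * u⁻¹ = zH z * y' k := by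
          calc u * y' k * u⁻¹ = (g ^ k * u * (g ^ k)⁻¹) * y' k * (g ^ k * u * (g ^ k)⁻¹)⁻¹ := by rw [hgu]
            _ = g ^ k * (u * y * u⁻¹) * (g ^ k)⁻¹ := by simp only [y']; group
            _ = zH z * y' k := by rw [h, conj_zH_mul]
        exact (mul_inv_eq_iff_eq_mul.1 h1).trans (mul_assoc _ _ _)
    set s := y' 0 * (y' 1 * (y' 2 * (y' 3 * (y' 4 * (y' 5 * y' 6)))))
    have hsQ : s ∈ Q := Q.mul_mem (hy'Q _) (Q.mul_mem (hy'Q _) (Q.mul_mem (hy'Q _) (Q.mul_mem (hy'Q _)
      (Q.mul_mem (hy'Q _) (Q.mul_mem (hy'Q _) (hy'Q _))))))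
    have hpull : ∀ k r, u * (y' k * r) = zH z * (y' k * (u * r)) := fun k r => by
      rw [← mul_assoc, hm, mul_assoc, mul_assoc]
    have hzz : ∀ r, zH z * (zH z * r) = r := zH_cancel hs
    have hcz : ∀ k r, y' k * (zH z * r) = zH z * (y' k * r) := fun k r => by
      rw [← mul_assoc, zH_comm, mul_assoc]
    have hus : u * s = zH z * (s * u) := by
      simp only [s, hpull, hm, hcz, hzz, mul_assoc]
    have hrot : g * s * g⁻¹ = y' 1 * (y' 2 * (y' 3 * (y' 4 * (y' 5 * (y' 6 * y' 0))))) := by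
      have hnext : ∀ k, g * y' k * g⁻¹ = y' (k + 1) := fun k => by simp only [y', pow_succ']; group
      have h70 : y' 7 = y' 0 := by simp only [y']; rw [hg]; simp
      have hdist : ∀ a b, g * (a * b) * g⁻¹ = (g * a * g⁻¹) * (g * b * g⁻¹) := fun a b => by group
      simp only [s, hdist, hnext, h70]
    obtain ⟨r, hr⟩ : ∃ r, r = y' 1 * (y' 2 * (y' 3 * (y' 4 * (y' 5 * y' 6)))) := ⟨_, rfl⟩
    have hrQ : r ∈ Q := hr ▸ Q.mul_mem (hy'Q _) (Q.mul_mem (hy'Q _) (Q.mul_mem (hy'Q _)
      (Q.mul_mem (hy'Q _) (Q.mul_mem (hy'Q _) (hy'Q _)))))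
    have hgs : g * s * g⁻¹ = s ∨ g * s * g⁻¹ = zH z * s := by
      have hs' : s = y' 0 * r := by rw [hr]
      have hg' : g * s * g⁻¹ = r * y' 0 := by rw [hrot, hr]; simp [mul_assoc]
      rw [hg', hs']
      rcases conj_cases hs (hy'Q 0) hrQ with h | h <;> rw [mul_inv_eq_iff_eq_mul] at h <;> rw [h]
      · exact Or.inl rfl
      · exact Or.inr (mul_assoc _ _ _)
    have hsU : s ∈ U := by
      refine ⟨hsQ, Subgroup.mem_centralizer_singleton_iff.2 ?_⟩
      rcases hgs with h | h
      · exact (mul_inv_eq_iff_eq_mul.1 h).symm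
      · exfalso
        have hstep : ∀ k : ℕ, g ^ k * s * (g ^ k)⁻¹ = (zH z) ^ k * s := by
          intro k
          induction k with
          | zero => simp
          | succ k ih =>
            rw [show g ^ (k + 1) * s * (g ^ (k + 1))⁻¹ = g ^ k * (g * s * g⁻¹) * (g ^ k)⁻¹ by rw [pow_succ]; group,
              h, conj_zH_mul, ih, ← mul_assoc, pow_succ']
        have e := hstep 7
        rw [hg, one_mul, inv_one, mul_one, show (zH z) ^ 7 = zH z * ((zH z * zH z) * (zH z * zH z) * (zH z * zH z)) by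
          simp [pow_succ, mul_assoc], zH_sq hs] at e
        simp at e
        exact zH_ne_one hs e
    have := hc s hsU
    rw [hus] at this
    exact zH_ne_one hs (mul_eq_right.1 this)
  have hQnd : ∀ u ∈ Q, (∀ y ∈ Q, u * y = y * u) → u = 1 ∨ u = zH z := fun u hu hc => center_cases hs hu hc
  obtain ⟨hU3, hA3⟩ := count_mod_three hs U inf_le_left hzU hx hxU hfix
  obtain ⟨-, hB3⟩ := count_mod_three hs Q le_rfl (zH_mem hs) hx (fun u hu => (inferInstance : Q.Normal).conj_mem u hu x) hfix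
  have hUsq := sq_count hs U inf_le_left hzU hnd
  have hQsq := sq_count hs Q le_rfl (zH_mem hs) hQnd
  -- modulo seven
  let σ : Equiv.Perm Q :=
    { toFun := fun u => ⟨g * u * g⁻¹, (inferInstance : Q.Normal).conj_mem u u.2 g⟩
      invFun := fun u => ⟨g⁻¹ * u * g, by simpa using (inferInstance : Q.Normal).conj_mem u u.2 g⁻¹⟩
      left_inv := fun u => Subtype.ext (by simp [mul_assoc])
      right_inv := fun u => Subtype.ext (by simp [mul_assoc]) }
  have hσk : ∀ (k : ℕ) (u : Q), ((σ ^ k) u : ↥(Subgroup.centralizer ({z} : Set G))) =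
      g ^ k * u * (g ^ k)⁻¹ := by
    intro k
    induction k with
    | zero => intro u; simp
    | succ k ih => intro u; rw [pow_succ, Equiv.Perm.mul_apply, ih, pow_succ]; simp [σ, mul_assoc]
  have hσ : σ ^ 7 = 1 := Equiv.ext fun u => Subtype.ext (by rw [hσk, hg]; simp)
  have hfixσ : ∀ u : Q, σ u = u ↔ (u : ↥(Subgroup.centralizer ({z} : Set G))) ∈ U := fun u => by
    rw [hUdef, Subgroup.mem_inf, Subgroup.mem_centralizer_singleton_iff]
    exact ⟨fun h => ⟨u.2, (mul_inv_eq_iff_eq_mul.1 (congrArg Subtype.val h)).symm⟩,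
      fun h => Subtype.ext (mul_inv_eq_iff_eq_mul.2 h.2.symm)⟩
  have h7U : Nat.card U ≡ Nat.card Q [MOD 7] := by
    refine (modEq_of_eq ?_).trans (natCard_fixed_modEq σ hσ)
    exact (Nat.card_congr ((Equiv.subtypeEquivRight hfixσ).trans
      { toFun := fun u => ⟨u.1.1, u.2⟩, invFun := fun u => ⟨⟨u.1, u.2.1⟩, u.2⟩,
        left_inv := fun _ => rfl, right_inv := fun _ => rfl })).symm
  have hinv : ∀ u : Q, u * u = 1 ↔ σ u * σ u = 1 := fun u => by
    have e : ((σ u * σ u : Q) : ↥(Subgroup.centralizer ({z} : Set G))) = g * ((u * u : Q) : ↥(Subgroup.centralizer ({z} : Set G))) * g⁻¹ := by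
      simp [σ, mul_assoc]
    rw [← OneMemClass.coe_eq_one (x := σ u * σ u), e, conj_eq_one_iff, OneMemClass.coe_eq_one]
  let τ : Equiv.Perm {u : Q // u * u = 1} := σ.subtypePerm fun u => (hinv u).symm
  have hτ : τ ^ 7 = 1 := Equiv.ext fun u => Subtype.ext (congrFun (congrArg DFunLike.coe hσ) u.1)
  have h7A : Nat.card {u : U // u * u = 1} ≡ Nat.card {u : Q // u * u = 1} [MOD 7] := by
    refine (modEq_of_eq ?_).trans (natCard_fixed_modEq τ hτ)
    refine Nat.card_congr
      { toFun := fun u => ⟨⟨⟨u.1.1, u.1.2.1⟩, Subtype.ext (by simpa using congrArg Subtype.val u.2)⟩,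
          Subtype.ext ((hfixσ _).2 u.1.2)⟩,
        invFun := fun u => ⟨⟨u.1.1.1, (hfixσ _).1 (congrArg Subtype.val u.2)⟩,
          Subtype.ext (by simpa using congrArg Subtype.val u.1.2)⟩,
        left_inv := fun _ => rfl, right_inv := fun _ => rfl }
  -- arithmetic
  have hdvd : Nat.card U ∣ 2 ^ 13 := c.cardQ ▸ Subgroup.card_dvd_of_le inf_le_left
  obtain ⟨k, hk, hk'⟩ := (Nat.dvd_prime_pow Nat.prime_two).1 hdvd
  rw [c.cardQ] at h7U hQsq
  rw [hk'] at h7U hU3 hUsq
  have hcases : k = 1 ∨ k = 7 ∨ k = 13 := by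
    unfold Nat.ModEq at h7U hU3
    interval_cases k <;> omega
  rcases hcases with rfl | rfl | rfl
  · -- `U = ⟨z⟩`
    have h2 : Nat.card (Subgroup.zpowers (zH z)) = 2 := by
      rw [Nat.card_zpowers]
      haveI : Fact (Nat.Prime 2) := ⟨Nat.prime_two⟩
      exact orderOf_eq_prime (by rw [pow_two]; exact zH_sq hs) (zH_ne_one hs)
    have heq : Subgroup.zpowers (zH z) = U :=
      Subgroup.eq_of_le_of_card_ge (Subgroup.zpowers_le.2 hzU) (by rw [h2, hk']; norm_num)
    have hqz : q ∈ Subgroup.zpowers (zH z) := heq ▸ hqU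
    obtain ⟨n, rfl⟩ := (isOfFinOrder_of_finite (zH z)).mem_powers_iff_mem_zpowers.2 hqz
    rcases Nat.even_or_odd n with ⟨m, rfl⟩ | ⟨m, rfl⟩
    · left
      show zH z ^ (m + m) = 1
      rw [← two_mul, pow_mul, pow_two, zH_sq hs, one_pow]
    · right
      show zH z ^ (2 * m + 1) = zH z
      rw [pow_succ, pow_mul, pow_two, zH_sq hs, one_pow, one_mul]
  · exfalso
    set a := Nat.card {u : U // u * u = 1}
    set b := Nat.card {u : Q // u * u = 1}
    have ha : a = 56 := by
      have : (2 * (a : ℤ) - 128) ^ 2 = 16 ^ 2 := by norm_num at hUsq ⊢; linarith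
      rcases sq_eq_sq_iff_eq_or_eq_neg.1 this with h | h <;> unfold Nat.ModEq at hA3 <;> omega
    have hb : b = 4160 := by
      have : (2 * (b : ℤ) - 8192) ^ 2 = 128 ^ 2 := by norm_num at hQsq ⊢; linarith
      rcases sq_eq_sq_iff_eq_or_eq_neg.1 this with h | h <;> unfold Nat.ModEq at hB3 <;> omega
    rw [ha, hb] at h7A
    unfold Nat.ModEq at h7A
    norm_num at h7A
  · exfalso
    have hUQ : U = Q := Subgroup.eq_of_le_of_card_ge inf_le_left (by rw [hk', c.cardQ])
    have hgQ : g ∈ Q := mem_Q_of_centralizes hs fun y hy =>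
      (Subgroup.mem_centralizer_singleton_iff.1 (hUQ.symm ▸ hy : y ∈ U).2).symm
    have h1 : orderOf g = 7 := orderOf_eq_prime hg hg1
    have h2 : orderOf g ∣ Nat.card Q := by
      rw [← Nat.card_zpowers]; exact Subgroup.card_dvd_of_le (Subgroup.zpowers_le.2 hgQ)
    rw [h1, c.cardQ] at h2
    norm_num at h2

/-- An element of order seven modulo `Q` fixes only `⟨z⟩` modulo `⟨z⟩`. -/
theorem no_fixed_seven {h : ↥(Subgroup.centralizer ({z} : Set G))} (h7 : h ^ 7 ∈ Q) (hh : h ∉ Q)
    {q : ↥(Subgroup.centralizer ({z} : Set G))} (hq : q ∈ Q)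
    (hfix : h * q * h⁻¹ = q ∨ h * q * h⁻¹ = zH z * q) : q = 1 ∨ q = zH z := by
  have hs := c.setting
  obtain ⟨X, hX, hXN⟩ := c.exists_three
  have hM : h ∈ M := by
    have h2 : h * h ∈ M := Subgroup.mul_self_mem_of_index_two c.indexM h
    have e : h = h ^ 7 * ((h * h) ^ 3)⁻¹ := by rw [← pow_two, ← pow_mul, pow_succ]; group
    rw [e]; exact M.mul_mem (c.N_le (c.Q_le h7)) (M.inv_mem (pow_mem h2 3))
  obtain ⟨q1, hq1, hcent⟩ := c.exists_mul_mem_centralizer hX hXN hM
  set h1 := q1 * h with hh1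
  have h1fix : h1 * q * h1⁻¹ = q ∨ h1 * q * h1⁻¹ = zH z * q := by
    have e : h1 * q * h1⁻¹ = q1 * (h * q * h⁻¹) * q1⁻¹ := by simp only [hh1]; group
    rw [e]
    rcases hfix with f | f <;> rw [f]
    · exact conj_cases hs hq hq1
    · rw [conj_zH_mul]
      rcases conj_cases hs hq hq1 with f' | f' <;> rw [f']
      · exact Or.inr rfl
      · exact Or.inl (zH_cancel hs q)
  have h17 : h1 ^ 7 ∈ Q := by
    rw [← QuotientGroup.eq_one_iff, QuotientGroup.mk_pow, hh1, QuotientGroup.mk_mul,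
      (QuotientGroup.eq_one_iff q1).2 hq1, one_mul, ← QuotientGroup.mk_pow, QuotientGroup.eq_one_iff]
    exact h7
  obtain ⟨x, hxX, hx1⟩ : ∃ x ∈ X, x ≠ 1 := (Subgroup.bot_or_exists_ne_one X).resolve_left (by
    rw [Subgroup.eq_bot_iff_card, hX]; norm_num)
  have hxgen : Subgroup.zpowers x = X := by
    refine Subgroup.eq_of_le_of_card_ge (Subgroup.zpowers_le.2 hxX) ?_
    haveI : Fact (Nat.Prime 3) := ⟨Nat.prime_three⟩
    rw [hX, Nat.card_zpowers, orderOf_eq_prime (c.pow_three hX hxX) hx1]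
  have hfixX : ∀ r ∈ Q, x * r = r * x → r = 1 ∨ r = zH z := fun r hr hxr => c.fixed_eq hX hXN hr fun y hy => by
    rw [← hxgen] at hy
    obtain ⟨i, rfl⟩ := Subgroup.mem_zpowers_iff.1 hy
    exact (Commute.zpow_left hxr i).eq
  have hxh : x * h1 = h1 * x := Subgroup.mem_centralizer_iff.1 hcent x hxX
  have hz7 : h1 ^ 7 = 1 ∨ h1 ^ 7 = zH z :=
    c.fixed_eq hX hXN h17 fun y hy =>
      ((show Commute y h1 from Subgroup.mem_centralizer_iff.1 hcent y hy).pow_right 7).eq
  set g := h1 * h1 ^ 7 with hg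
  have hg7 : g ^ 7 = 1 := by
    rw [hg, ← pow_succ', ← pow_mul, show 8 * 7 = 7 * 8 from rfl, pow_mul]
    rcases hz7 with f | f <;> rw [f]
    · exact one_pow 8
    · rw [show (8 : ℕ) = 2 * 4 from rfl, pow_mul, pow_two, zH_sq hs, one_pow]
  have hg1 : g ≠ 1 := fun e => hh (by
    have h1Q : h1 ∈ Q := by
      rw [hg] at e
      rw [eq_inv_of_mul_eq_one_left e]; exact Q.inv_mem h17
    have := Q.mul_mem (Q.inv_mem hq1) h1Q
    rwa [hh1, inv_mul_cancel_left] at this)
  have hgx : x * g = g * x := ((show Commute x h1 from hxh).mul_right ((show Commute x h1 from hxh).pow_right 7)).eq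
  have hgfix : g * q * g⁻¹ = q ∨ g * q * g⁻¹ = zH z * q := by
    have e : g * q * g⁻¹ = h1 * (h1 ^ 7 * q * (h1 ^ 7)⁻¹) * h1⁻¹ := by rw [hg]; group
    rw [e]
    rcases hz7 with f | f <;> rw [f]
    · simpa using h1fix
    · rw [show zH z * q * (zH z)⁻¹ = q by rw [← zH_comm q, mul_inv_cancel_right]]; exact h1fix
  have hgq : g * q = q * g := by
    rcases hgfix with f | f
    · exact mul_inv_eq_iff_eq_mul.1 f
    · exfalso
      have hstep : ∀ k : ℕ, g ^ k * q * (g ^ k)⁻¹ = (zH z) ^ k * q := by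
        intro k
        induction k with
        | zero => simp
        | succ k ih =>
          rw [show g ^ (k + 1) * q * (g ^ (k + 1))⁻¹ = g ^ k * (g * q * g⁻¹) * (g ^ k)⁻¹ by rw [pow_succ]; group,
            f, conj_zH_mul, ih, ← mul_assoc, pow_succ']
      have e := hstep 7
      rw [hg7, show (zH z) ^ 7 = zH z * ((zH z * zH z) * (zH z * zH z) * (zH z * zH z)) by
        simp [pow_succ, mul_assoc], zH_sq hs] at e
      simp at e
      exact zH_ne_one hs e
  exact c.no_fixed_of_commute hg7 hg1 (c.pow_three hX hxX) hgx hfixX hq hgq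

/-- Stabilisers of non-trivial elements of `Q / ⟨z⟩` have index divisible by seven. -/
theorem seven_dvd_index (S : Subgroup ↥(Subgroup.centralizer ({z} : Set G)))
    {q : ↥(Subgroup.centralizer ({z} : Set G))} (hq : q ∈ Q) (hq1 : q ≠ 1) (hqz : q ≠ zH z)
    (hS : ∀ h ∈ S, h * q * h⁻¹ = q ∨ h * q * h⁻¹ = zH z * q) : 7 ∣ S.index := by
  haveI : Fact (Nat.Prime 7) := ⟨by norm_num⟩
  have h7 : 7 ∣ Nat.card S * S.index := by
    rw [Subgroup.card_mul_index, ← Subgroup.card_mul_index M, c.cardM, c.indexM]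
    norm_num
  rcases (Nat.Prime.dvd_mul (by norm_num)).1 h7 with h | h
  · exfalso
    obtain ⟨s, hs7⟩ := exists_prime_orderOf_dvd_card' (G := S) 7 h
    have hord : orderOf (s : ↥(Subgroup.centralizer ({z} : Set G))) = 7 := by rw [Subgroup.orderOf_coe, hs7]
    have hsQ : (s : ↥(Subgroup.centralizer ({z} : Set G))) ∉ Q := fun hm => by
      have : orderOf (s : ↥(Subgroup.centralizer ({z} : Set G))) ∣ Nat.card Q := by
        rw [← Nat.card_zpowers]; exact Subgroup.card_dvd_of_le (Subgroup.zpowers_le.2 hm)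
      rw [hord, c.cardQ] at this
      norm_num at this
    rcases c.no_fixed_seven (by rw [← hord, pow_orderOf_eq_one]; exact one_mem Q) hsQ hq (hS s s.2) with e | e
    exacts [hq1 e, hqz e]
  · exact h

end Chain

end CfsgLib.LargeFischer
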