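import Cfsg.Agent.Lib.LargeFischer.Frame

/-!
The elements of order seven are fixed-point-free on the module, and the group has exactly two orbits, of
lengths 378 and 1701, on the singular vectors.
-/

set_option autoImplicit false
set_option linter.unusedSectionVars false
set_option linter.style.haveILetI false

namespace CfsgLib.LargeFischer.Six

open CfsgLib.SchurMult.U43 Orbits

variable {Γ V : Type*} [Group Γ] [Finite Γ] [AddCommGroup V] [Finite V] [DistribMulAction Γ V]
  {σ : Γ →* G0} {x : Γ} {q : V → ZMod 2}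

theorem Cover.card (C : Cover σ x) : Nat.card Γ = 3 * 3265920 := by
  rw [← Subgroup.card_mul_index σ.ker, Subgroup.index_ker, MonoidHom.range_eq_top.2 C.surj, Subgroup.card_top,
    card_G0, C.ker, Nat.card_zpowers, orderOf_eq_prime C.cube C.ne_one]

theorem pow_two_sizes : ∀ k, k ≤ 12 → 2 ^ k % 7 = 1 → 2 ^ k % 3 = 1 → k ≠ 0 → 6 ≤ k := by decide

namespace Mod

variable (m : Mod σ x q)
include m

/-- `x` is fixed-point-free. -/
theorem x_fpf {v : V} (h : x • v = v) : v = 0 := by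
  obtain ⟨Φ, -, -, -, hx⟩ := m.exists_frame
  obtain ⟨w, rfl⟩ := Φ.surjective v
  rw [hx] at h
  have hw : w = fun _ => none := funext fun i => by
    have := congrFun (Φ.injective h) i
    rcases hwi : w i with _ | e
    · rfl
    · simp [shift, hwi] at this
  have h0 : Φ.symm 0 = fun _ => none := by
    obtain ⟨u, hu⟩ := Φ.surjective (0 : V)
    have hxu : x • Φ u = Φ u := by rw [hu, smul_zero]
    rw [hx] at hxu
    rw [← hu, Φ.symm_apply_apply]
    funext i
    have := congrFun (Φ.injective hxu) i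
    rcases hui : u i with _ | e
    · rfl
    · simp [shift, hui] at this
  rw [hw, ← h0, Φ.apply_symm_apply]

/-- Elements of order seven are fixed-point-free. -/
theorem seven_fpf {g : Γ} (h7 : g ^ 7 = 1) (hg : g ≠ 1) {v : V} (h : g • v = v) : v = 0 := by
  classical
  haveI : Fact (Nat.Prime 2) := ⟨Nat.prime_two⟩
  haveI : Fact (Nat.Prime 3) := ⟨Nat.prime_three⟩
  haveI : Fact (Nat.Prime 7) := ⟨by norm_num⟩
  obtain ⟨T, hT⟩ : ∃ T : V →+ V, ∀ v, T v = g • v := ⟨DistribMulAction.toAddMonoidHom V g, fun _ => rfl⟩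
  have hT7 : ∀ v, T (T (T (T (T (T (T v)))))) = v := fun v => by
    simp only [hT, ← mul_smul]
    rw [show g * (g * (g * (g * (g * (g * g))))) = g ^ 7 by simp [pow_succ, mul_assoc], h7, one_smul]
  have hdup : ∀ a b : V, a + (a + b) = b := fun a b => by rw [← add_assoc, m.two, zero_add]
  obtain ⟨P1, hP1⟩ : ∃ P : V →+ V, ∀ v, P v = T (T (T v)) + T v + v :=
    ⟨AddMonoidHom.mk' (fun v => T (T (T v)) + T v + v) fun a b => by simp only [map_add]; abel, fun _ => rfl⟩
  obtain ⟨P2, hP2⟩ : ∃ P : V →+ V, ∀ v, P v = T (T (T v)) + T (T v) + v :=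
    ⟨AddMonoidHom.mk' (fun v => T (T (T v)) + T (T v) + v) fun a b => by simp only [map_add]; abel, fun _ => rfl⟩
  have hTi : Function.Injective T := fun a b e => by rw [hT, hT] at e; exact (smul_left_cancel_iff g).1 e
  have hfix : ∀ {u : V}, (T u = u) → P1 u = u ∧ P2 u = u := fun {u} hu => by
    rw [hP1, hP2, hu, hu, hu, m.two, zero_add]; exact ⟨rfl, rfl⟩
  -- the two kernels meet trivially
  have h12 : ∀ {u : V}, P1 u = 0 → P2 u = 0 → u = 0 := fun {u} h1 h2 => by
    have e : T (T u) = T u := by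
      rw [hP1] at h1
      rw [hP2] at h2
      have h3 : T (T u) + T u = 0 := by
        have := h1.trans h2.symm
        rw [add_left_inj, add_right_inj] at this
        rw [← this, m.two]
      rw [eq_neg_of_add_eq_zero_left h3]
      exact neg_eq_of_add_eq_zero_right (m.two _)
    exact (hfix (hTi e)).1.symm.trans h1
  -- adjunction
  have hB : ∀ u v : V, polar2 q (T u) (T v) = polar2 q u v := fun u v => by
    rw [hT, hT]; exact m.polar_smul g u v
  have hadj1 : ∀ u v : V, P1 u = 0 → polar2 q u (P2 v) = 0 := fun u v hu => by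
    have h0 : polar2 q (P1 u) (T (T (T v))) = 0 := by rw [hu, polar_comm, m.polar_zero]
    rw [hP1, m.badd, m.badd, hB, hB, hB, hB] at h0
    rw [hP2, m.polar_add_right, m.polar_add_right]
    linear_combination h0
  have hadj2 : ∀ u v : V, P2 u = 0 → polar2 q u (P1 v) = 0 := fun u v hu => by
    have h0 : polar2 q (P2 u) (T (T (T v))) = 0 := by rw [hu, polar_comm, m.polar_zero]
    rw [hP2, m.badd, m.badd, hB, hB, hB, hB, hB] at h0
    rw [hP1, m.polar_add_right, m.polar_add_right]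
    linear_combination h0
  have hne1 : ∃ u, T u ≠ u := by
    by_contra hcon
    push Not at hcon
    exact hg (m.faithful g fun w => by rw [← hT]; exact hcon w)
  have hprod : ∀ u, P1 (P2 (T u + u)) = 0 := fun u => by
    simp only [hP1, hP2, map_add]
    rw [hT7]
    have h4 : ∀ w : V, (4 : ℕ) • w = 0 := fun w => by
      rw [show 4 = 2 * 2 from rfl, mul_nsmul', two_nsmul, m.two]
    have h2 : ∀ w : V, (2 : ℕ) • w = 0 := fun w => by rw [two_nsmul, m.two]
    abel_nf
    simp only [← natCast_zsmul, Nat.cast_ofNat] at h4 h2 ⊢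
    simp only [h4, h2, add_zero]
  have hU1 : ∃ u, u ≠ 0 ∧ P1 u = 0 := by
    by_contra hcon
    push Not at hcon
    have hi1 : Function.Injective P1 := (injective_iff_map_eq_zero P1).2 fun u hu => by
      by_contra hu0; exact hcon u hu0 hu
    have hi2 : Function.Injective P2 := (injective_iff_map_eq_zero P2).2 fun u hu => m.nondeg u fun w => by
      obtain ⟨w, rfl⟩ := (Finite.injective_iff_surjective.1 hi1) w
      exact hadj2 u w hu
    obtain ⟨u, hu⟩ := hne1
    have := hi1 ((hprod u).trans (map_zero P1).symm)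
    rw [← map_zero P2] at this
    exact hu (by
      rw [eq_neg_of_add_eq_zero_left (hi2 this)]
      exact neg_eq_of_add_eq_zero_right (m.two u))
  have hU2 : ∃ u, u ≠ 0 ∧ P2 u = 0 := by
    by_contra hcon
    push Not at hcon
    have hi2 : Function.Injective P2 := (injective_iff_map_eq_zero P2).2 fun u hu => by
      by_contra hu0; exact hcon u hu0 hu
    obtain ⟨u, hu0, hu⟩ := hU1
    refine hu0 (m.nondeg u fun w => ?_)
    obtain ⟨w, rfl⟩ := (Finite.injective_iff_surjective.1 hi2) w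
    exact hadj1 u w hu
  -- the sizes of the kernels
  have hsize : ∀ P : V →+ V, (∀ (γ : Γ) u, γ * g = g * γ → P (γ • u) = γ • P u) →
      (∀ u, T u = u → P u = u) → (∃ u, u ≠ 0 ∧ P u = 0) → 64 ≤ Nat.card P.ker := by
    intro P hc hP ⟨u0, hu0, hu0'⟩
    have hVp : IsPGroup 2 (Multiplicative V) := fun u => ⟨1, by
      rw [pow_one, pow_two]; exact Multiplicative.toAdd.injective (m.two u.toAdd)⟩
    obtain ⟨j, hj⟩ := (Nat.dvd_prime_pow Nat.prime_two).1
      (show Nat.card P.ker ∣ 2 ^ 12 from (AddSubgroup.card_addSubgroup_dvd_card P.ker).trans (by rw [m.card]; norm_num))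
    have hmod : ∀ (p : ℕ) [Fact p.Prime] (γ : Γ), γ * g = g * γ → γ ^ p = 1 →
        (∀ u, P u = 0 → γ • u = u → u = 0) → Nat.card P.ker % p = 1 := by
      intro p _ γ hγ hp hno
      obtain ⟨f, hf⟩ : ∃ f : P.ker → P.ker, ∀ u, (f u : V) = γ • (u : V) :=
        ⟨fun u => ⟨γ • (u : V), AddMonoidHom.mem_ker.2 (by rw [hc γ u hγ, AddMonoidHom.mem_ker.1 u.2, smul_zero])⟩,
          fun _ => rfl⟩
      have hit : ∀ (n : ℕ) u, ((f^[n] u : P.ker) : V) = γ ^ n • (u : V) := fun n => by
        induction n with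
        | zero => intro u; simp
        | succ n ih => intro u; rw [Function.iterate_succ_apply', hf, ih, ← mul_smul, ← pow_succ']
      have hiter : f^[p ^ 1] = id := funext fun u => Subtype.ext (by rw [hit, pow_one, hp, one_smul, id_eq])
      letI := Fintype.ofFinite P.ker
      have := Equiv.Perm.card_fixedPoints_modEq (p := p) (n := 1) (f := f) hiter
      have hone : Fintype.card f.fixedPoints = 1 := by
        rw [Fintype.card_eq_one_iff]
        refine ⟨⟨0, Subtype.ext (by rw [hf]; exact smul_zero γ)⟩, fun u => Subtype.ext (Subtype.ext ?_)⟩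
        exact hno _ (AddMonoidHom.mem_ker.1 u.1.2) ((hf _).symm.trans (congrArg Subtype.val u.2))
      rw [hone, ← Nat.card_eq_fintype_card] at this
      rw [this, Nat.one_mod_eq_one]
      exact (Fact.out : p.Prime).ne_one
    have h7' := hmod 7 g rfl h7 fun u hu hgu => by rw [← hP u ((hT u).trans hgu), hu]
    have h3' := hmod 3 x (m.cover.xc g).symm m.cover.cube fun u _ hxu => m.x_fpf hxu
    have hpos : 2 ≤ Nat.card P.ker := by
      rw [Nat.succ_le_iff, Finite.one_lt_card_iff_nontrivial]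
      exact ⟨⟨⟨u0, hu0'⟩, 0, fun e => hu0 (congrArg Subtype.val e)⟩⟩
    rw [hj.2] at h7' h3' hpos ⊢
    have := pow_two_sizes j hj.1 h7' h3' (by rintro rfl; simp at hpos)
    calc 64 = 2 ^ 6 := by norm_num
      _ ≤ 2 ^ j := Nat.pow_le_pow_right (by norm_num) this
  have hc1 : ∀ (γ : Γ) u, γ * g = g * γ → P1 (γ • u) = γ • P1 u := fun γ u hγ => by
    simp only [hP1, hT, smul_add, ← mul_smul]
    rw [show g * (g * (g * γ)) = γ * (g * (g * g)) by
      rw [← hγ, ← mul_assoc g γ, ← hγ, mul_assoc γ g, ← mul_assoc g γ, ← hγ, mul_assoc γ g], hγ]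
  have hc2 : ∀ (γ : Γ) u, γ * g = g * γ → P2 (γ • u) = γ • P2 u := fun γ u hγ => by
    simp only [hP2, hT, smul_add, ← mul_smul]
    rw [show g * (g * (g * γ)) = γ * (g * (g * g)) by
      rw [← hγ, ← mul_assoc g γ, ← hγ, mul_assoc γ g, ← mul_assoc g γ, ← hγ, mul_assoc γ g],
      show g * (g * γ) = γ * (g * g) by rw [← hγ, ← mul_assoc g γ, ← hγ, mul_assoc γ g]]
  have k1 := hsize P1 hc1 (fun u hu => (hfix hu).1) hU1
  have k2 := hsize P2 hc2 (fun u hu => (hfix hu).2) hU2
  -- the count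
  by_contra hv0
  obtain ⟨C, hC⟩ : ∃ C : AddSubgroup V, ∀ u, u ∈ C ↔ T u = u :=
    ⟨{ carrier := {u | T u = u}, zero_mem' := map_zero T,
       add_mem' := fun {a b} ha hb => by show T (a + b) = a + b; rw [map_add, ha, hb],
       neg_mem' := fun {a} ha => by show T (-a) = -a; rw [map_neg, ha] }, fun _ => Iff.rfl⟩
  have hinj : Function.Injective fun p : C × P1.ker × P2.ker => ((p.1 : V) + (p.2.1 : V) + (p.2.2 : V)) := by
    have key : ∀ c a b : V, T c = c → P1 a = 0 → P2 b = 0 → c + a + b = 0 → c = 0 ∧ a = 0 ∧ b = 0 := by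
      intro c a b hc ha hb e
      have hcomm : ∀ w, P1 (P2 w) = P2 (P1 w) := fun w => by simp only [hP1, hP2, map_add]; abel
      have e1 := congrArg (fun w => P1 (P2 w)) e
      simp only [map_add, map_zero, hb, add_zero] at e1
      rw [hcomm a, ha, map_zero, add_zero, (hfix hc).2, (hfix hc).1] at e1
      subst e1
      rw [zero_add] at e
      have e2 : a = b := by
        rw [eq_neg_of_add_eq_zero_left e]; exact neg_eq_of_add_eq_zero_right (m.two b)
      subst e2
      exact ⟨rfl, h12 ha hb, h12 ha hb⟩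
    rintro ⟨c, a, b⟩ ⟨c', a', b'⟩ e
    simp only at e
    obtain ⟨e1, e2, e3⟩ := key ((c - c' : C) : V) ((a - a' : P1.ker) : V) ((b - b' : P2.ker) : V)
      ((hC _).1 (c - c').2) (AddMonoidHom.mem_ker.1 (a - a').2) (AddMonoidHom.mem_ker.1 (b - b').2) (by
        simp only [AddSubgroup.coe_sub]
        rw [← sub_eq_zero] at e
        rw [← e]
        abel)
    simp only [AddSubgroup.coe_sub, sub_eq_zero] at e1 e2 e3
    exact Prod.ext (Subtype.ext e1) (Prod.ext (Subtype.ext e2) (Subtype.ext e3))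
  have hle := Nat.card_le_card_of_injective _ hinj
  rw [Nat.card_prod, Nat.card_prod, m.card] at hle
  have hC2 : 2 ≤ Nat.card C := by
    rw [Nat.succ_le_iff, Finite.one_lt_card_iff_nontrivial]
    exact ⟨⟨⟨v, (hC v).2 ((hT v).trans h)⟩, 0, fun e => hv0 (congrArg Subtype.val e)⟩⟩
  have := Nat.mul_le_mul hC2 (Nat.mul_le_mul k1 k2)
  omega

theorem seven_dvd_orbit {v : V} (hv : v ≠ 0) : 7 ∣ Nat.card (MulAction.orbit Γ v) := by
  haveI : Fact (Nat.Prime 7) := ⟨by norm_num⟩
  have hcard : Nat.card (MulAction.orbit Γ v) * Nat.card (MulAction.stabilizer Γ v) = Nat.card Γ := by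
    rw [Nat.card_congr (MulAction.orbitEquivQuotientStabilizer Γ v), ← Subgroup.index_eq_card, mul_comm]
    exact Subgroup.card_mul_index _
  rcases (Nat.Prime.dvd_mul (by norm_num : Nat.Prime 7)).1
    (show 7 ∣ Nat.card (MulAction.orbit Γ v) * Nat.card (MulAction.stabilizer Γ v) by
      rw [hcard, m.cover.card]; norm_num) with h | h
  · exact h
  · obtain ⟨g, hg⟩ := exists_prime_orderOf_dvd_card' 7 h
    exfalso
    have hg7 : ((g : Γ)) ^ 7 = 1 := by rw [← SubmonoidClass.coe_pow, ← hg, pow_orderOf_eq_one]; rfl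
    refine hv (m.seven_fpf hg7 (fun e => ?_) g.2)
    have : g = 1 := Subtype.ext e
    rw [this, orderOf_one] at hg
    norm_num at hg

/-- **The two orbits on singular vectors.** -/
theorem two_orbits : ∃ v₂ v₄ : V, v₂ ≠ 0 ∧ v₄ ≠ 0 ∧ q v₂ = 0 ∧ q v₄ = 0 ∧
    Nat.card (MulAction.orbit Γ v₂) = 378 ∧ Nat.card (MulAction.orbit Γ v₄) = 1701 ∧
    ∀ v : V, v ≠ 0 → q v = 0 → v ∈ MulAction.orbit Γ v₂ ∨ v ∈ MulAction.orbit Γ v₄ := by
  obtain ⟨Φ, hdiag, hperm, hq, hx⟩ := m.exists_frame
  letI : MulAction Γ Pt :=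
    { smul := fun γ v => Φ.symm (γ • Φ v)
      one_smul := fun v => show Φ.symm ((1 : Γ) • Φ v) = v by rw [one_smul, Φ.symm_apply_apply]
      mul_smul := fun a b v => show Φ.symm ((a * b) • Φ v) = Φ.symm (a • Φ (Φ.symm (b • Φ v))) by
        rw [Φ.apply_symm_apply, mul_smul] }
  have hsm : ∀ (γ : Γ) (v : Pt), γ • v = Φ.symm (γ • Φ v) := fun _ _ => rfl
  have hnone : Φ (fun _ => none) = 0 := m.x_fpf (by rw [hx]; congr 1)
  have hzero : ∀ v : Pt, Φ v = 0 → v = fun _ => none := fun v hv => Φ.injective (hv.trans hnone.symm)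
  have hsing : ∀ v : Pt, Singular v ↔ Φ v ≠ 0 ∧ q (Φ v) = 0 := fun v => by
    rw [Singular, hq, ZMod.natCast_eq_zero_iff_even]
    exact and_congr_left' ⟨fun h e => h (hzero v e), fun h e => h (e ▸ hnone)⟩
  have horb : ∀ v w : Pt, w ∈ MulAction.orbit Γ v ↔ Φ w ∈ MulAction.orbit Γ (Φ v) := fun v w => by
    constructor
    · rintro ⟨γ, rfl⟩; exact ⟨γ, by simp only [hsm, Equiv.apply_symm_apply]⟩
    · rintro ⟨γ, h⟩; exact ⟨γ, by
        show γ • v = w
        rw [hsm]
        exact Φ.symm_apply_eq.2 h⟩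
  have hcardorb : ∀ v : Pt, Nat.card (MulAction.orbit Γ v) = Nat.card (MulAction.orbit Γ (Φ v)) := fun v =>
    Nat.card_congr (Φ.subtypeEquiv fun w => horb v w)
  obtain ⟨v₂, v₄, -, hw2, hw4, -, -, hc2, hc4, -, hcov⟩ := Orbits.two_orbits (Γ := Γ)
    (fun a ha => by
      obtain ⟨γ, hγ⟩ := hdiag a ha
      exact ⟨γ, fun v => by rw [hsm, hγ, Φ.symm_apply_apply]⟩)
    (fun g hg => by
      obtain ⟨γ, hγ⟩ := hperm g hg
      exact ⟨γ, fun v => hγ v⟩)
    (fun γ v hv => by
      rw [hsing] at hv ⊢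
      rw [hsm, Φ.apply_symm_apply, m.qinv]
      exact ⟨fun e => hv.1 ((smul_eq_zero_iff_eq γ).1 e), hv.2⟩)
    (fun v hv => by rw [hcardorb]; exact m.seven_dvd_orbit ((hsing v).1 hv).1)
    (by rw [m.cover.card]; norm_num)
  refine ⟨Φ v₂, Φ v₄, ((hsing v₂).1 ?_).1, ((hsing v₄).1 ?_).1, ((hsing v₂).1 ?_).2, ((hsing v₄).1 ?_).2,
    (hcardorb v₂).symm.trans hc2, (hcardorb v₄).symm.trans hc4, fun v hv0 hvq => ?_⟩
  · exact singular_iff.2 (Or.inl hw2)
  · exact singular_iff.2 (Or.inr (Or.inl hw4))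
  · exact singular_iff.2 (Or.inl hw2)
  · exact singular_iff.2 (Or.inr (Or.inl hw4))
  obtain ⟨w, rfl⟩ := Φ.surjective v
  rw [← horb, ← horb]
  exact hcov w ((hsing w).2 ⟨hv0, hvq⟩)

end Mod

end CfsgLib.LargeFischer.Six
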