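import Cfsg.Agent.Lib.Fischer.OrthSixMinusAut
import Cfsg.Agent.Lib.Fischer.UnitarySemilinear

/-!
A group of order 51840 acting faithfully and semilinearly on a hermitian space of dimension four over
the field with four elements is `O⁻₆(2)`.
-/

set_option autoImplicit false
set_option linter.unusedSectionVars false
set_option linter.style.haveILetI false

namespace CfsgLib.LargeFischer.UnitaryStab

open Matrix CfsgLib.ClassicalForms CfsgLib.Geometric CfsgLib.InvChar.UnitaryTVTwo
open CfsgLib.Fischer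

variable {F : Type} [Field F] [Fintype F]

/-- A subgroup of index at most three of `SU₄(2)` is everything. -/
theorem eq_top_of_index_le (hF : Fintype.card F = 4) (K : Subgroup (Cfsg.SU 4 F 2)) (hK : K.index ≤ 3) :
    K = ⊤ := by
  classical
  haveI := UnitaryPoint.isSimple_su4 hF
  rcases K.normalCore_normal.eq_bot_or_eq_top with h | h
  · exfalso
    have hinj : Function.Injective (MulAction.toPermHom (Cfsg.SU 4 F 2) (Cfsg.SU 4 F 2 ⧸ K)) := by
      rw [← MonoidHom.ker_eq_bot_iff, ← Subgroup.normalCore_eq_ker, h]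
    have h1 := Nat.card_le_card_of_injective _ hinj
    rw [UnitaryPoint.natCard_su4 hF, Nat.card_perm, ← Subgroup.index_eq_card] at h1
    have h2 : K.index.factorial ≤ Nat.factorial 3 := Nat.factorial_le hK
    have h3 : Nat.factorial 3 = 6 := rfl
    omega
  · exact top_le_iff.1 (h ▸ Subgroup.normalCore_le K)

theorem natCard_mulAut (hF : Fintype.card F = 4) : Nat.card (MulAut (Cfsg.PSU 4 F 2)) = 51840 := by
  haveI : Fact (Nat.Prime 2) := ⟨Nat.prime_two⟩
  have h := Cfsg.Agent.S0815.result (F := F) 2 1 le_rfl (q := 2) (by norm_num) (by rw [hF]; norm_num) 4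
    (by norm_num) (by norm_num)
  rw [h, UnitaryPoint.natCard_psu4 hF]
  norm_num

theorem natCard_gu4 (hF : Fintype.card F = 4) : Nat.card (Cfsg.GU 4 F 2) = 77760 := by
  have hFn : Nat.card F = 2 ^ 2 := by rw [Nat.card_eq_fintype_card, hF]; norm_num
  rw [card_gu hFn]
  norm_num [Finset.prod_range_succ, Nat.even_iff]

variable (hF : Fintype.card F = 4) {Y : Type*} [Group Y] [Finite Y]
  (ρ : Y →* Equiv.Perm (Fin 4 → F))
  (hadd : ∀ (y : Y) (u v : Fin 4 → F), ρ y (u + v) = ρ y u + ρ y v)
  (hsemi : ∀ y : Y, ∃ σ : F ≃+* F, (∀ (a : F) (v : Fin 4 → F), ρ y (a • v) = σ a • ρ y v) ∧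
    ∀ u v : Fin 4 → F, Cfsg.hermForm 4 F 2 (ρ y u) (ρ y v) = σ (Cfsg.hermForm 4 F 2 u v))

/-- The linear elements. -/
def linearPart : Subgroup Y where
  carrier := {y | ∀ (a : F) (v : Fin 4 → F), ρ y (a • v) = a • ρ y v}
  one_mem' a v := by rw [map_one]; rfl
  mul_mem' {y y'} hy hy' a v := by
    rw [map_mul, Equiv.Perm.mul_apply, Equiv.Perm.mul_apply, hy', hy]
  inv_mem' {y} hy a v := by
    rw [map_inv]
    apply (ρ y).injective
    rw [← Equiv.Perm.mul_apply, mul_inv_cancel, Equiv.Perm.one_apply, hy, ← Equiv.Perm.mul_apply,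
      mul_inv_cancel, Equiv.Perm.one_apply]

include hF hadd hsemi

/-- **The end of S5443.** -/
theorem nonempty_equiv (hinj : Function.Injective ρ) (hY : Nat.card Y = 51840) :
    Nonempty (Y ≃* Cfsg.isometryGroup (ZMod 2) (Cfsg.quadFormMinus 2 (ZMod 2) 1 1)) := by
  classical
  set Y0 := linearPart ρ with hY0def
  -- index at most two
  have hprod : ∀ y y' : Y, y ∉ Y0 → y' ∉ Y0 → y * y' ∈ Y0 := by
    intro y y' hy hy' a v
    obtain ⟨σ, hσ, -⟩ := hsemi y
    obtain ⟨σ', hσ', -⟩ := hsemi y'
    have hfrob : ∀ (z : Y) (τ : F ≃+* F), (∀ (a : F) (v : Fin 4 → F), ρ z (a • v) = τ a • ρ z v) →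
        z ∉ Y0 → τ = UnitarySemilinear.frob hF := fun z τ hτ hz =>
      (UnitarySemilinear.ringEquiv_cases hF τ).resolve_left fun h => hz fun a v => by
        rw [hτ, h]; rfl
    rw [map_mul, Equiv.Perm.mul_apply, Equiv.Perm.mul_apply, hσ', hσ, hfrob y σ hσ hy,
      hfrob y' σ' hσ' hy', UnitarySemilinear.frob_apply, UnitarySemilinear.frob_apply]
    rw [(conj hF).invol]
  have hidx : Y0.index ≤ 2 := by
    by_contra hcon
    haveI := Fintype.ofFinite (Y ⧸ Y0)
    obtain ⟨f⟩ : Nonempty (Fin 3 ↪ Y ⧸ Y0) := Function.Embedding.nonempty_of_card_le (by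
      rw [Fintype.card_fin, ← Nat.card_eq_fintype_card]
      exact Nat.lt_of_not_le hcon)
    obtain ⟨q, hq⟩ : ∃ q : Fin 3 → Y, ∀ i, (q i : Y ⧸ Y0) = f i :=
      ⟨fun i => (f i).out, fun i => QuotientGroup.out_eq' _⟩
    have hne : ∀ i j, i ≠ j → (q i)⁻¹ * q j ∉ Y0 := fun i j hij h =>
      hij (f.injective (by rw [← hq, ← hq]; exact QuotientGroup.eq.2 h))
    have := hprod _ _ (hne 0 1 (by decide)) (hne 1 2 (by decide))
    rw [show (q 0)⁻¹ * q 1 * ((q 1)⁻¹ * q 2) = (q 0)⁻¹ * q 2 by group] at this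
    exact hne 0 2 (by decide) this
  -- linear matrices
  let L : Y0 →* Module.End F (Fin 4 → F) :=
    { toFun := fun y =>
        { toFun := fun v => ρ y.1 v
          map_add' := hadd y.1
          map_smul' := fun a v => y.2 a v }
      map_one' := LinearMap.ext fun v => by show ρ 1 v = v; rw [map_one]; rfl
      map_mul' := fun a b => LinearMap.ext fun v => by
        show ρ (a.1 * b.1) v = ρ a.1 (ρ b.1 v)
        rw [map_mul]; rfl }
  let Mt : Y0 →* GL (Fin 4) F :=
    ((LinearMap.toMatrixAlgEquiv' : Module.End F (Fin 4 → F) ≃ₐ[F] _).toMulEquiv.toMonoidHom.comp L).toHomUnits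
  have hap : ∀ (y : Y0) v, ap (Mt y) v = ρ y.1 v := fun y v => by
    show LinearMap.toMatrixAlgEquiv' (L y) *ᵥ v = ρ y.1 v
    rw [← Matrix.toLinAlgEquiv'_apply, Matrix.toLinAlgEquiv'_toMatrixAlgEquiv']
    rfl
  have hmem : ∀ y : Y0, Mt y ∈ Cfsg.GU 4 F 2 := by
    intro y u v
    show Cfsg.hermForm 4 F 2 (ap (Mt y) u) (ap (Mt y) v) = _
    rw [hap, hap]
    obtain ⟨σ, hσ, hh⟩ := hsemi y.1
    have hσ1 : ∀ a : F, σ a = a := by
      intro a
      have h := y.2 a (fun _ => 1)
      rw [hσ] at h
      have hne : ρ y.1 (fun _ => 1) ≠ 0 := fun e => by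
        have h0 : ρ y.1 0 = 0 := by
          have := hadd y.1 0 0
          rw [add_zero] at this
          exact left_eq_add.1 this
        exact one_ne_zero (congrFun ((ρ y.1).injective (e.trans h0.symm)) 0)
      exact smul_left_injective F hne h
    rw [hh, hσ1]
  let φ : Y0 →* Cfsg.GU 4 F 2 := Mt.codRestrict _ hmem
  have hφ : Function.Injective φ := by
    intro a b h
    refine Subtype.ext (hinj (Equiv.ext fun v => ?_))
    rw [← hap, ← hap]
    exact congrArg (fun g : Cfsg.GU 4 F 2 => ap (g : GL (Fin 4) F) v) h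
  have hcY0 : Nat.card Y0 * Y0.index = 51840 := by rw [Y0.card_mul_index, hY]
  have hdvd : Nat.card Y0 ∣ 77760 := natCard_gu4 hF ▸ Subgroup.card_dvd_of_injective φ hφ
  have hY0c : Nat.card Y0 = 25920 ∧ Y0.index = 2 := by
    have h0 : Y0.index ≠ 0 := Subgroup.index_ne_zero_of_finite
    rcases (show Y0.index = 1 ∨ Y0.index = 2 by omega) with h | h <;> rw [h] at hcY0
    · exfalso
      rw [show Nat.card Y0 = 51840 by omega] at hdvd
      norm_num at hdvd
    · exact ⟨by omega, h⟩
  -- the image is `SU`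
  set T := (suToGU (F := F) (n := 4) (q := 2)).range with hTdef
  have hTle : T ≤ φ.range := by
    have hrel : (φ.range.comap suToGU).index ≤ 3 := by
      rw [Subgroup.index_comap]
      refine le_trans (Subgroup.relIndex_le_of_le_right le_top
        (by rw [Subgroup.relIndex_top_right]; exact Subgroup.index_ne_zero_of_finite)) ?_
      · rw [Subgroup.relIndex_top_right]
        have := φ.range.card_mul_index
        rw [natCard_gu4 hF, ← Nat.card_congr (MonoidHom.ofInjective hφ).toEquiv, hY0c.1] at this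
        omega
    intro t ht
    obtain ⟨s, rfl⟩ := ht
    have : s ∈ φ.range.comap suToGU := by rw [eq_top_of_index_le hF _ hrel]; trivial
    exact this
  have hTeq : T = φ.range := by
    refine Subgroup.eq_of_le_of_card_ge hTle ?_
    rw [← Nat.card_congr (MonoidHom.ofInjective hφ).toEquiv,
      ← Nat.card_congr (MonoidHom.ofInjective (suToGU_injective (F := F) (n := 4) (q := 2))).toEquiv,
      hY0c.1, UnitaryPoint.natCard_su4 hF]
  let e0 : Y0 ≃* Cfsg.PSU 4 F 2 := (((MonoidHom.ofInjective hφ).trans (MulEquiv.subgroupCongr hTeq.symm)).trans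
    (MonoidHom.ofInjective (suToGU_injective (F := F) (n := 4) (q := 2))).symm).trans
      (UnitaryPoint.psuEquiv hF).symm
  haveI : Y0.Normal := Subgroup.normal_of_index_eq_two hY0c.2
  -- conjugation is faithful
  let ψ : Y →* MulAut Y0 := MulAut.conjNormal
  have hψ : Function.Injective ψ := by
    refine (injective_iff_map_eq_one ψ).2 fun y hy => ?_
    have hcomm : ∀ w ∈ Y0, y * w = w * y := fun w hw => by
      have := congrArg (fun χ : MulAut Y0 => ((χ ⟨w, hw⟩ : Y0) : Y)) hy
      exact mul_inv_eq_iff_eq_mul.1 (by simpa [ψ] using this)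
    by_cases hy0 : y ∈ Y0
    · have hc : (⟨y, hy0⟩ : Y0) ∈ Subgroup.center Y0 :=
        Subgroup.mem_center_iff.2 fun w => Subtype.ext (hcomm w w.2).symm
      haveI := isSimpleGroup_psu (F := F) (n := 4) (q := 2) (by rw [hF]; norm_num) (by norm_num) (by norm_num)
      haveI := e0.isSimpleGroup
      rcases (inferInstance : (Subgroup.center Y0).Normal).eq_bot_or_eq_top with h | h
      · rw [h, Subgroup.mem_bot] at hc
        exact congrArg Subtype.val hc
      · exfalso
        letI : CommGroup Y0 := Group.commGroupOfCenterEqTop h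
        have := (inferInstance : IsSimpleGroup Y0).prime_card
        rw [hY0c.1] at this
        norm_num at this
    · exfalso
      obtain ⟨σ, hσ, -⟩ := hsemi y
      have hσf := (UnitarySemilinear.ringEquiv_cases hF σ).resolve_left fun h => hy0 fun a v => by
        rw [hσ, h]; rfl
      obtain ⟨θ, -, -, hθ0, hθ1, -⟩ := exists_theta hF
      obtain ⟨d, hd⟩ := UnitaryPoint.exists_diag hF ![θ, θ, θ, 1]
        (fun i => by fin_cases i <;> simp [hθ0])
        (by
          rw [Fin.prod_univ_four]
          simp only [Matrix.cons_val, mul_one]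
          rw [← pow_two, ← pow_succ]
          exact UnitaryPoint.pow_three hF hθ0)
      obtain ⟨w, hw⟩ : suToGU d ∈ φ.range := hTle ⟨d, rfl⟩
      have hwd : ∀ v i, ρ w.1 v i = ![θ, θ, θ, 1] i * v i := fun v i => by
        rw [← hap, ← hd v i]
        exact congrFun (congrArg (fun g : Cfsg.GU 4 F 2 => ap (g : GL (Fin 4) F) v) hw) i
      set e1 : Fin 4 → F := Pi.single 0 1 with he1
      have hde : ρ w.1 e1 = θ • e1 := funext fun i => by
        rw [hwd, he1]; fin_cases i <;> simp
      have hkey : ρ w.1 (ρ y e1) = σ θ • ρ y e1 := by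
        rw [← Equiv.Perm.mul_apply, ← map_mul, ← hcomm w.1 w.2, map_mul, Equiv.Perm.mul_apply, hde, hσ]
      have hσθ : σ θ = θ * θ := by rw [hσf, UnitarySemilinear.frob_apply, UnitarySemilinear.conj_eq_sq hF]
      have hzero : ρ y e1 = 0 := by
        funext i
        have h := congrFun hkey i
        rw [hwd, Pi.smul_apply, smul_eq_mul, hσθ] at h
        by_contra hne
        have h' := mul_right_cancel₀ hne h
        fin_cases i <;> simp at h'
        all_goals first
          | exact hθ1 h'
          | exact hθ1 (h'.resolve_right hθ0)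
          | exact hθ1 ((mul_eq_left₀ hθ0).1 h'.symm)
          | exact hθ0 (mul_self_eq_one_iff.1 h'.symm |>.elim (fun e => absurd e hθ1)
              (fun e => absurd (e.trans (neg_eq_of_add_eq_zero_left (add_self hF 1))) hθ1))
      have h0 : ρ y 0 = 0 := by
        have := hadd y 0 0
        rw [add_zero] at this
        exact left_eq_add.1 this
      have := (ρ y).injective (hzero.trans h0.symm)
      have h1 := congrFun this 0
      simp [he1] at h1
  have hA : Nat.card (MulAut Y0) = 51840 := by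
    rw [Nat.card_congr (MulAut.congr e0).toEquiv, natCard_mulAut hF]
  obtain ⟨eO⟩ := OrthSixMinusAut.nonempty_equiv hF
  exact ⟨((MulEquiv.ofBijective ψ (hψ.bijective_of_nat_card_le (by rw [hA, hY]))).trans (MulAut.congr e0)).trans eO⟩

end CfsgLib.LargeFischer.UnitaryStab
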