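import Cfsg.Agent.Lib.LargeFischer.Cover

/-!
An elementary abelian group of order `3^5` acting on a module of exponent two: the decomposition into the
weight spaces, indexed by the functionals up to sign.
-/

set_option autoImplicit false
set_option linter.unusedSectionVars false

namespace CfsgLib.LargeFischer.Six

/-- The dot product on five coordinates. -/
def dot5 (c u : U5) : ZMod 3 := ∑ i, c i * u i

/-- The representatives of the functionals up to sign. -/
def IsRep (c : U5) : Prop := ∃ i, c i = 1 ∧ ∀ j, j < i → c j = 0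

instance (c : U5) : Decidable (IsRep c) := by unfold IsRep; infer_instance

/-- The functionals up to sign. -/
abbrev Rep : Type := {c : U5 // IsRep c}

/-- The kernel of a functional. -/
def Zk (c : U5) : Finset U5 := Finset.univ.filter fun u => dot5 c u = 0

theorem mem_Zk {c u : U5} : u ∈ Zk c ↔ dot5 c u = 0 := by simp [Zk]

theorem dot5_add (c u v : U5) : dot5 c (u + v) = dot5 c u + dot5 c v := by
  simp [dot5, mul_add, Finset.sum_add_distrib]

/-- The functional as a homomorphism. -/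
def dotHom (c : U5) : U5 →+ ZMod 3 := AddMonoidHom.mk' (dot5 c) (dot5_add c)

theorem dot5_neg (c u : U5) : dot5 c (-u) = -dot5 c u := map_neg (dotHom c) u

theorem dot5_zero (c : U5) : dot5 c 0 = 0 := map_zero (dotHom c)

theorem rep_ne_zero (c : Rep) : c.1 ≠ 0 := by
  obtain ⟨i, hi, -⟩ := c.2
  intro h
  rw [h] at hi
  exact absurd hi zero_ne_one

theorem dot5_smul (c : U5) (k : ZMod 3) (u : U5) : dot5 c (k • u) = k * dot5 c u := by
  simp only [dot5, Finset.mul_sum, Pi.smul_apply, smul_eq_mul]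
  exact Finset.sum_congr rfl fun i _ => by ring

theorem smul_dot5 (c : U5) (k : ZMod 3) (u : U5) : dot5 (k • c) u = k * dot5 c u := by
  simp only [dot5, Finset.mul_sum, Pi.smul_apply, smul_eq_mul]
  exact Finset.sum_congr rfl fun i _ => by ring

theorem card_Zk : ∀ c : U5, c ≠ 0 → (Zk c).card = 81 := by
  intro c hc
  obtain ⟨i, hi⟩ := Function.ne_iff.1 hc
  have hs : Function.Surjective (dotHom c) := fun a => ⟨Pi.single i (a * (c i)⁻¹), by
    have hne : c i ≠ 0 := hi
    simp [dotHom, dot5, Pi.single_apply]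
    field_simp⟩
  have h3 : Nat.card (ZMod 3) = 3 := by simp
  have hker : Nat.card (dotHom c).ker = (Zk c).card := by
    rw [← Nat.card_eq_finsetCard]
    exact Nat.card_congr (Equiv.subtypeEquivRight fun u => by simp [mem_Zk, dotHom])
  have h := (dotHom c).ker.card_mul_index
  rw [AddSubgroup.index_ker, AddMonoidHom.range_eq_top.2 hs, AddSubgroup.card_top, h3, hker,
    Nat.card_eq_fintype_card, Fintype.card_fun, ZMod.card, Fintype.card_fin] at h
  omega

theorem card_rep : Fintype.card Rep = 121 := by decide +kernel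

theorem count_Zk : ∀ u : U5,
    ((Finset.univ : Finset Rep).filter fun c => u ∈ Zk c.1).card % 2 = if u = 0 then 1 else 0 := by
  simp only [mem_Zk, dot5, Fin.sum_univ_five]
  decide +kernel

theorem rep_smul : ∀ d : U5, ∀ k : ZMod 3, IsRep d → IsRep (k • d) → k = 1 := by decide +kernel

theorem exists_rep_smul : ∀ c : U5, c ≠ 0 → ∃ k : ZMod 3, k ≠ 0 ∧ IsRep (k • c) := by decide +kernel

theorem zmod3_ne : ∀ k : ZMod 3, k ≠ 0 → k = 1 ∨ k = 2 := by decide

theorem exists_dot_one (c : Rep) : ∃ u, dot5 c.1 u = 1 := by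
  obtain ⟨i, hi, -⟩ := c.2
  exact ⟨Pi.single i 1, by simp [dot5, Pi.single_apply, hi]⟩

theorem exists_not_mem_Zk {c d : Rep} (h : c ≠ d) : ∃ u ∈ Zk d.1, dot5 c.1 u ≠ 0 := by
  by_contra hc
  push Not at hc
  obtain ⟨u1, hu1⟩ := exists_dot_one d
  have key : ∀ u, dot5 c.1 u = dot5 c.1 u1 * dot5 d.1 u := fun u => by
    have h0 : dot5 c.1 (u + -(dot5 d.1 u • u1)) = 0 := hc _ (mem_Zk.2 (by
      rw [dot5_add, dot5_neg, dot5_smul, hu1, mul_one, add_neg_cancel]))
    rw [dot5_add, dot5_neg, dot5_smul, add_neg_eq_zero] at h0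
    rw [h0, mul_comm]
  have e : c.1 = dot5 c.1 u1 • d.1 := funext fun i => by
    have := key (Pi.single i 1)
    simpa [dot5, Pi.single_apply] using this
  have h1 := rep_smul d.1 _ d.2 (e ▸ c.2)
  rw [h1, one_smul] at e
  exact h (Subtype.ext e)

namespace Weights

variable {Γ V : Type*} [Group Γ] [AddCommGroup V] [DistribMulAction Γ V]
variable (φ : Multiplicative U5 →* Γ)

/-- The action of a vector. -/
def act (u : U5) (v : V) : V := φ (Multiplicative.ofAdd u) • v

/-- The sum over the kernel of a functional. -/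
def pk (c : U5) (v : V) : V := ∑ u ∈ Zk c, act φ u v

/-- The sum over everything. -/
def pall (v : V) : V := ∑ u : U5, act φ u v

/-- The projection to a weight space. -/
def eps (c : U5) (v : V) : V := pk φ c v + pall φ v

theorem act_zero (v : V) : act φ 0 v = v := by simp [act]

theorem act_add (a b : U5) (v : V) : act φ (a + b) v = act φ a (act φ b v) := by
  simp [act, ofAdd_add, mul_smul]

theorem act_vadd (a : U5) (v w : V) : act φ a (v + w) = act φ a v + act φ a w := smul_add _ _ _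

theorem act_map_zero (a : U5) : act φ a (0 : V) = 0 := smul_zero _

theorem act_comm (a b : U5) (v : V) : act φ a (act φ b v) = act φ b (act φ a v) := by
  rw [← act_add, ← act_add, add_comm]

theorem act_sum (a : U5) {ι : Type*} (s : Finset ι) (f : ι → V) :
    act φ a (∑ i ∈ s, f i) = ∑ i ∈ s, act φ a (f i) :=
  map_sum (DistribMulAction.toAddMonoidHom V (φ (Multiplicative.ofAdd a))) f s

theorem pk_add (c : U5) (v w : V) : pk φ c (v + w) = pk φ c v + pk φ c w := by
  simp [pk, act_vadd, Finset.sum_add_distrib]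

theorem pall_add (v w : V) : pall φ (v + w) = pall φ v + pall φ w := by
  simp [pall, act_vadd, Finset.sum_add_distrib]

theorem eps_add (c : U5) (v w : V) : eps φ c (v + w) = eps φ c v + eps φ c w := by
  rw [eps, eps, eps, pk_add, pall_add]; abel

theorem act_pall (a : U5) (v : V) : act φ a (pall φ v) = pall φ v := by
  rw [pall, act_sum]
  refine Fintype.sum_equiv (Equiv.addLeft a) _ _ fun u => ?_
  rw [← act_add, Equiv.coe_addLeft]

theorem pall_act (a : U5) (v : V) : pall φ (act φ a v) = pall φ v := by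
  rw [pall, pall]
  refine Fintype.sum_equiv (Equiv.addRight a) _ _ fun u => ?_
  rw [← act_add, Equiv.coe_addRight]

theorem act_pk {c a : U5} (ha : dot5 c a = 0) (v : V) : act φ a (pk φ c v) = pk φ c v := by
  rw [pk, act_sum]
  refine Finset.sum_equiv (Equiv.addLeft a) (fun u => ?_) fun u _ => ?_
  · rw [mem_Zk, mem_Zk, Equiv.coe_addLeft, dot5_add, ha, zero_add]
  · rw [← act_add, Equiv.coe_addLeft]

theorem act_eps {c a : U5} (ha : dot5 c a = 0) (v : V) : act φ a (eps φ c v) = eps φ c v := by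
  rw [eps, act_vadd, act_pk φ ha, act_pall]

variable {φ}
variable (h2 : ∀ v : V, v + v = 0)
include h2

theorem nsmul_mod (n : ℕ) (v : V) : n • v = (n % 2) • v := by
  conv_lhs => rw [← Nat.mod_add_div n 2, add_nsmul, mul_comm, mul_nsmul', two_nsmul, h2, nsmul_zero, add_zero]

theorem pall_fixed {v : V} (h : ∀ u, act φ u v = v) : pall φ v = v := by
  rw [pall, Finset.sum_congr rfl fun u _ => h u, Finset.sum_const, nsmul_mod h2]
  simp

theorem pk_fixed {c : U5} (hc : c ≠ 0) {v : V} (h : ∀ u, dot5 c u = 0 → act φ u v = v) :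
    pk φ c v = v := by
  rw [pk, Finset.sum_congr rfl fun u hu => h u (mem_Zk.1 hu), Finset.sum_const, card_Zk c hc, nsmul_mod h2]
  simp

theorem pall_pall (v : V) : pall φ (pall φ v) = pall φ v := pall_fixed h2 fun u => act_pall φ u v

theorem pall_pk {c : U5} (hc : c ≠ 0) (v : V) : pall φ (pk φ c v) = pall φ v := by
  rw [pall, pk]
  simp only [act_sum]
  rw [Finset.sum_comm, Finset.sum_congr rfl fun u _ =>
    show ∑ a : U5, act φ a (act φ u v) = pall φ v from pall_act φ u v, Finset.sum_const, card_Zk c hc, nsmul_mod h2]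
  simp

theorem pall_eps {c : U5} (hc : c ≠ 0) (v : V) : pall φ (eps φ c v) = 0 := by
  rw [eps, pall_add, pall_pk h2 hc, pall_pall h2, h2]

/-- The decomposition of a vector. -/
theorem decomp (v : V) : pall φ v + ∑ c : Rep, eps φ c.1 v = v := by
  have e : ∑ c : Rep, pk φ c.1 v = v := by
    simp only [pk]
    rw [Finset.sum_comm' (t' := (Finset.univ : Finset U5))
      (s' := fun u => (Finset.univ : Finset Rep).filter fun c => u ∈ Zk c.1) (by intro c u; simp)]
    rw [Finset.sum_congr rfl (g := fun u => if u = 0 then v else 0) fun u _ => by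
      rw [Finset.sum_const, nsmul_mod h2, count_Zk]
      split_ifs with h
      · rw [one_nsmul, h, act_zero]
      · rw [zero_nsmul]]
    rw [Finset.sum_ite_eq' Finset.univ (0 : U5) (fun _ => v), if_pos (Finset.mem_univ _)]
  simp only [eps, Finset.sum_add_distrib, e, Finset.sum_const, Finset.card_univ, card_rep]
  rw [nsmul_mod h2]
  simp only [Nat.reduceMod, one_nsmul]
  rw [add_left_comm, h2, add_zero]

omit h2

variable (φ) in
/-- A weight space. -/
def Vc (c : U5) : AddSubgroup V where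
  carrier := {v | (∀ u, dot5 c u = 0 → act φ u v = v) ∧ pall φ v = 0}
  zero_mem' := ⟨fun u _ => act_map_zero φ u, by simp [pall, act_map_zero]⟩
  add_mem' := fun {v w} hv hw => ⟨fun u hu => by rw [act_vadd, hv.1 u hu, hw.1 u hu], by
    rw [pall_add, hv.2, hw.2, add_zero]⟩
  neg_mem' := fun {v} hv => ⟨fun u hu => by
    show φ _ • (-v) = -v
    rw [smul_neg]; exact congrArg Neg.neg (hv.1 u hu), by
    have e := pall_add φ v (-v)
    rw [add_neg_cancel, hv.2, zero_add] at e
    rw [← e]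
    simp [pall, act_map_zero]⟩

theorem mem_Vc {c : U5} {v : V} : v ∈ Vc φ c ↔ (∀ u, dot5 c u = 0 → act φ u v = v) ∧ pall φ v = 0 := Iff.rfl

theorem act_mem_Vc {c : U5} {v : V} (h : v ∈ Vc φ c) (a : U5) : act φ a v ∈ Vc φ c :=
  ⟨fun u hu => by rw [act_comm, h.1 u hu], by rw [pall_act]; exact h.2⟩

include h2

theorem eps_mem {c : U5} (hc : c ≠ 0) (v : V) : eps φ c v ∈ Vc φ c :=
  ⟨fun _ hu => act_eps φ hu v, pall_eps h2 hc v⟩

theorem eps_self {c : U5} (hc : c ≠ 0) {v : V} (h : v ∈ Vc φ c) : eps φ c v = v := by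
  rw [eps, pk_fixed h2 hc h.1, h.2, add_zero]

theorem pk_other {c d : Rep} (h : c ≠ d) {v : V} (hv : v ∈ Vc φ c.1) : pk φ d.1 v = 0 := by
  obtain ⟨u0, hu0, hcu⟩ := exists_not_mem_Zk h
  rw [mem_Zk] at hu0
  have hfix : ∀ u, act φ u (pk φ d.1 v) = pk φ d.1 v := by
    intro u
    have hk : dot5 c.1 (u + -((dot5 c.1 u * (dot5 c.1 u0)⁻¹) • u0)) = 0 := by
      rw [dot5_add, dot5_neg, dot5_smul, mul_assoc, inv_mul_cancel₀ hcu, mul_one, add_neg_cancel]
    have e1 : ∀ a, dot5 c.1 a = 0 → act φ a (pk φ d.1 v) = pk φ d.1 v := fun a ha => by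
      rw [pk, act_sum]
      exact Finset.sum_congr rfl fun b _ => by rw [act_comm, hv.1 a ha]
    have e2 : dot5 d.1 ((dot5 c.1 u * (dot5 c.1 u0)⁻¹) • u0) = 0 := by rw [dot5_smul, hu0, mul_zero]
    rw [show u = (u + -((dot5 c.1 u * (dot5 c.1 u0)⁻¹) • u0)) + (dot5 c.1 u * (dot5 c.1 u0)⁻¹) • u0 by abel,
      act_add, act_pk φ e2, e1 _ hk]
  rw [← pall_fixed h2 hfix, pall_pk h2 (rep_ne_zero d), hv.2]

theorem eps_other {c d : Rep} (h : c ≠ d) {v : V} (hv : v ∈ Vc φ c.1) : eps φ d.1 v = 0 := by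
  rw [eps, pk_other h2 h hv, hv.2, add_zero]

theorem eq_of_mem_Vc {c d : Rep} {v : V} (hv : v ≠ 0) (hc : v ∈ Vc φ c.1) (hd : v ∈ Vc φ d.1) : c = d := by
  by_contra h
  exact hv (by rw [← eps_self h2 (rep_ne_zero d) hd, eps_other h2 h hc])

theorem act_ne {c : U5} {v : V} (hv : v ∈ Vc φ c) (h0 : v ≠ 0) {u : U5} (hu : dot5 c u ≠ 0) :
    act φ u v ≠ v := by
  intro e
  refine h0 ?_
  rw [← pall_fixed h2 (φ := φ) (v := v), hv.2]
  intro a
  obtain ⟨k, hk⟩ : ∃ k : ZMod 3, dot5 c (a + -(k • u)) = 0 :=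
    ⟨dot5 c a * (dot5 c u)⁻¹, by rw [dot5_add, dot5_neg, dot5_smul, mul_assoc, inv_mul_cancel₀ hu, mul_one,
      add_neg_cancel]⟩
  have e2 : act φ (k • u) v = v := by
    by_cases h : k = 0
    · rw [h, zero_smul, act_zero]
    rcases zmod3_ne k h with rfl | rfl
    · rwa [one_smul]
    · rw [two_smul, act_add, e, e]
  rw [show a = (a + -(k • u)) + k • u by abel, act_add, e2, hv.1 _ hk]

/-- A weight space is trivial or has at least four elements. -/
theorem four_le [Finite V] {c : Rep} {v : V} (hv : v ∈ Vc φ c.1) (h0 : v ≠ 0) :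
    4 ≤ Nat.card (Vc φ (V := V) c.1) := by
  obtain ⟨u, hu⟩ := exists_dot_one c
  have hne : act φ u v ≠ v := act_ne h2 hv h0 (by rw [hu]; exact one_ne_zero)
  have hne0 : act φ u v ≠ 0 := fun e => h0 (by
    have := congrArg (act φ (-u)) e
    rwa [← act_add, neg_add_cancel, act_zero, act_map_zero] at this)
  have hs : v + act φ u v ≠ 0 := fun e => hne (by
    rw [eq_neg_of_add_eq_zero_right e]; exact (eq_neg_of_add_eq_zero_right (h2 v)).symm)
  have := Nat.card_le_card_of_injective
    (![⟨0, zero_mem _⟩, ⟨v, hv⟩, ⟨act φ u v, act_mem_Vc hv u⟩, ⟨v + act φ u v, add_mem hv (act_mem_Vc hv u)⟩] :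
      Fin 4 → Vc φ (V := V) c.1) ?_
  · simpa using this
  intro i j hij
  have hij' := congrArg Subtype.val hij
  fin_cases i <;> fin_cases j <;> simp at hij' ⊢ <;>
    first
    | exact h0 hij'
    | exact h0 hij'.symm
    | exact hne0 hij'
    | exact hne0 hij'.symm
    | exact hne hij'
    | exact hne hij'.symm
    | exact hs hij'
    | exact hs hij'.symm
    | exact hne0 (left_eq_add.1 hij')
    | exact hne0 (add_eq_left.1 hij')
    | exact h0 (right_eq_add.1 hij')
    | exact h0 (add_eq_right.1 hij')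

theorem sum_eps_mem [Finite V] {s : Finset Rep} (f : ∀ c : Rep, Vc φ (V := V) c.1) (v0 : V)
    (h0 : ∀ u, act φ u v0 = v0) {d : Rep} (hd : d ∈ s) :
    eps φ d.1 (v0 + ∑ c ∈ s, (f c : V)) = f d := by
  have e : ∀ (t : Finset Rep), eps φ d.1 (∑ c ∈ t, (f c : V)) = ∑ c ∈ t, eps φ d.1 (f c : V) := fun t =>
    map_sum (AddMonoidHom.mk' (eps φ d.1) (eps_add φ d.1)) _ _
  rw [eps_add, e, Finset.sum_eq_single d (fun c _ hcd => eps_other h2 hcd (f c).2) (fun h => absurd hd h),
    eps_self h2 (rep_ne_zero d) (f d).2, eps, pall_fixed h2 h0, pk_fixed h2 (rep_ne_zero d) fun u _ => h0 u, h2,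
    zero_add]

omit h2

variable (φ) in
/-- The common fixed points. -/
def Fix0 : AddSubgroup V where
  carrier := {v | ∀ u, act φ u v = v}
  zero_mem' := fun u => act_map_zero φ u
  add_mem' := fun {v w} hv hw u => by rw [act_vadd, hv u, hw u]
  neg_mem' := fun {v} hv u => by
    show φ _ • (-v) = -v
    rw [smul_neg]; exact congrArg Neg.neg (hv u)

variable (φ) in
/-- The nontrivial weights. -/
def weights : Set Rep := {c | Vc φ (V := V) c.1 ≠ ⊥}

include h2

theorem eps_eq_zero {c : Rep} (h : c ∉ weights φ (V := V)) (v : V) : eps φ c.1 v = 0 := by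
  simp only [weights, Set.mem_ofPred_eq, not_not] at h
  have := eps_mem h2 (rep_ne_zero c) v (φ := φ)
  rwa [h, AddSubgroup.mem_bot] at this

/-- **The count.** -/
theorem count [Finite V] :
    Nat.card (Fix0 φ (V := V)) * ∏ c ∈ (Set.toFinite (weights φ (V := V))).toFinset,
      Nat.card (Vc φ (V := V) c.1) ≤ Nat.card V := by
  classical
  obtain ⟨s, hs⟩ : ∃ s, s = (Set.toFinite (weights φ (V := V))).toFinset := ⟨_, rfl⟩
  rw [← hs]
  have hcard : ∏ c ∈ s, Nat.card (Vc φ (V := V) c.1) = Nat.card (∀ c : {c // c ∈ s}, Vc φ (V := V) c.1.1) := by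
    rw [Nat.card_pi, Finset.prod_coe_sort s fun c : Rep => Nat.card (Vc φ (V := V) c.1)]
  rw [hcard, ← Nat.card_prod]
  let g : (∀ c : {c // c ∈ s}, Vc φ (V := V) c.1.1) → ∀ c : Rep, Vc φ (V := V) c.1 := fun f c =>
    if h : c ∈ s then f ⟨c, h⟩ else 0
  refine Nat.card_le_card_of_injective
    (fun p : Fix0 φ (V := V) × (∀ c : {c // c ∈ s}, Vc φ (V := V) c.1.1) =>
      (p.1 : V) + ∑ c ∈ s, (g p.2 c : V)) ?_
  rintro ⟨a, f⟩ ⟨b, f'⟩ e
  have hf : f = f' := funext fun d => by
    have h1 := congrArg (eps φ d.1.1) e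
    simp only at h1
    rw [sum_eps_mem h2 (g f) a a.2 d.2, sum_eps_mem h2 (g f') b b.2 d.2] at h1
    simp only [g, dif_pos d.2] at h1
    exact Subtype.ext h1
  subst hf
  simp only [add_left_inj] at e
  exact Prod.ext (Subtype.ext e) rfl

end Weights

end CfsgLib.LargeFischer.Six
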